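import Mathlib
import Cfsg.Prelude.Def_Blocks
import Cfsg.Agent.Lib.Helper2.BlockBr
import Cfsg.Agent.Lib.Helper2.BlockExt
import Cfsg.Agent.Lib.Helper2.BlockExt2
import Cfsg.Agent.Lib.Helper7.BPair2
import Cfsg.Agent.S0906
import Cfsg.Agent.S0917

set_option autoImplicit false
set_option linter.unusedSectionVars false
set_option linter.unusedVariables false
set_option linter.style.haveILetI false

/-! Transitivity of block induction, defects of induced blocks. -/

namespace Cfsg.Agent.Lib.Helper7.BInd1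

open Cfsg Cfsg.Agent.Lib.Helper7.CharIrr Cfsg.Agent.Lib.Helper7.CharOrth
  Cfsg.Agent.Lib.Helper7.CharIntegral Cfsg.Agent.Lib.Helper7.CharMore
  Cfsg.Agent.Lib.Helper7.CharClassAlg Cfsg.Agent.Lib.Helper7.CharComplete
  Cfsg.Agent.Lib.Helper7.CharBurnside
  Cfsg.Agent.Lib.Helper2.LocRing Cfsg.Agent.Lib.Helper2.CentralMod
  Cfsg.Agent.Lib.Helper2.BlockZ Cfsg.Agent.Lib.Helper2.BlockOrth Cfsg.Agent.Lib.Helper2.BlockFix
  Cfsg.Agent.Lib.Helper2.BlockLam Cfsg.Agent.Lib.Helper2.BlockN Cfsg.Agent.Lib.Helper2.BlockSub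
  Cfsg.Agent.Lib.Helper2.BlockAvg Cfsg.Agent.Lib.Helper2.BlockBr
  Cfsg.Agent.Lib.Helper2.BlockExt Cfsg.Agent.Lib.Helper7.BPair2
open scoped ComplexConjugate

section Transport

variable {A K : Type*} [Group A] [Group K] [Fintype A] [Fintype K]

/-- transport of a set of characters along an isomorphism -/
def trSet (e : K ≃* A) (β : Set (IrrCharacter A)) : Set (IrrCharacter K) :=
  {θ' | tr e.symm θ' ∈ β}

theorem tr_mem_trSet (e : K ≃* A) {β : Set (IrrCharacter A)} {θ : IrrCharacter A} (h : θ ∈ β) :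
    tr e θ ∈ trSet e β := by
  change tr e.symm (tr e θ) ∈ β
  rw [tr_symm_tr]
  exact h

theorem trSet_isPBlock {M : Ideal AlgInt} [M.IsPrime] (e : K ≃* A) {β : Set (IrrCharacter A)}
    (hβ : IsPBlock M β) : IsPBlock M (trSet e β) := by
  obtain ⟨θ₀, rfl⟩ := hβ
  refine ⟨tr e θ₀, ?_⟩
  ext θ'
  constructor
  · intro h
    have h1 : SameBlock M (θ₀ : A → ℂ) (tr e.symm θ' : A → ℂ) := h
    have h2 := sameBlock_tr e h1
    rw [tr_tr_symm] at h2
    exact h2
  · intro h
    have h1 : SameBlock M (tr e θ₀ : K → ℂ) (θ' : K → ℂ) := h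
    have h2 := sameBlock_tr e.symm h1
    rw [tr_symm_tr] at h2
    exact h2

theorem charDegree_tr (e : K ≃* A) (θ : IrrCharacter A) :
    charDegree (tr e θ : K → ℂ) = charDegree (θ : A → ℂ) := by
  unfold charDegree
  rw [tr_apply, map_one]

theorem blockDefect_trSet (p : ℕ) (e : K ≃* A) (β : Set (IrrCharacter A)) :
    blockDefect p (trSet e β) = blockDefect p β := by
  unfold blockDefect
  rw [Nat.card_congr e.toEquiv]
  congr 2
  ext n
  constructor
  · rintro ⟨θ', hθ', rfl⟩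
    refine ⟨tr e.symm θ', hθ', ?_⟩
    simp only
    rw [charDegree_tr]
  · rintro ⟨θ, hθ, rfl⟩
    refine ⟨tr e θ, tr_mem_trSet e hθ, ?_⟩
    simp only
    rw [charDegree_tr]

end Transport

variable {G : Type*} [Group G] [Fintype G]

theorem induced_unique {M : Ideal AlgInt} [M.IsPrime] {H : Subgroup G}
    {b : Set (IrrCharacter H)} {B B' : Set (IrrCharacter G)}
    (h : IsInducedBlock M H b B) (h' : IsInducedBlock M H b B') : B = B' := by
  classical
  obtain ⟨ξ, hξ⟩ := block_nonempty h.1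
  obtain ⟨χ, hχ⟩ := block_nonempty h.2.1
  obtain ⟨χ', hχ'⟩ := block_nonempty h'.2.1
  have h1 : SameBlock M (χ : G → ℂ) (χ' : G → ℂ) := by
    intro g
    exact sub_mem_Iloc_trans (sub_mem_Iloc_symm (h.2.2 ξ hξ χ hχ g)) (h'.2.2 ξ hξ χ' hχ' g)
  obtain ⟨χ₁, rfl⟩ := h.2.1
  obtain ⟨χ₂, rfl⟩ := h'.2.1
  have h2 : χ' ∈ blockOf M (χ₁ : G → ℂ) := sameBlock_trans (M := M) hχ h1
  rw [← blockOf_eq_of_mem h2, ← blockOf_eq_of_mem hχ']

theorem induced_trans {M : Ideal AlgInt} [M.IsPrime] {K H : Subgroup G} (hKH : K ≤ H)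
    [Fintype K] [Fintype H] [Fintype (K.subgroupOf H)]
    {β : Set (IrrCharacter K)} {b : Set (IrrCharacter H)} {B : Set (IrrCharacter G)}
    (h1 : IsInducedBlock M (K.subgroupOf H) (trSet (Subgroup.subgroupOfEquivOfLe hKH) β) b)
    (h2 : IsInducedBlock M K β B) : IsInducedBlock M H b B := by
  classical
  refine ⟨h1.2.1, h2.2.1, fun ξ hξ χ hχ g => ?_⟩
  obtain ⟨θ, hθ⟩ := block_nonempty h2.1
  have hθ' := tr_mem_trSet (Subgroup.subgroupOfEquivOfLe hKH) hθ
  have ha : IsClassFunction H (fun h : H => cl g (h : G)) := restrict_isClass H (cl_isClass g)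
  have h3 := induced_W h1 hθ' hξ ha (fun h => cl_mem_Rloc g _)
  have h4 := W_tr (Subgroup.subgroupOfEquivOfLe hKH) (θ : K → ℂ) (fun k : K => cl g (k : G))
  have h5 := h2.2.2 θ hθ χ hχ g
  rw [inducedCentralChar_eq_W] at h5 ⊢
  rw [← h4] at h5
  exact sub_mem_Iloc_trans (sub_mem_Iloc_symm h3) h5

theorem defect_le_of_induced {M : Ideal AlgInt} {p : ℕ} [Fact p.Prime] (hM : IsPModular p M)
    {H : Subgroup G} {b : Set (IrrCharacter H)} {B : Set (IrrCharacter G)}
    (h : IsInducedBlock M H b B) : blockDefect p b ≤ blockDefect p B := by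
  classical
  obtain ⟨y, hy⟩ := Cfsg.Agent.S0906.result p M hM b h.1
  obtain ⟨S⟩ : Nonempty (Sylow p (Subgroup.centralizer ({y} : Set H))) := inferInstance
  have hD : IsDefectGroup p M b ((S : Subgroup (Subgroup.centralizer ({y} : Set H))).map
      (Subgroup.centralizer ({y} : Set H)).subtype) := ⟨y, hy, S, rfl⟩
  obtain ⟨E, hE, hDE⟩ := Cfsg.Agent.S0917.result p M hM H b h.1 B h.2.1 h _ hD
  have c1 := card_defectGroup hM h.1 hD
  have c2 := card_defectGroup hM h.2.1 hE
  have c3 := Subgroup.card_le_of_le hDE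
  have c4 : Nat.card (((S : Subgroup (Subgroup.centralizer ({y} : Set H))).map
      (Subgroup.centralizer ({y} : Set H)).subtype).map H.subtype) =
      Nat.card ((S : Subgroup (Subgroup.centralizer ({y} : Set H))).map
      (Subgroup.centralizer ({y} : Set H)).subtype) :=
    Nat.card_congr (Subgroup.equivMapOfInjective _ _ (Subgroup.subtype_injective _)).symm.toEquiv
  rw [c4, c1, c2] at c3
  exact (Nat.pow_le_pow_iff_right hM.1.one_lt).mp c3

theorem exists_defectGroup {M : Ideal AlgInt} {p : ℕ} [Fact p.Prime] (hM : IsPModular p M)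
    {B : Set (IrrCharacter G)} (hB : IsPBlock M B) : ∃ D : Subgroup G, IsDefectGroup p M B D := by
  obtain ⟨y, hy⟩ := Cfsg.Agent.S0906.result p M hM B hB
  obtain ⟨S⟩ : Nonempty (Sylow p (Subgroup.centralizer ({y} : Set G))) := inferInstance
  exact ⟨_, y, hy, S, rfl⟩

theorem isPGroup_defectGroup {M : Ideal AlgInt} {p : ℕ}
    {B : Set (IrrCharacter G)} {D : Subgroup G} (hD : IsDefectGroup p M B D) : IsPGroup p D := by
  obtain ⟨g, hg, P, rfl⟩ := hD
  exact P.2.map _

/-- a central element of order `p` in a nontrivial `p`-subgroup -/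
theorem exists_central_order_p {p : ℕ} [Fact p.Prime] {D : Subgroup G} (hD : IsPGroup p D)
    (hne : Nat.card D ≠ 1) : ∃ y ∈ D, orderOf y = p ∧ ∀ q ∈ D, q * y = y * q := by
  haveI : Nontrivial D := by
    rw [← Finite.one_lt_card_iff_nontrivial]
    have : 0 < Nat.card D := Nat.card_pos
    omega
  haveI := hD.center_nontrivial
  have hZ : IsPGroup p (Subgroup.center D) := hD.to_subgroup _
  obtain ⟨n, hn⟩ := IsPGroup.iff_card.mp hZ
  have hn0 : n ≠ 0 := by
    rintro rfl
    have h1 : 1 < Nat.card (Subgroup.center D) := Finite.one_lt_card_iff_nontrivial.mpr inferInstance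
    rw [hn] at h1
    simp at h1
  have hdvd : p ∣ Nat.card (Subgroup.center D) := by
    rw [hn]
    exact dvd_pow_self p hn0
  obtain ⟨x, hx⟩ := exists_prime_orderOf_dvd_card' (G := Subgroup.center D) p hdvd
  refine ⟨((x : D) : G), (x : D).2, ?_, ?_⟩
  · rw [Subgroup.orderOf_coe, Subgroup.orderOf_coe]
    exact hx
  · intro q hq
    have h1 := Subgroup.mem_center_iff.mp x.2 ⟨q, hq⟩
    exact congrArg Subtype.val h1

end Cfsg.Agent.Lib.Helper7.BInd1
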