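import Mathlib
import Cfsg.Prelude.Def_Blocks
import Cfsg.Prelude.Def_BrauerPairs
import Cfsg.Prelude.Def_BlockRank
import Cfsg.Agent.Lib.Helper2.BlockBr
import Cfsg.Agent.Lib.Helper2.BlockKer
import Cfsg.Agent.Lib.Helper2.BlockExt
import Cfsg.Agent.Lib.Helper7.BPair1
import Cfsg.Agent.Lib.Helper7.BPair2

set_option autoImplicit false
set_option linter.unusedSectionVars false
set_option linter.unusedVariables false
set_option linter.style.haveILetI false

/-! Subpairs of the principal block. -/

namespace Cfsg.Agent.Lib.Helper7.BPair3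

open Cfsg Cfsg.Agent.Lib.Helper7.CharIrr Cfsg.Agent.Lib.Helper7.CharOrth
  Cfsg.Agent.Lib.Helper7.CharIntegral Cfsg.Agent.Lib.Helper7.CharMore
  Cfsg.Agent.Lib.Helper7.CharClassAlg Cfsg.Agent.Lib.Helper7.CharComplete
  Cfsg.Agent.Lib.Helper7.CharBurnside
  Cfsg.Agent.Lib.Helper2.LocRing Cfsg.Agent.Lib.Helper2.CentralMod
  Cfsg.Agent.Lib.Helper2.BlockZ Cfsg.Agent.Lib.Helper2.BlockOrth Cfsg.Agent.Lib.Helper2.BlockFix
  Cfsg.Agent.Lib.Helper2.BlockLam Cfsg.Agent.Lib.Helper2.BlockN Cfsg.Agent.Lib.Helper2.BlockSub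
  Cfsg.Agent.Lib.Helper2.BlockAvg Cfsg.Agent.Lib.Helper2.BlockBr Cfsg.Agent.Lib.Helper2.BlockKer
  Cfsg.Agent.Lib.Helper2.BlockExt Cfsg.Agent.Lib.Helper7.BPair1 Cfsg.Agent.Lib.Helper7.BPair2
open scoped ComplexConjugate

section Transport

variable {A K : Type*} [Group A] [Group K] [Fintype A] [Fintype K]

theorem tr_mem_principal {M : Ideal AlgInt} [M.IsPrime] (φ : K ≃* A) {χ : IrrCharacter A}
    (h : χ ∈ principalBlock M A) : tr φ χ ∈ principalBlock M K := by
  have h1 : SameBlock M ((one A : IrrCharacter A) : A → ℂ) (χ : A → ℂ) := h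
  exact sameBlock_tr φ h1

theorem blockCoeff_principal_equiv {M : Ideal AlgInt} [M.IsPrime] (φ : K ≃* A) (k : K) :
    blockCoeff (principalBlock M A) (φ k) = blockCoeff (principalBlock M K) k := by
  classical
  have h : (fun k => blockCoeff (principalBlock M A) (φ k)) = blockCoeff (principalBlock M K) := by
    apply eq_of_W (isClass_comp φ (blockCoeff_isClass _)) (blockCoeff_isClass _)
    intro χ hχ
    have h1 := W_tr φ ((tr φ.symm ⟨χ, hχ⟩ : IrrCharacter A) : A → ℂ)
      (blockCoeff (principalBlock M A))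
    have h2 : (fun k => ((tr φ.symm ⟨χ, hχ⟩ : IrrCharacter A) : A → ℂ) (φ k)) = χ := by
      funext k
      rw [tr_apply]
      simp
    rw [h2] at h1
    rw [h1, W_blockCoeff]
    have h3 := W_blockCoeff (principalBlock M K) ⟨χ, hχ⟩
    simp only at h3
    rw [h3]
    by_cases h4 : (⟨χ, hχ⟩ : IrrCharacter K) ∈ principalBlock M K
    · rw [if_pos h4, if_pos (tr_mem_principal φ.symm h4)]
    · rw [if_neg h4, if_neg]
      intro h5
      apply h4
      have := tr_mem_principal (M := M) φ h5
      rwa [tr_tr_symm] at this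
  exact congrFun h k

end Transport

variable {G : Type*} [Group G] [Fintype G]

theorem subgroupBlockCoeff_of_mem (H : Subgroup G) (e : Set (IrrCharacter H)) (h : H) :
    subgroupBlockCoeff H e (h : G) = blockCoeff e h := by
  unfold subgroupBlockCoeff
  rw [dif_pos h.2]

theorem subgroupBlockCoeff_of_not_mem (H : Subgroup G) (e : Set (IrrCharacter H)) {g : G}
    (h : g ∉ H) : subgroupBlockCoeff H e g = 0 := by
  unfold subgroupBlockCoeff
  rw [dif_neg h]

theorem normal_step {M : Ideal AlgInt} {p : ℕ} (hM : IsPModular p M) {Q P : Subgroup G}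
    (hP : IsPGroup p P) (hQP : Q ≤ P) (hPN : P ≤ Subgroup.normalizer (Q : Set G)) :
    IsNormalSubpair p M Q (principalBlock M (Subgroup.centralizer (Q : Set G))) P
      (principalBlock M (Subgroup.centralizer (P : Set G))) := by
  classical
  haveI := hM.2.1.isPrime
  refine ⟨⟨hP.to_le hQP, principal_isPBlock M⟩, ⟨hP, principal_isPBlock M⟩, hQP, hPN, ?_, ?_⟩
  · intro x hx
    exact stabilizes_principal _ x (mem_normalizer_centralizer (hPN hx))
  · intro ξ hξ
    obtain ⟨f, hf⟩ : ∃ f, f = subgroupBlockCoeff (Subgroup.centralizer (Q : Set G))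
      (principalBlock M (Subgroup.centralizer (Q : Set G))) := ⟨_, rfl⟩
    rw [← hf]
    have hCC : Subgroup.centralizer (P : Set G) ≤ Subgroup.centralizer (Q : Set G) :=
      Subgroup.centralizer_le hQP
    have hfR : ∀ x, f x ∈ Rloc M := by
      intro x
      by_cases hx : x ∈ Subgroup.centralizer (Q : Set G)
      · rw [hf, subgroupBlockCoeff_of_mem _ _ ⟨x, hx⟩]
        exact blockCoeff_mem_Rloc _ (block_closed (principal_isPBlock M)) _
      · rw [hf, subgroupBlockCoeff_of_not_mem _ _ hx]
        exact Subring.zero_mem _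
    have hfinv : ∀ u ∈ P, ∀ x, f (u * x * u⁻¹) = f x := by
      intro u hu x
      by_cases hx : x ∈ Subgroup.centralizer (Q : Set G)
      · have hu' := mem_normalizer_centralizer (hPN hu)
        have h1 := blockCoeff_principal_equiv (M := M)
          (conjEquiv (Subgroup.centralizer (Q : Set G)) u hu').symm ⟨x, hx⟩
        have h2 := subgroupBlockCoeff_of_mem _
          (principalBlock M (Subgroup.centralizer (Q : Set G)))
          ((conjEquiv (Subgroup.centralizer (Q : Set G)) u hu').symm ⟨x, hx⟩)
        have h3 := subgroupBlockCoeff_of_mem _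
          (principalBlock M (Subgroup.centralizer (Q : Set G))) ⟨x, hx⟩
        rw [hf]
        rw [h1] at h2
        rw [h3]
        exact h2
      · have hx' : u * x * u⁻¹ ∉ Subgroup.centralizer (Q : Set G) := fun h =>
          hx ((conj_mem_centralizer_iff (hPN hu)).mp h)
        rw [hf, subgroupBlockCoeff_of_not_mem _ _ hx, subgroupBlockCoeff_of_not_mem _ _ hx']
    have hsum := sum_fixed hM P hP f hfR hfinv
    have hall : ∑ x, f x = 1 := by
      have h1 : ∀ x, f x = if x ∈ Subgroup.centralizer (Q : Set G) then f x else 0 := by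
        intro x
        by_cases hx : x ∈ Subgroup.centralizer (Q : Set G)
        · rw [if_pos hx]
        · rw [if_neg hx, hf, subgroupBlockCoeff_of_not_mem _ _ hx]
      rw [Finset.sum_congr rfl (fun x _ => h1 x), sum_ite_eq_sum_sub]
      have h2 := W_blockCoeff (principalBlock M (Subgroup.centralizer (Q : Set G)))
        (one (Subgroup.centralizer (Q : Set G)))
      rw [if_pos (one_mem_principal M)] at h2
      rw [← h2, W]
      simp only [one, mul_one, div_one]
      apply Finset.sum_congr rfl
      intro t _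
      rw [hf, subgroupBlockCoeff_of_mem]
    have hfix : ∑ x, (if ∀ q ∈ P, q * x = x * q then f x else 0) =
        W ((one (Subgroup.centralizer (P : Set G)) : IrrCharacter _) :
          Subgroup.centralizer (P : Set G) → ℂ)
          (fun h : Subgroup.centralizer (P : Set G) => f h) := by
      have h1 : ∀ x, (if ∀ q ∈ P, q * x = x * q then f x else 0) =
          if x ∈ Subgroup.centralizer (P : Set G) then f x else 0 := by
        intro x
        by_cases hx : x ∈ Subgroup.centralizer (P : Set G)
        · have hx' : ∀ q ∈ P, q * x = x * q := fun q hq => Subgroup.mem_centralizer_iff.mp hx q hq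
          rw [if_pos hx, if_pos hx']
        · have hx' : ¬ ∀ q ∈ P, q * x = x * q := fun h => hx (Subgroup.mem_centralizer_iff.mpr h)
          rw [if_neg hx, if_neg hx']
      rw [Finset.sum_congr rfl (fun x _ => h1 x), sum_ite_eq_sum_sub, W]
      simp only [one, mul_one, div_one]
    have hcl : IsClassFunction (Subgroup.centralizer (P : Set G))
        (fun h : Subgroup.centralizer (P : Set G) => f h) := by
      intro k h
      have h1 := blockCoeff_isClass (principalBlock M (Subgroup.centralizer (Q : Set G)))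
        ⟨k, hCC k.2⟩ ⟨h, hCC h.2⟩
      have h2 := subgroupBlockCoeff_of_mem _
          (principalBlock M (Subgroup.centralizer (Q : Set G))) ⟨k, hCC k.2⟩
      have h3 := subgroupBlockCoeff_of_mem _
          (principalBlock M (Subgroup.centralizer (Q : Set G)))
          ((⟨h, hCC h.2⟩ : Subgroup.centralizer (Q : Set G)) * ⟨k, hCC k.2⟩ * ⟨h, hCC h.2⟩⁻¹)
      rw [h1, ← h2] at h3
      rw [hf]
      exact h3
    have h4 := W_sub_mem_Iloc (M := M)
      (χ := ξ) (ψ := one (Subgroup.centralizer (P : Set G)))
      (sameBlock_symm (M := M) hξ) hcl (fun h => hfR _)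
    rw [brauerOmega_eq_W]
    rw [hall, hfix] at hsum
    exact sub_mem_Iloc_trans h4 (sub_mem_Iloc_symm hsum)

end Cfsg.Agent.Lib.Helper7.BPair3
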