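import Mathlib
import Cfsg.Prelude.Def_Blocks
import Cfsg.Prelude.Def_BrauerPairs
import Cfsg.Prelude.Def_BlockRank
import Cfsg.Agent.Lib.Helper7.BPair3

set_option autoImplicit false
set_option linter.unusedSectionVars false
set_option linter.unusedVariables false
set_option linter.style.haveILetI false

/-! Subpairs of the principal block: chains and conjugation. -/

namespace Cfsg.Agent.Lib.Helper7.BPair4

open Cfsg Cfsg.Agent.Lib.Helper7.CharIrr Cfsg.Agent.Lib.Helper7.CharOrth
  Cfsg.Agent.Lib.Helper7.CharIntegral Cfsg.Agent.Lib.Helper7.CharMore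
  Cfsg.Agent.Lib.Helper7.CharClassAlg Cfsg.Agent.Lib.Helper7.CharComplete
  Cfsg.Agent.Lib.Helper7.CharBurnside
  Cfsg.Agent.Lib.Helper2.LocRing Cfsg.Agent.Lib.Helper2.CentralMod
  Cfsg.Agent.Lib.Helper2.BlockZ Cfsg.Agent.Lib.Helper2.BlockOrth Cfsg.Agent.Lib.Helper2.BlockFix
  Cfsg.Agent.Lib.Helper2.BlockLam Cfsg.Agent.Lib.Helper2.BlockN Cfsg.Agent.Lib.Helper2.BlockSub
  Cfsg.Agent.Lib.Helper2.BlockAvg Cfsg.Agent.Lib.Helper2.BlockBr Cfsg.Agent.Lib.Helper2.BlockKer
  Cfsg.Agent.Lib.Helper2.BlockExt Cfsg.Agent.Lib.Helper7.BPair1 Cfsg.Agent.Lib.Helper7.BPair2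
  Cfsg.Agent.Lib.Helper7.BPair3
open scoped ComplexConjugate

variable {G : Type*} [Group G] [Fintype G]

theorem exists_normalizer_gt {p : ℕ} [Fact p.Prime] {Q S : Subgroup G} (hS : IsPGroup p S)
    (hQS : Q < S) : ∃ x ∈ S, x ∈ Subgroup.normalizer (Q : Set G) ∧ x ∉ Q := by
  haveI : Group.IsNilpotent S := hS.isNilpotent
  have hN := normalizerCondition_of_isNilpotent (G := S)
  have hlt : Q.subgroupOf S < ⊤ := by
    rw [lt_top_iff_ne_top]
    intro h
    rw [Subgroup.subgroupOf_eq_top] at h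
    exact absurd hQS (not_lt_of_ge h)
  obtain ⟨x, hxN, hxQ⟩ := SetLike.exists_of_lt (hN _ hlt)
  refine ⟨x, x.2, ?_, fun h => hxQ (Subgroup.mem_subgroupOf.mpr h)⟩
  rw [Subgroup.mem_normalizer_iff] at hxN ⊢
  intro h
  constructor
  · intro hh
    have := (hxN ⟨h, hQS.le hh⟩).mp (Subgroup.mem_subgroupOf.mpr hh)
    exact Subgroup.mem_subgroupOf.mp this
  · intro hh
    have hS' : h ∈ S := by
      have h1 : h = (x : G)⁻¹ * ((x : G) * h * (x : G)⁻¹) * (x : G) := by group
      rw [h1]
      exact S.mul_mem (S.mul_mem (S.inv_mem x.2) (hQS.le hh)) x.2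
    have := (hxN ⟨h, hS'⟩).mpr (Subgroup.mem_subgroupOf.mpr hh)
    exact Subgroup.mem_subgroupOf.mp this

theorem subpairLE_principal {M : Ideal AlgInt} {p : ℕ} [Fact p.Prime] (hM : IsPModular p M)
    {S : Subgroup G} (hS : IsPGroup p S) (Q : Subgroup G) :
    Q ≤ S → SubpairLE p M Q (principalBlock M (Subgroup.centralizer (Q : Set G))) S
      (principalBlock M (Subgroup.centralizer (S : Set G))) := by
  refine WellFoundedGT.induction (motive := fun Q : Subgroup G => Q ≤ S →
    SubpairLE p M Q (principalBlock M (Subgroup.centralizer (Q : Set G))) S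
      (principalBlock M (Subgroup.centralizer (S : Set G)))) Q ?_
  intro Q ih hQS
  by_cases hEq : Q = S
  · subst hEq
    exact Relation.ReflTransGen.refl
  · have hlt : Q < S := lt_of_le_of_ne hQS hEq
    obtain ⟨x, hxS, hxN, hxQ⟩ := exists_normalizer_gt hS hlt
    have h1 : Q ≤ S ⊓ Subgroup.normalizer (Q : Set G) := le_inf hQS Subgroup.le_normalizer
    have h2 : S ⊓ Subgroup.normalizer (Q : Set G) ≤ S := inf_le_left
    have h3 : Q < S ⊓ Subgroup.normalizer (Q : Set G) := by
      refine lt_of_le_of_ne h1 (fun h => hxQ ?_)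
      rw [h]
      exact ⟨hxS, hxN⟩
    have h4 := ih _ h3 h2
    have h5 : NormalSubpairRel p M
        ⟨Q, principalBlock M (Subgroup.centralizer (Q : Set G))⟩
        ⟨S ⊓ Subgroup.normalizer (Q : Set G), principalBlock M (Subgroup.centralizer
          ((S ⊓ Subgroup.normalizer (Q : Set G) : Subgroup G) : Set G))⟩ :=
      normal_step hM (hS.to_le h2) h1 inf_le_right
    exact Relation.ReflTransGen.head h5 h4

theorem le_of_subpairLE {M : Ideal AlgInt} {p : ℕ} {a b : BrauerPairIdx G}
    (h : Relation.ReflTransGen (NormalSubpairRel p M) a b) : a.1 ≤ b.1 := by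
  induction h with
  | refl => exact le_rfl
  | tail _ hbc ih => exact ih.trans hbc.2.2.1

/-- conjugation between the centralizers of `g Q g⁻¹` and `Q` -/
def centEquiv (Q : Subgroup G) (g : G) :
    Subgroup.centralizer ((Q.map (MulAut.conj g).toMonoidHom : Subgroup G) : Set G) ≃*
      Subgroup.centralizer (Q : Set G) where
  toFun c := ⟨g⁻¹ * c * g, by
    rw [Subgroup.mem_centralizer_iff]
    intro q hq
    have h1 := Subgroup.mem_centralizer_iff.mp c.2 (g * q * g⁻¹)
      (Subgroup.mem_map.mpr ⟨q, hq, by simp⟩)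
    calc q * (g⁻¹ * (c : G) * g) = g⁻¹ * ((g * q * g⁻¹) * c) * g := by group
      _ = g⁻¹ * (c * (g * q * g⁻¹)) * g := by rw [h1]
      _ = g⁻¹ * (c : G) * g * q := by group⟩
  invFun c := ⟨g * c * g⁻¹, by
    rw [Subgroup.mem_centralizer_iff]
    rintro _ ⟨q, hq, rfl⟩
    have h1 := Subgroup.mem_centralizer_iff.mp c.2 q hq
    have h2 : (MulAut.conj g).toMonoidHom q = g * q * g⁻¹ := by simp
    rw [h2]
    calc g * q * g⁻¹ * (g * (c : G) * g⁻¹) = g * (q * c) * g⁻¹ := by group
      _ = g * (c * q) * g⁻¹ := by rw [h1]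
      _ = g * (c : G) * g⁻¹ * (g * q * g⁻¹) := by group⟩
  left_inv k := by
    apply Subtype.ext
    simp only
    group
  right_inv k := by
    apply Subtype.ext
    simp only
    group
  map_mul' a b := by
    apply Subtype.ext
    simp only [Subgroup.coe_mul]
    group

theorem conjBlock_principal {M : Ideal AlgInt} [M.IsPrime] (Q : Subgroup G) (g : G) :
    conjBlock Q g (principalBlock M (Subgroup.centralizer (Q : Set G))) =
      principalBlock M (Subgroup.centralizer
        ((Q.map (MulAut.conj g).toMonoidHom : Subgroup G) : Set G)) := by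
  classical
  ext ξ'
  constructor
  · rintro ⟨ξ, hξ, h⟩
    have h1 : ξ' = tr (centEquiv Q g) ξ := by
      apply Subtype.ext
      funext c'
      rw [tr_apply]
      apply h
      change (c' : G) = g * (g⁻¹ * (c' : G) * g) * g⁻¹
      group
    rw [h1]
    exact tr_mem_principal _ hξ
  · intro h
    refine ⟨tr (centEquiv Q g).symm ξ', tr_mem_principal _ h, ?_⟩
    intro c c' hc
    rw [tr_apply]
    have h3 : (centEquiv Q g).symm c = c' := by
      apply Subtype.ext
      exact hc.symm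
    rw [h3]

end Cfsg.Agent.Lib.Helper7.BPair4
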