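import Mathlib
import Cfsg.Prelude.Def_Characters
import Cfsg.Prelude.Def_CharExt
import Cfsg.Agent.Lib.Helper7.All1
import Cfsg.Agent.Lib.Helper7.CharKer
import Cfsg.Agent.Lib.Helper7.CharRes
import Cfsg.Agent.Lib.Helper7.CharGen
import Cfsg.Agent.Lib.Helper7.Transfer1
import Cfsg.Agent.Lib.Helper7.ProjExt1
import Cfsg.Agent.Lib.Helper7.ProjExt2
import Cfsg.Agent.Lib.Helper7.ProjExt4
import Cfsg.Agent.Lib.Helper7.CharGallagher
import Cfsg.Agent.Lib.Helper7.CharGallagher2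
import Cfsg.Agent.Lib.Helper7.ProjExt5

set_option autoImplicit false
set_option linter.style.haveILetI false
set_option linter.unusedSectionVars false
set_option linter.unusedVariables false
set_option linter.unusedSimpArgs false

namespace Cfsg.Agent.Lib.Helper7.AbInd

open Module Representation Cfsg
open Cfsg.Agent.Lib.Helper7.CharBasic Cfsg.Agent.Lib.Helper7.CharIrr Cfsg.Agent.Lib.Helper7.CharDecomp Cfsg.Agent.Lib.Helper7.CharComplete Cfsg.Agent.Lib.Helper7.CharOrth Cfsg.Agent.Lib.Helper7.CharInd Cfsg.Agent.Lib.Helper7.CharIntegral Cfsg.Agent.Lib.Helper7.CharBurnside Cfsg.Agent.Lib.Helper7.CharLinear Cfsg.Agent.Lib.Helper7.CharEquiv Cfsg.Agent.Lib.Helper7.CharMore Cfsg.Agent.Lib.Helper7.CharCount Cfsg.Agent.Lib.Helper7.CharMisc Cfsg.Agent.Lib.Helper7.CharMisc2 Cfsg.Agent.Lib.Helper7.CharNormal Cfsg.Agent.Lib.Helper7.CharOdd Cfsg.Agent.Lib.Helper7.CharClifford Cfsg.Agent.Lib.Helper7.CharProd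 Cfsg.Agent.Lib.Helper7.CharPerm Cfsg.Agent.Lib.Helper7.CharClassAlg Cfsg.Agent.Lib.Helper7.CharClassAlg2 Cfsg.Agent.Lib.Helper7.CharCentral Cfsg.Agent.Lib.Helper7.CharNormal2 Cfsg.Agent.Lib.Helper7.CharCliffordCorr Cfsg.Agent.Lib.Helper7.CharKer Cfsg.Agent.Lib.Helper7.CharRes Cfsg.Agent.Lib.Helper7.CharGen Cfsg.Agent.Lib.Helper7.Transfer1 Cfsg.Agent.Lib.Helper7.ProjExt1 Cfsg.Agent.Lib.Helper7.ProjExt2 Cfsg.Agent.Lib.Helper7.ProjExt4 Cfsg.Agent.Lib.Helper7.CharGallagher Cfsg.Agent.Lib.Helper7.CharGallagher2 Cfsg.Agent.Lib.Helper7.ProjExt5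
open scoped ComplexConjugate

variable {G : Type*} [Group G] [Fintype G]

theorem isIrr_hom_mul (l : G →* ℂˣ) {ψ : G → ℂ} (hψ : IsIrrCharacter G ψ) :
    IsIrrCharacter G ((fun g => ((l g : ℂˣ) : ℂ)) * ψ) := by
  obtain ⟨n, ρ, hρ, rfl⟩ := hψ
  haveI := hρ
  exact ⟨n, twist l ρ, isIrreducible_twist l ρ, funext fun g => char_twist l ρ g⟩

theorem indFun_finset_sum (H : Subgroup G) {ι : Type*} (s : Finset ι) (f : ι → H → ℂ) :
    indFun H (∑ i ∈ s, f i) = ∑ i ∈ s, indFun H (f i) := by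
  classical
  induction s using Finset.induction_on with
  | empty =>
    have := indFun_smul H 0 (0 : H → ℂ)
    simpa using this
  | insert a s ha ih => rw [Finset.sum_insert ha, Finset.sum_insert ha, indFun_add, ih]

theorem exists_twist (N : Subgroup G) [hN : N.Normal] [Fintype N]
    (hab : ∀ x y : G, x * y * x⁻¹ * y⁻¹ ∈ N) {θ : N → ℂ} (hθ : IsIrrCharacter N θ)
    (hinv : ∀ (g : G) (n : N), θ ⟨g * n * g⁻¹, hN.conj_mem n n.2 g⟩ = θ n)
    {ψ₀ ψ : G → ℂ} (hψ₀ : IsIrrCharacter G ψ₀) (hψ : IsIrrCharacter G ψ)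
    (h₀ : classInner (fun n : N => ψ₀ n) θ ≠ 0) (h : classInner (fun n : N => ψ n) θ ≠ 0) :
    ∃ l : G →* ℂˣ, (∀ n ∈ N, l n = 1) ∧ ψ = (fun g => ((l g : ℂˣ) : ℂ)) * ψ₀ := by
  classical
  haveI := Fintype.ofFinite (IrrCharacter G)
  have hc : ψ₀ 1 / θ 1 ≠ 0 := div_ne_zero (irr_one_ne_zero hψ₀) (irr_one_ne_zero hθ)
  have h1 : (fun n : N => ψ₀ n) = (ψ₀ 1 / θ 1) • θ := by
    funext n
    exact restrict_of_invariant N hψ₀ hθ hinv h₀ n
  have h2 := indFun_mul_restrict N (fun _ => (1 : ℂ)) (IsIrrCharacter.isClassFunction hψ₀)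
  have h3 : ((fun _ => (1 : ℂ)) * fun n : N => ψ₀ n) = (ψ₀ 1 / θ 1) • θ := by
    rw [← h1]; funext n; simp
  rw [h3, indFun_smul] at h2
  have h4 : classInner (indFun N (fun _ => (1 : ℂ)) * ψ₀) ψ ≠ 0 := by
    rw [← h2, classInner_smul_left, frobenius_reciprocity N θ ψ (IsIrrCharacter.isClassFunction hψ)]
    apply mul_ne_zero hc
    intro h0
    apply h
    rw [← classInner_conj_symm, h0, map_zero]
  have hdec := classFunction_eq_sum (indFun_isClassFunction N (fun _ => (1 : ℂ)))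
  have h5 : indFun N (fun _ => (1 : ℂ)) * ψ₀ = ∑ β : IrrCharacter G,
      classInner (indFun N (fun _ => (1 : ℂ))) β.1 • (β.1 * ψ₀) := by
    conv_lhs => rw [hdec]
    rw [Finset.sum_mul]
    apply Finset.sum_congr rfl
    intro β _
    funext g
    simp only [Pi.mul_apply, Pi.smul_apply, smul_eq_mul]
    ring
  rw [h5, classInner_sum_left] at h4
  obtain ⟨β, _, hβ⟩ := Finset.exists_ne_zero_of_sum_ne_zero h4
  rw [classInner_smul_left] at hβ
  have hβ1 : classInner (indFun N (fun _ => (1 : ℂ))) β.1 ≠ 0 := left_ne_zero_of_mul hβ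
  have hβ2 : classInner (β.1 * ψ₀) ψ ≠ 0 := right_ne_zero_of_mul hβ
  have hker := (trivial_constituent_iff N β.2).mp hβ1
  obtain ⟨φ, hφ, hφeq⟩ := exists_quot_of_irr N β.2 hker
  have hcomm : ∀ a b : G ⧸ N, a * b = b * a := by
    intro a b
    obtain ⟨x, rfl⟩ := QuotientGroup.mk_surjective a
    obtain ⟨y, rfl⟩ := QuotientGroup.mk_surjective b
    have h6 := (QuotientGroup.eq_one_iff _).mpr (hab x y)
    simp only [QuotientGroup.mk_mul, QuotientGroup.mk_inv] at h6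
    calc (x : G ⧸ N) * y = ((x : G ⧸ N) * y * (x : G ⧸ N)⁻¹ * (y : G ⧸ N)⁻¹) * (y * x) := by group
      _ = y * x := by rw [h6, one_mul]
  have hφ1 : φ 1 = 1 := (comm_iff_all_linear.mp hcomm) ⟨φ, hφ⟩
  have hβone : β.1 1 = 1 := by
    rw [hφeq]; exact hφ1
  obtain ⟨l, hl⟩ := exists_hom_of_irr_of_one (IsIrrCharacter.isCharacter β.2) hβone
  refine ⟨l, ?_, ?_⟩
  · intro n hn
    apply Units.ext
    have := hker n hn
    rw [hl] at this
    simpa using this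
  · rw [hl] at hβ2
    rw [classInner_irr (isIrr_hom_mul l hψ₀) hψ] at hβ2
    split_ifs at hβ2 with h7
    · exact h7.symm
    · exact absurd rfl hβ2

theorem ind_abelian (N : Subgroup G) [hN : N.Normal] [Fintype N]
    (hab : ∀ x y : G, x * y * x⁻¹ * y⁻¹ ∈ N) {θ : N → ℂ} (hθ : IsIrrCharacter N θ)
    (hinv : ∀ (g : G) (n : N), θ ⟨g * n * g⁻¹, hN.conj_mem n n.2 g⟩ = θ n) :
    ∃ (e : ℕ) (C : Finset (IrrCharacter G)), 0 < e ∧
      (∀ ψ ∈ C, classInner (fun n : N => ψ.1 n) θ = e) ∧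
      (∀ ψ : IrrCharacter G, classInner (fun n : N => ψ.1 n) θ ≠ 0 → ψ ∈ C) ∧
      e ^ 2 * C.card = N.index ∧ indFun N θ = (e : ℂ) • ∑ ψ ∈ C, ψ.1 := by
  classical
  haveI := Fintype.ofFinite (IrrCharacter G)
  obtain ⟨m, hm, hsum⟩ := exists_mult (isCharacter_indFun N θ (IsIrrCharacter.isCharacter hθ))
  have hrel : ∀ ψ : IrrCharacter G, classInner (fun n : N => ψ.1 n) θ = m ψ := by
    intro ψ
    rw [← classInner_conj_symm, ← frobenius_reciprocity N θ ψ.1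
      (IsIrrCharacter.isClassFunction ψ.2), hm]
    simp
  obtain ⟨ψ₀, hψ₀, h₀⟩ := exists_over N hθ
  have he0 : m ⟨ψ₀, hψ₀⟩ ≠ 0 := by
    intro h
    apply h₀
    have := hrel ⟨ψ₀, hψ₀⟩
    rw [h] at this
    simpa using this
  have hconst : ∀ ψ : IrrCharacter G, m ψ ≠ 0 → m ψ = m ⟨ψ₀, hψ₀⟩ := by
    intro ψ hψ
    have h1 : classInner (fun n : N => ψ.1 n) θ ≠ 0 := by
      rw [hrel]; exact_mod_cast hψ
    obtain ⟨l, hl1, hl2⟩ := exists_twist N hab hθ hinv hψ₀ ψ.2 h₀ h1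
    have h2 : (fun n : N => ψ.1 n) = fun n : N => ψ₀ n := by
      funext n
      rw [hl2]
      simp [hl1 n n.2]
    have h3 : ((m ψ : ℕ) : ℂ) = m ⟨ψ₀, hψ₀⟩ := by
      rw [← hrel, ← hrel, h2]
    exact_mod_cast h3
  have hind : indFun N θ = (m ⟨ψ₀, hψ₀⟩ : ℂ) • ∑ ψ ∈ Finset.univ.filter (fun ψ => m ψ ≠ 0), ψ.1 := by
    rw [hsum, Finset.smul_sum, Finset.sum_filter]
    apply Finset.sum_congr rfl
    intro ψ _
    split_ifs with h
    · rw [hconst ψ h]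
    · push Not at h
      rw [h]; simp
  refine ⟨m ⟨ψ₀, hψ₀⟩, Finset.univ.filter (fun ψ => m ψ ≠ 0), Nat.pos_of_ne_zero he0, ?_, ?_, ?_,
    hind⟩
  · intro ψ hψ
    rw [hrel, hconst ψ (Finset.mem_filter.mp hψ).2]
  · intro ψ hψ
    rw [Finset.mem_filter]
    refine ⟨Finset.mem_univ _, ?_⟩
    intro h
    apply hψ
    rw [hrel, h]; simp
  · have hnorm0 := norm_indFun_of_invariant N hθ (fun g => funext fun n => hinv g n)
    have hnorm : classInner ((m ⟨ψ₀, hψ₀⟩ : ℂ) • ∑ ψ ∈ Finset.univ.filter (fun ψ => m ψ ≠ 0), ψ.1)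
        (indFun N θ) = (N.index : ℂ) := by
      rw [← hind]; exact hnorm0
    rw [classInner_smul_left, classInner_sum_left] at hnorm
    have h4 : ∀ ψ ∈ Finset.univ.filter (fun ψ => m ψ ≠ 0), classInner ψ.1 (indFun N θ) =
        (m ⟨ψ₀, hψ₀⟩ : ℂ) := by
      intro ψ hψ
      rw [← classInner_conj_symm, hm, hconst ψ (Finset.mem_filter.mp hψ).2]
      simp
    rw [Finset.sum_congr rfl h4, Finset.sum_const, nsmul_eq_mul] at hnorm
    have : ((m ⟨ψ₀, hψ₀⟩ ^ 2 * (Finset.univ.filter (fun ψ => m ψ ≠ 0)).card : ℕ) : ℂ) =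
        (N.index : ℂ) := by
      rw [← hnorm]; push_cast; ring
    exact_mod_cast this

theorem main (H T : Subgroup G) [hN : H.Normal] (θ : H → ℂ) (hθ : IsIrrCharacter H θ)
    (hT : ∀ g : G, g ∈ T ↔ ∀ h : H, θ ⟨g * h * g⁻¹, hN.conj_mem h h.2 g⟩ = θ h)
    (hab : ∀ x ∈ T, ∀ y ∈ T, x * y * x⁻¹ * y⁻¹ ∈ H) :
    ∃ (e : ℕ) (C : Finset (G → ℂ)), 0 < e ∧ (∀ χ ∈ C, IsIrrCharacter G χ) ∧
      e ^ 2 * C.card = H.relIndex T ∧ indFun H θ = (e : ℂ) • ∑ χ ∈ C, χ ∧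
      (∀ χ ∈ C, χ 1 = (T.index : ℂ) * e * θ 1) ∧
      ((∃ ψ : T → ℂ, IsIrrCharacter T ψ ∧ ∀ h : H.subgroupOf T, ψ h = thetaT H T θ h) → e = 1) := by
  classical
  haveI := Fintype.ofFinite H
  haveI := Fintype.ofFinite T
  haveI := Fintype.ofFinite (H.subgroupOf T)
  have hHT : H ≤ T := by
    intro x hx
    rw [hT]
    intro h
    exact IsIrrCharacter.isClassFunction hθ h ⟨x, hx⟩
  have hθ₀ := isIrrCharacter_thetaT H T θ hθ hHT
  obtain ⟨e, C₀, he, hC1, hC2, hcard, hind⟩ := ind_abelian (H.subgroupOf T)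
    (fun x y => Subgroup.mem_subgroupOf.mpr (hab x x.2 y y.2)) hθ₀
    (fun g n => congrFun (conjFun_thetaT H T θ hT g) n)
  have hover : ∀ ψ ∈ C₀, classInner (resH H T hHT ψ.1) θ = e := by
    intro ψ hψ
    rw [← classInner_thetaT H T θ hHT]
    exact hC1 ψ hψ
  have heC : (e : ℂ) ≠ 0 := by exact_mod_cast he.ne'
  have hover' : ∀ ψ ∈ C₀, classInner (resH H T hHT ψ.1) θ ≠ 0 := by
    intro ψ hψ
    rw [hover ψ hψ]; exact heC
  have hinj : ∀ ψ ∈ C₀, ∀ ψ' ∈ C₀, indFun T ψ.1 = indFun T ψ'.1 → ψ = ψ' := by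
    intro ψ hψ ψ' hψ' h
    exact Subtype.ext (indFun_injective_of_over H T θ hθ hT hHT ψ.2 ψ'.2 (hover' ψ hψ)
      (hover' ψ' hψ') h)
  refine ⟨e, C₀.image (fun ψ => indFun T ψ.1), he, ?_, ?_, ?_, ?_, ?_⟩
  · intro χ hχ
    obtain ⟨ψ, hψ, rfl⟩ := Finset.mem_image.mp hχ
    exact (indFun_irr_of_over H T θ hθ hT hHT ψ.2 (hover' ψ hψ)).1
  · rw [Finset.card_image_of_injOn (fun ψ hψ ψ' hψ' h => hinj ψ hψ ψ' hψ' h), hcard]
    rfl
  · rw [Finset.sum_image hinj, ← indFun_trans H T hHT θ]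
    have : (fun x : H.subgroupOf T => θ ⟨((x : T) : G), Subgroup.mem_subgroupOf.mp x.2⟩) =
        thetaT H T θ := rfl
    rw [this, hind, indFun_smul, indFun_finset_sum]
  · intro χ hχ
    obtain ⟨ψ, hψ, rfl⟩ := Finset.mem_image.mp hχ
    rw [indFun_one, degree_of_over H T θ hθ hT hHT ψ.2 (hover' ψ hψ), hover ψ hψ]
    ring
  · rintro ⟨ψ, hψ, hext⟩
    have h1 : classInner (fun n : H.subgroupOf T => ψ n) (thetaT H T θ) = 1 := by
      have : (fun n : H.subgroupOf T => ψ n) = thetaT H T θ := funext hext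
      rw [this, classInner_irr hθ₀ hθ₀, if_pos rfl]
    have h2 := hC2 ⟨ψ, hψ⟩ (by simp only; rw [h1]; exact one_ne_zero)
    have h3 := hC1 ⟨ψ, hψ⟩ h2
    simp only at h3
    rw [h1] at h3
    exact_mod_cast h3.symm

end Cfsg.Agent.Lib.Helper7.AbInd
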