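import Mathlib
import Cfsg.Prelude.Def_Characters
import Cfsg.Agent.Lib.Helper7.All1
import Cfsg.Agent.Lib.Helper7.CharKer
import Cfsg.Agent.Lib.Helper7.CharRes
import Cfsg.Agent.Lib.Helper7.CharGen
import Cfsg.Agent.Lib.Helper7.CharGallagher
import Cfsg.Agent.Lib.Helper7.CharZ
import Cfsg.Agent.Lib.Helper7.CharCenter
import Cfsg.Agent.Lib.Helper7.CharExtra
import Cfsg.Agent.Lib.Helper7.Brauer1
import Cfsg.Agent.Lib.Helper7.Brauer2
import Cfsg.Agent.Lib.Helper7.Brauer3
import Cfsg.Agent.Lib.Helper7.Brauer7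
import Cfsg.Agent.Lib.Helper7.Brauer8

set_option autoImplicit false
set_option linter.style.haveILetI false
set_option linter.unusedSectionVars false
set_option linter.unusedVariables false
set_option linter.unusedSimpArgs false

namespace Cfsg.Agent.Lib.Helper7.Brauer9

open Module Representation Cfsg
open Cfsg.Agent.Lib.Helper7.CharBasic Cfsg.Agent.Lib.Helper7.CharIrr Cfsg.Agent.Lib.Helper7.CharDecomp Cfsg.Agent.Lib.Helper7.CharComplete Cfsg.Agent.Lib.Helper7.CharOrth Cfsg.Agent.Lib.Helper7.CharInd Cfsg.Agent.Lib.Helper7.CharIntegral Cfsg.Agent.Lib.Helper7.CharBurnside Cfsg.Agent.Lib.Helper7.CharLinear Cfsg.Agent.Lib.Helper7.CharEquiv Cfsg.Agent.Lib.Helper7.CharMore Cfsg.Agent.Lib.Helper7.CharCount Cfsg.Agent.Lib.Helper7.CharMisc Cfsg.Agent.Lib.Helper7.CharMisc2 Cfsg.Agent.Lib.Helper7.CharNormal Cfsg.Agent.Lib.Helper7.CharOdd Cfsg.Agent.Lib.Helper7.CharClifford Cfsg.Agent.Lib.Helper7.CharProd Cfsg.Agent.Lib.Helper7.CharPerm Cfsg.Agent.Lib.Helper7.CharClassAlg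 Cfsg.Agent.Lib.Helper7.CharClassAlg2 Cfsg.Agent.Lib.Helper7.CharCentral Cfsg.Agent.Lib.Helper7.CharNormal2 Cfsg.Agent.Lib.Helper7.CharCliffordCorr Cfsg.Agent.Lib.Helper7.CharKer Cfsg.Agent.Lib.Helper7.CharRes Cfsg.Agent.Lib.Helper7.CharGen Cfsg.Agent.Lib.Helper7.CharGallagher Cfsg.Agent.Lib.Helper7.CharZ Cfsg.Agent.Lib.Helper7.CharCenter Cfsg.Agent.Lib.Helper7.CharExtra Cfsg.Agent.Lib.Helper7.Brauer1 Cfsg.Agent.Lib.Helper7.Brauer2 Cfsg.Agent.Lib.Helper7.Brauer3 Cfsg.Agent.Lib.Helper7.Brauer7 Cfsg.Agent.Lib.Helper7.Brauer8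
open scoped ComplexConjugate

universe u

theorem isNilpotent_of_isElementary {p : ℕ} [Fact p.Prime] {E : Type*} [Group E] [Finite E]
    (h : IsElementary p E) : Group.IsNilpotent E := by
  obtain ⟨x, hx, hcop, k, hk⟩ := h
  have hle : Subgroup.zpowers x ≤ Subgroup.center E := by
    rw [Subgroup.zpowers_le]; exact hx
  haveI : (Subgroup.zpowers x).Normal := normal_of_le_center _ hle
  have hpg : IsPGroup p (E ⧸ Subgroup.zpowers x) := by
    rw [IsPGroup.iff_card]
    exact ⟨k, hk⟩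
  haveI := hpg.isNilpotent
  apply Subgroup.isNilpotent_of_ker_le_center (QuotientGroup.mk' (Subgroup.zpowers x))
  rw [QuotientGroup.ker_mk']
  exact hle

theorem isElementary_subgroup {p : ℕ} (hp : p.Prime) {E : Type*} [Group E] [Finite E]
    (h : IsElementary p E) (S : Subgroup E) : IsElementary p S := by
  obtain ⟨x, hx, hcop, k, hk⟩ := h
  have hle : Subgroup.zpowers x ≤ Subgroup.center E := by
    rw [Subgroup.zpowers_le]; exact hx
  haveI : (Subgroup.zpowers x).Normal := normal_of_le_center _ hle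
  have hQ : QE p E := ⟨Subgroup.zpowers x, inferInstance, inferInstance,
    by rw [Nat.card_zpowers]; exact hcop, k, hk⟩
  -- repeat the construction of `QE.subgroup`
  have hcyc : IsCyclic ((Subgroup.zpowers x).subgroupOf S) := by
    let f : (Subgroup.zpowers x).subgroupOf S →* Subgroup.zpowers x :=
      { toFun := fun y => ⟨(y : S), Subgroup.mem_subgroupOf.mp y.2⟩
        map_one' := rfl
        map_mul' := fun _ _ => rfl }
    apply isCyclic_of_injective f
    intro a b hab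
    have := congrArg (fun z : Subgroup.zpowers x => (z : E)) hab
    exact Subtype.ext (Subtype.ext this)
  have hcop' : Nat.Coprime (Nat.card ((Subgroup.zpowers x).subgroupOf S)) p := by
    have h1 : Nat.card ((Subgroup.zpowers x).subgroupOf S) ∣ Nat.card (Subgroup.zpowers x) := by
      have : Nat.card ((Subgroup.zpowers x).subgroupOf S) =
          Nat.card (Subgroup.zpowers x ⊓ S : Subgroup E) := by
        rw [← Subgroup.subgroupOf_map_subtype]
        exact Nat.card_congr (((Subgroup.zpowers x).subgroupOf S).equivMapOfInjective S.subtype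
          S.subtype_injective).toEquiv
      rw [this]
      exact Subgroup.card_dvd_of_le inf_le_left
    apply Nat.Coprime.coprime_dvd_left h1
    rw [Nat.card_zpowers]; exact hcop
  have hidx : ∃ j, ((Subgroup.zpowers x).subgroupOf S).index = p ^ j := by
    have h1 : ((Subgroup.zpowers x).subgroupOf S).index ∣ p ^ k := by
      rw [← hk]
      exact Subgroup.relIndex_dvd_index_of_normal (Subgroup.zpowers x) S
    obtain ⟨j, -, hj⟩ := (Nat.dvd_prime_pow hp).mp h1
    exact ⟨j, hj⟩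
  obtain ⟨j, hj⟩ := hidx
  apply isElementary_of_central ((Subgroup.zpowers x).subgroupOf S) ?_ hcop' hj
  intro y hy
  rw [Subgroup.mem_center_iff]
  intro g
  apply Subtype.ext
  have h2 := hle (Subgroup.mem_subgroupOf.mp hy)
  rw [Subgroup.mem_center_iff] at h2
  exact h2 g

variable {G : Type u} [Group G]

/-- The `ℤ`-span of the characters induced from linear characters of subgroups satisfying `𝓗`. -/
def LinSpan (G : Type*) [Group G] [Fintype G] (𝓗 : Subgroup G → Prop) : AddSubgroup (G → ℂ) :=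
  AddSubgroup.closure {f | ∃ (H : Subgroup G) (l : H →* ℂˣ), 𝓗 H ∧
    f = indFun H (fun h => ((l h : ℂˣ) : ℂ))}

theorem indSpan_le_linSpan [Fintype G] :
    IndSpan G (fun E => ∃ p : ℕ, p.Prime ∧ IsElementary p E) ≤
      LinSpan G (fun E => ∃ p : ℕ, p.Prime ∧ IsElementary p E) := by
  unfold IndSpan
  rw [AddSubgroup.closure_le]
  rintro f ⟨E, φ, ⟨p, hp, hE⟩, hφ, rfl⟩
  haveI : Fact p.Prime := ⟨hp⟩
  haveI : Fintype E := Fintype.ofFinite _
  haveI := isNilpotent_of_isElementary hE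
  have hcl := IsCharacter.mem_closure hφ
  show indFun E φ ∈ LinSpan G _
  clear hφ
  induction hcl using AddSubmonoid.closure_induction with
  | mem ψ hψ =>
    obtain ⟨S, l, rfl⟩ := monomial_of_nilpotent (G := E) hψ
    rw [indFun_map]
    apply AddSubgroup.subset_closure
    refine ⟨S.map E.subtype, mapHom E S l, ⟨p, hp, ?_⟩, rfl⟩
    exact isElementary_of_equiv (S.equivMapOfInjective E.subtype E.subtype_injective)
      (isElementary_subgroup hp hE S)
  | zero => rw [indFun_zero]; exact AddSubgroup.zero_mem _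
  | add f g _ _ h1 h2 => rw [indFun_add]; exact AddSubgroup.add_mem _ h1 h2

theorem neg_list_sum' [Fintype G] (l : List ((E : Subgroup G) × ((E →* ℂˣ) × ℤ))) :
    -(l.map fun t => (t.2.2 : ℂ) • indFun t.1 (fun e => ((t.2.1 e : ℂˣ) : ℂ))).sum =
      ((l.map (fun t => (⟨t.1, (t.2.1, -t.2.2)⟩ : (E : Subgroup G) × ((E →* ℂˣ) × ℤ)))).map
        fun t => (t.2.2 : ℂ) • indFun t.1 (fun e => ((t.2.1 e : ℂˣ) : ℂ))).sum := by
  induction l with
  | nil => simp
  | cons a l ih =>
    simp only [List.map_cons, List.sum_cons, neg_add_rev]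
    rw [ih, add_comm]
    congr 1
    simp

theorem LinSpan.exists_list [Fintype G] {𝓗 : Subgroup G → Prop} {f : G → ℂ}
    (hf : f ∈ LinSpan G 𝓗) :
    ∃ l : List ((E : Subgroup G) × ((E →* ℂˣ) × ℤ)), (∀ t ∈ l, 𝓗 t.1) ∧
      f = (l.map fun t => (t.2.2 : ℂ) • indFun t.1 (fun e => ((t.2.1 e : ℂˣ) : ℂ))).sum := by
  induction hf using AddSubgroup.closure_induction with
  | mem f hf =>
    obtain ⟨H, φ, hH, rfl⟩ := hf
    refine ⟨[⟨H, (φ, 1)⟩], ?_, by simp⟩
    intro t ht
    rw [List.mem_singleton] at ht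
    subst ht
    exact hH
  | zero => exact ⟨[], by simp, by simp⟩
  | add f g _ _ h1 h2 =>
    obtain ⟨l1, h1a, rfl⟩ := h1
    obtain ⟨l2, h2a, rfl⟩ := h2
    refine ⟨l1 ++ l2, ?_, by simp⟩
    intro t ht
    rcases List.mem_append.mp ht with h | h
    · exact h1a t h
    · exact h2a t h
  | neg f _ h1 =>
    obtain ⟨l1, h1a, rfl⟩ := h1
    refine ⟨l1.map (fun t => ⟨t.1, (t.2.1, -t.2.2)⟩), ?_, neg_list_sum' l1⟩
    intro t ht
    obtain ⟨s, hs, rfl⟩ := List.mem_map.mp ht
    exact h1a s hs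

/-- Brauer's induction theorem. -/
theorem brauer_induction [Fintype G] {χ : G → ℂ} (hχ : IsCharacter G χ) :
    χ ∈ LinSpan G (fun E => ∃ p : ℕ, p.Prime ∧ IsElementary p E) :=
  indSpan_le_linSpan (IndSpan.of_one_mem brauer_one (isGen_of_isCharacter hχ))

end Cfsg.Agent.Lib.Helper7.Brauer9
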