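import Mathlib
import Cfsg.Prelude.Def_Characters
import Cfsg.Agent.Lib.Helper7.All1
import Cfsg.Agent.Lib.Helper7.CharKer
import Cfsg.Agent.Lib.Helper7.CharRes
import Cfsg.Agent.Lib.Helper7.CharGen
import Cfsg.Agent.Lib.Helper7.CharGallagher
import Cfsg.Agent.Lib.Helper7.Brauer2
import Cfsg.Agent.Lib.Helper7.Brauer9

set_option autoImplicit false
set_option linter.style.haveILetI false
set_option linter.unusedSectionVars false
set_option linter.unusedVariables false
set_option linter.unusedSimpArgs false

namespace Cfsg.Agent.Lib.Helper7.Artin1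

open Module Representation Cfsg
open Cfsg.Agent.Lib.Helper7.CharBasic Cfsg.Agent.Lib.Helper7.CharIrr Cfsg.Agent.Lib.Helper7.CharDecomp Cfsg.Agent.Lib.Helper7.CharComplete Cfsg.Agent.Lib.Helper7.CharOrth Cfsg.Agent.Lib.Helper7.CharInd Cfsg.Agent.Lib.Helper7.CharIntegral Cfsg.Agent.Lib.Helper7.CharBurnside Cfsg.Agent.Lib.Helper7.CharLinear Cfsg.Agent.Lib.Helper7.CharEquiv Cfsg.Agent.Lib.Helper7.CharMore Cfsg.Agent.Lib.Helper7.CharCount Cfsg.Agent.Lib.Helper7.CharMisc Cfsg.Agent.Lib.Helper7.CharMisc2 Cfsg.Agent.Lib.Helper7.CharNormal Cfsg.Agent.Lib.Helper7.CharOdd Cfsg.Agent.Lib.Helper7.CharClifford Cfsg.Agent.Lib.Helper7.CharProd Cfsg.Agent.Lib.Helper7.CharPerm Cfsg.Agent.Lib.Helper7.CharClassAlg Cfsg.Agent.Lib.Helper7.CharClassAlg2 Cfsg.Agent.Lib.Helper7.CharCentral Cfsg.Agent.Lib.Helper7.CharNormal2 Cfsg.Agent.Lib.Helper7.CharCliffordCorr Cfsg.Agent.Lib.Helper7.CharKer Cfsg.Agent.Lib.Helper7.CharRes Cfsg.Agent.Lib.Helper7.CharGen Cfsg.Agent.Lib.Helper7.CharGallagher Cfsg.Agent.Lib.Helper7.Brauer2 Cfsg.Agent.Lib.Helper7.Brauer9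
open scoped ComplexConjugate

universe u

open Classical in
/-- `|A|` on the generators of `A`, zero elsewhere. -/
noncomputable def genFun (A : Type*) [Group A] : A → ℂ :=
  fun x => if Subgroup.zpowers x = ⊤ then (Nat.card A : ℂ) else 0

theorem isClassFunction_genFun (A : Type*) [Group A] : IsClassFunction A (genFun A) := by
  classical
  intro g h
  have h1 : Subgroup.zpowers (h * g * h⁻¹) = ⊤ ↔ Subgroup.zpowers g = ⊤ := by
    have h2 : Subgroup.zpowers (h * g * h⁻¹) =
        (Subgroup.zpowers g).map (MulAut.conj h).toMonoidHom := by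
      rw [MonoidHom.map_zpowers]; rfl
    rw [h2]
    constructor
    · intro h3
      have := congrArg (Subgroup.comap (MulAut.conj h).toMonoidHom) h3
      rwa [Subgroup.comap_map_eq_self_of_injective (MulAut.conj h).injective,
        Subgroup.comap_top] at this
    · intro h3
      rw [h3, ← MonoidHom.range_eq_map, MonoidHom.range_eq_top]
      exact (MulAut.conj h).surjective
  simp only [genFun, h1]

variable {G : Type u} [Group G]

theorem zpowers_eq_top_iff (B : Subgroup G) (x : B) :
    Subgroup.zpowers x = ⊤ ↔ Subgroup.zpowers (x : G) = B := by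
  have h2 : Subgroup.zpowers (x : G) = (Subgroup.zpowers x).map B.subtype := by
    rw [MonoidHom.map_zpowers]; rfl
  rw [h2]
  constructor
  · intro h
    rw [h, ← MonoidHom.range_eq_map, Subgroup.range_subtype]
  · intro h
    have := congrArg (Subgroup.comap B.subtype) h
    rwa [Subgroup.comap_map_eq_self_of_injective B.subtype_injective,
      Subgroup.comap_subtype, Subgroup.subgroupOf_self] at this

open Classical in
theorem extendByZero_genFun (B : Subgroup G) (z : G) :
    extendByZero B (genFun B) z = if Subgroup.zpowers z = B then (Nat.card B : ℂ) else 0 := by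
  by_cases hz : z ∈ B
  · rw [extendByZero_of_mem B _ hz]
    simp only [genFun, zpowers_eq_top_iff]
  · rw [extendByZero_of_not_mem B _ hz, if_neg]
    intro h
    exact hz (h ▸ Subgroup.mem_zpowers z)

open Classical in
theorem indFun_genFun [Fintype G] (B : Subgroup G) (g : G) :
    indFun B (genFun B) g = ∑ y : G, if Subgroup.zpowers (y⁻¹ * g * y) = B then (1 : ℂ) else 0 := by
  unfold indFun
  simp only [extendByZero_genFun]
  rw [Finset.mul_sum]
  apply Finset.sum_congr rfl
  intro y _
  have : (Nat.card B : ℂ) ≠ 0 := by exact_mod_cast Nat.card_pos.ne'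
  split_ifs
  · field_simp
  · simp

theorem sum_indFun_genFun [Fintype G] :
    ∑ B : Subgroup G, indFun B (genFun B) = fun _ => (Nat.card G : ℂ) := by
  classical
  funext g
  rw [Finset.sum_apply]
  simp only [indFun_genFun]
  rw [Finset.sum_comm]
  simp only [Finset.sum_ite_eq, Finset.mem_univ, if_true, Finset.sum_const, Finset.card_univ,
    nsmul_eq_mul, mul_one, Nat.card_eq_fintype_card]

theorem isGen_genFun_aux (n : ℕ) : ∀ (G : Type u) [Group G] [Fintype G], Nat.card G = n →
    IsGeneralizedCharacter G (genFun G) := by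
  classical
  induction n using Nat.strong_induction_on with
  | _ n ih =>
    intro G _ _ hn
    have h1 := sum_indFun_genFun (G := G)
    rw [← Finset.add_sum_erase _ _ (Finset.mem_univ (⊤ : Subgroup G))] at h1
    have h2 : indFun (⊤ : Subgroup G) (genFun (⊤ : Subgroup G)) = genFun G := by
      rw [← indFun_top (isClassFunction_genFun G)]
      congr 1
      funext x
      simp only [genFun, zpowers_eq_top_iff, Subgroup.card_top]
    rw [h2] at h1
    have h3 : genFun G = (fun _ => (Nat.card G : ℂ)) -
        ∑ B ∈ Finset.univ.erase (⊤ : Subgroup G), indFun B (genFun B) := by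
      rw [← h1]; simp
    rw [h3]
    apply isGen_sub
    · have := isGen_nsmul (Nat.card G) (isGen_of_isCharacter (isCharacter_one (G := G)))
      convert this using 1
      funext g
      simp
    · apply isGen_sum
      intro B hB
      haveI : Fintype B := Fintype.ofFinite _
      apply isGen_indFun
      apply ih (Nat.card B) ?_ B rfl
      rw [← hn]
      rcases (Subgroup.card_le_card_group B).lt_or_eq with h4 | h4
      · exact h4
      · exact absurd ((Subgroup.card_eq_iff_eq_top B).mp h4) (Finset.ne_of_mem_erase hB)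

theorem isGen_genFun (G : Type u) [Group G] [Fintype G] : IsGeneralizedCharacter G (genFun G) :=
  isGen_genFun_aux _ G rfl

theorem genFun_eq_zero (A : Type*) [Group A] (h : ¬ IsCyclic A) : genFun A = 0 := by
  classical
  funext x
  simp only [genFun, Pi.zero_apply]
  rw [if_neg]
  intro h1
  apply h
  exact ⟨x, fun y => Subgroup.mem_zpowers_iff.mp (h1 ▸ Subgroup.mem_top y)⟩

/-- Artin's induction theorem. -/
theorem artin [Fintype G] {χ : G → ℂ} (hχ : IsCharacter G χ) :
    (Nat.card G : ℂ) • χ ∈ LinSpan G (fun A => IsCyclic A) := by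
  classical
  have h1 : (Nat.card G : ℂ) • χ = ∑ B : Subgroup G, indFun B (genFun B * fun b : B => χ b) := by
    simp only [indFun_mul_restrict _ _ (IsCharacter.isClassFunction hχ)]
    rw [← Finset.sum_mul, sum_indFun_genFun]
    funext g
    simp
  rw [h1]
  apply AddSubgroup.sum_mem
  intro B _
  by_cases hB : IsCyclic B
  · haveI : Fintype B := Fintype.ofFinite _
    haveI : Fintype (IrrCharacter B) := Fintype.ofFinite _
    have hg : IsGeneralizedCharacter B (genFun B * fun b : B => χ b) :=
      isGen_mul (isGen_genFun B) (isGen_of_isCharacter (isCharacter_restrict B hχ))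
    obtain ⟨c, -, hc⟩ := gen_eq_sum hg
    rw [hc]
    have hsum : indFun B (∑ ψ : IrrCharacter B, (c ψ : ℂ) • (ψ : B → ℂ)) =
        ∑ ψ : IrrCharacter B, (c ψ : ℂ) • indFun B (ψ : B → ℂ) := by
      have : ∀ s : Finset (IrrCharacter B), indFun B (∑ ψ ∈ s, (c ψ : ℂ) • (ψ : B → ℂ)) =
          ∑ ψ ∈ s, (c ψ : ℂ) • indFun B (ψ : B → ℂ) := by
        intro s
        induction s using Finset.induction_on with
        | empty => simp [indFun_zero]
        | insert a s ha ih => rw [Finset.sum_insert ha, Finset.sum_insert ha, indFun_add,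
            indFun_smul, ih]
      exact this _
    rw [hsum]
    apply AddSubgroup.sum_mem
    intro ψ _
    have hlin : (ψ : B → ℂ) 1 = 1 := by
      apply (comm_iff_all_linear.mp _) ψ
      intro a b
      obtain ⟨g, hg⟩ := IsCyclic.exists_generator (α := B)
      obtain ⟨i, hi⟩ := Subgroup.mem_zpowers_iff.mp (hg a)
      obtain ⟨j, hj⟩ := Subgroup.mem_zpowers_iff.mp (hg b)
      rw [← hi, ← hj, ← zpow_add, ← zpow_add, add_comm]
    obtain ⟨l, hl⟩ := exists_hom_of_irr_of_one (IsIrrCharacter.isCharacter ψ.2) hlin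
    have hmem : indFun B (ψ : B → ℂ) ∈ LinSpan G (fun A => IsCyclic A) :=
      AddSubgroup.subset_closure ⟨B, l, hB, by rw [hl]⟩
    have : (c ψ : ℂ) • indFun B (ψ : B → ℂ) = c ψ • indFun B (ψ : B → ℂ) := by
      funext g; simp
    rw [this]
    exact AddSubgroup.zsmul_mem _ hmem _
  · rw [genFun_eq_zero B hB, zero_mul, indFun_zero]
    exact AddSubgroup.zero_mem _

end Cfsg.Agent.Lib.Helper7.Artin1
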