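import Mathlib
import Cfsg.Prelude.Def_Blocks
import Cfsg.Agent.Lib.Helper2.BlockReg3
import Cfsg.Agent.Lib.Helper2.BlockLam
import Cfsg.Agent.Lib.Helper7.Brauer11
import Cfsg.Agent.Lib.Helper7.Brauer12
import Cfsg.Agent.Lib.Helper7.BPair2
import Cfsg.Agent.Lib.Helper7.BCount1
import Cfsg.Agent.Lib.Helper7.BSpan1
import Cfsg.Agent.Lib.Helper7.BFeit1

set_option autoImplicit false
set_option linter.unusedSectionVars false
set_option linter.unusedVariables false
set_option linter.style.haveILetI false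

/-! The rank of a block as an average norm. -/

namespace Cfsg.Agent.Lib.Helper7.BRank1

open Cfsg Cfsg.Agent.Lib.Helper7.CharIrr Cfsg.Agent.Lib.Helper7.CharOrth
  Cfsg.Agent.Lib.Helper7.CharIntegral Cfsg.Agent.Lib.Helper7.CharMore
  Cfsg.Agent.Lib.Helper7.CharClassAlg Cfsg.Agent.Lib.Helper7.CharComplete
  Cfsg.Agent.Lib.Helper7.CharDeg Cfsg.Agent.Lib.Helper7.CharGalois
  Cfsg.Agent.Lib.Helper7.CharClassAlg2 Cfsg.Agent.Lib.Helper7.CharInd
  Cfsg.Agent.Lib.Helper7.CharBasic Cfsg.Agent.Lib.Helper7.CharGen Cfsg.Agent.Lib.Helper7.CharRes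
  Cfsg.Agent.Lib.Helper7.Brauer11 Cfsg.Agent.Lib.Helper7.Brauer12
  Cfsg.Agent.Lib.Helper2.LocRing Cfsg.Agent.Lib.Helper2.BlockLam
  Cfsg.Agent.Lib.Helper2.BlockZ Cfsg.Agent.Lib.Helper2.BlockDef Cfsg.Agent.Lib.Helper2.BlockCong
  Cfsg.Agent.Lib.Helper2.BlockHt Cfsg.Agent.Lib.Helper2.BlockReg Cfsg.Agent.Lib.Helper2.BlockBr2
  Cfsg.Agent.Lib.Helper2.BlockSub Cfsg.Agent.Lib.Helper2.BlockReg2 Cfsg.Agent.Lib.Helper2.BlockReg3
open scoped ComplexConjugate

variable {G : Type*} [Group G] [Fintype G]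


open Cfsg.Agent.Lib.Helper7.BCount1 Cfsg.Agent.Lib.Helper7.BSpan1 Cfsg.Agent.Lib.Helper7.BPair2

/-- the functional `v ↦ [v, w]` -/
noncomputable def innerL (w : G → ℂ) : (G → ℂ) →ₗ[ℂ] ℂ where
  toFun v := classInner v w
  map_add' a b := classInner_add_left a b w
  map_smul' c a := classInner_smul_left c a w

theorem sum_inner_eq_finrank {ι : Type*} (s : Finset ι) (w : ι → G → ℂ)
    (V : Submodule ℂ (G → ℂ)) (hmem : ∀ i ∈ s, w i ∈ V)
    (hid : ∀ v ∈ V, ∑ i ∈ s, classInner v (w i) • w i = v) :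
    ∑ i ∈ s, classInner (w i) (w i) = (Module.finrank ℂ V : ℂ) := by
  classical
  obtain ⟨T, hT⟩ : ∃ T : (G → ℂ) →ₗ[ℂ] (G → ℂ), T = ∑ i ∈ s, (innerL (w i)).smulRight (w i) :=
    ⟨_, rfl⟩
  have hTv : ∀ v, T v = ∑ i ∈ s, classInner v (w i) • w i := by
    intro v
    rw [hT, LinearMap.sum_apply]
    rfl
  have hproj : LinearMap.IsProj V T := by
    constructor
    · intro v
      rw [hTv]
      exact Submodule.sum_mem _ (fun i hi => Submodule.smul_mem _ _ (hmem i hi))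
    · intro v hv
      rw [hTv]
      exact hid v hv
  rw [← hproj.trace, hT, map_sum]
  apply Finset.sum_congr rfl
  intro i _
  rw [LinearMap.trace_smulRight]
  rfl

theorem pRegularPart_eq_pReg (p : ℕ) (χ : G → ℂ) : pRegularPart p χ = pReg p χ := by
  classical
  funext g
  rw [pRegularPart_apply]
  unfold IsPRegular pReg
  split_ifs <;> simp_all

theorem pReg_pReg (p : ℕ) (χ : G → ℂ) : pReg p (pReg p χ) = pReg p χ := by
  funext g
  unfold pReg
  split_ifs <;> rfl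

theorem pReg_sum {ι : Type*} (p : ℕ) (s : Finset ι) (f : ι → G → ℂ) :
    pReg p (∑ i ∈ s, f i) = ∑ i ∈ s, pReg p (f i) := by
  funext g
  simp only [pReg, Finset.sum_apply]
  split_ifs <;> simp

theorem pReg_smul (p : ℕ) (c : ℂ) (f : G → ℂ) : pReg p (c • f) = c • pReg p f := by
  funext g
  simp only [pReg, Pi.smul_apply]
  split_ifs <;> simp

/-- `ψ°` is the combination of the block with coefficients `[ψ°, χ]` -/
theorem pReg_eq_sum_block {M : Ideal AlgInt} {p : ℕ} [Fact p.Prime] (hM : IsPModular p M)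
    {B : Set (IrrCharacter G)} (hB : IsPBlock M B) (S : Finset (IrrCharacter G))
    (hS : ∀ ψ, ψ ∈ S ↔ ψ ∈ B) {ψ : IrrCharacter G} (hψ : ψ ∈ B) :
    pReg p (ψ : G → ℂ) = ∑ χ ∈ S, classInner (pReg p (ψ : G → ℂ)) (χ : G → ℂ) • (χ : G → ℂ) := by
  classical
  haveI := Fintype.ofFinite (IrrCharacter G)
  have h1 := classFunction_eq_sum
    (isClassFunction_pReg p (IsIrrCharacter.isClassFunction ψ.2))
  conv_lhs => rw [h1]
  symm
  apply Finset.sum_subset (Finset.subset_univ _)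
  intro χ _ hχ
  rw [classInner_pReg_eq_zero hM hB hψ (fun h => hχ ((hS χ).mpr h)), zero_smul]

theorem rank_eq {M : Ideal AlgInt} {p : ℕ} [Fact p.Prime] (hM : IsPModular p M)
    {B : Set (IrrCharacter G)} (hB : IsPBlock M B) (S : Finset (IrrCharacter G))
    (hS : ∀ ψ, ψ ∈ S ↔ ψ ∈ B) :
    ∑ χ ∈ S, classInner (pReg p (χ : G → ℂ)) (pReg p (χ : G → ℂ)) = (blockRank p B : ℂ) := by
  classical
  unfold blockRank
  apply sum_inner_eq_finrank S (fun χ => pReg p (χ : G → ℂ))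
  · intro χ hχ
    apply Submodule.subset_span
    exact ⟨χ, (hS χ).mp hχ, pRegularPart_eq_pReg p _⟩
  · intro v hv
    have hle : Submodule.span ℂ ((fun χ : IrrCharacter G => pRegularPart p (χ : G → ℂ)) '' B) ≤
        LinearMap.eqLocus (∑ χ ∈ S, (innerL (pReg p (χ : G → ℂ))).smulRight (pReg p (χ : G → ℂ)))
          LinearMap.id := by
      rw [Submodule.span_le]
      rintro _ ⟨ψ, hψ, rfl⟩
      simp only [SetLike.mem_coe, LinearMap.mem_eqLocus, LinearMap.sum_apply, LinearMap.id_apply]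
      rw [pRegularPart_eq_pReg]
      change ∑ χ ∈ S, classInner (pReg p (ψ : G → ℂ)) (pReg p (χ : G → ℂ)) • pReg p (χ : G → ℂ) = _
      conv_rhs => rw [← pReg_pReg, pReg_eq_sum_block hM hB S hS hψ, pReg_sum]
      apply Finset.sum_congr rfl
      intro χ _
      rw [pReg_smul, Cfsg.Agent.Lib.Helper7.BFeit1.classInner_pReg_pReg]
    have := hle hv
    simp only [LinearMap.mem_eqLocus, LinearMap.sum_apply, LinearMap.id_apply] at this
    exact this

end Cfsg.Agent.Lib.Helper7.BRank1
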