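import Mathlib
import Cfsg.Prelude.Def_Blocks
import Cfsg.Agent.Lib.Helper2.BlockReg3
import Cfsg.Agent.Lib.Helper2.BlockLam
import Cfsg.Agent.Lib.Helper7.Brauer11
import Cfsg.Agent.Lib.Helper7.Brauer12
import Cfsg.Agent.Lib.Helper7.BPair2
import Cfsg.Agent.Lib.Helper7.BCount1
import Cfsg.Agent.Lib.Helper7.BSpan1
import Cfsg.Agent.Lib.Helper7.BFeit1
import Cfsg.Agent.Lib.Helper7.BRank1
import Cfsg.Agent.Lib.Helper7.BSub1
import Cfsg.Agent.Lib.Helper2.BlockSM7

set_option autoImplicit false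
set_option linter.unusedSectionVars false
set_option linter.unusedVariables false
set_option linter.style.haveILetI false

/-! The rank of a block of a centralizer via subsections. -/

namespace Cfsg.Agent.Lib.Helper7.BRank2

open Cfsg Cfsg.Agent.Lib.Helper7.CharIrr Cfsg.Agent.Lib.Helper7.CharOrth
  Cfsg.Agent.Lib.Helper7.CharIntegral Cfsg.Agent.Lib.Helper7.CharMore
  Cfsg.Agent.Lib.Helper7.CharClassAlg Cfsg.Agent.Lib.Helper7.CharComplete
  Cfsg.Agent.Lib.Helper7.CharDeg Cfsg.Agent.Lib.Helper7.CharGalois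
  Cfsg.Agent.Lib.Helper7.CharClassAlg2 Cfsg.Agent.Lib.Helper7.CharInd
  Cfsg.Agent.Lib.Helper7.CharBasic Cfsg.Agent.Lib.Helper7.CharGen Cfsg.Agent.Lib.Helper7.CharRes
  Cfsg.Agent.Lib.Helper7.Brauer11 Cfsg.Agent.Lib.Helper7.Brauer12
  Cfsg.Agent.Lib.Helper2.LocRing Cfsg.Agent.Lib.Helper2.BlockLam
  Cfsg.Agent.Lib.Helper2.BlockZ Cfsg.Agent.Lib.Helper2.BlockDef Cfsg.Agent.Lib.Helper2.BlockCong
  Cfsg.Agent.Lib.Helper2.BlockHt Cfsg.Agent.Lib.Helper2.BlockReg Cfsg.Agent.Lib.Helper2.BlockBr2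
  Cfsg.Agent.Lib.Helper2.BlockSub Cfsg.Agent.Lib.Helper2.BlockReg2 Cfsg.Agent.Lib.Helper2.BlockReg3
open scoped ComplexConjugate

variable {G : Type*} [Group G] [Fintype G]


open Cfsg.Agent.Lib.Helper7.BCount1 Cfsg.Agent.Lib.Helper7.BSpan1 Cfsg.Agent.Lib.Helper7.BPair2
  Cfsg.Agent.Lib.Helper7.BRank1 Cfsg.Agent.Lib.Helper7.BFeit1 Cfsg.Agent.Lib.Helper7.BSub1
  Cfsg.Agent.Lib.Helper2.BlockSM4 Cfsg.Agent.Lib.Helper2.BlockSM5 Cfsg.Agent.Lib.Helper2.BlockSM7

/-- translate by `u` and restrict -/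
def th (H : Subgroup G) (u : G) (F : G → ℂ) : H → ℂ := fun c => F (u * c)

variable (H : Subgroup G) [Fintype H] (u : G) (hH : ∀ g : G, g ∈ H ↔ g * u = u * g)

include hH in
theorem th_isClass {F : G → ℂ} (hF : IsClassFunction G F) : IsClassFunction H (th H u F) := by
  intro c k
  unfold th
  have hk : (k : G) * u = u * k := (hH k).mp k.2
  have e : u * ((k * c * k⁻¹ : H) : G) = (k : G) * (u * c) * (k : G)⁻¹ := by
    push_cast
    rw [← mul_assoc, ← mul_assoc, ← hk]
    group
  rw [e, hF]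

/-- block part in finite sum form -/
theorem blockPart_eq_filter [Fintype (IrrCharacter G)] (B : Set (IrrCharacter G))
    [DecidablePred (· ∈ B)] {ϑ : G → ℂ} (hϑ : IsClassFunction G ϑ) :
    blockPart B ϑ = ∑ χ ∈ Finset.univ.filter (fun χ => χ ∈ B), classInner ϑ χ • (χ : G → ℂ) := by
  funext g
  rw [blockPart_eq_sum B hϑ, sum_blockCoeff_mul B hϑ]
  simp only [Finset.sum_apply, Pi.smul_apply, smul_eq_mul]

include hH in
theorem ind_value {p : ℕ} (hp : p.Prime) (hu : ∃ k : ℕ, orderOf u = p ^ k) (hu' : u ∈ H)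
    {v : H → ℂ} (hv : IsClassFunction H v) (hv0 : ∀ c : H, p ∣ orderOf c → v c = 0) (c : H)
    (hc : ¬ p ∣ orderOf c) :
    indFun H (fun d : H => v ((⟨u, hu'⟩ : H)⁻¹ * d)) (u * c) = v c := by
  classical
  have hcu : (c : G) * u = u * c := (hH c).mp c.2
  have hpp : IsPPart p (u * (c : G)) u :=
    ⟨c, rfl, hcu.symm, hu, by rw [Subgroup.orderOf_coe]; exact hc⟩
  have key : ∀ x : G, extendByZero H (fun d : H => v ((⟨u, hu'⟩ : H)⁻¹ * d)) (x⁻¹ * (u * c) * x) =
      if x ∈ H then v c else 0 := by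
    intro x
    by_cases hx : x ∈ H
    · rw [if_pos hx]
      have hxu : x * u = u * x := (hH x).mp hx
      have hmem : x⁻¹ * (u * c) * x ∈ H :=
        H.mul_mem (H.mul_mem (H.inv_mem hx) (H.mul_mem hu' c.2)) hx
      rw [extendByZero_of_mem H _ hmem]
      have e : (⟨u, hu'⟩ : H)⁻¹ * ⟨x⁻¹ * (u * c) * x, hmem⟩ =
          (⟨x, hx⟩ : H)⁻¹ * c * ((⟨x, hx⟩ : H)⁻¹)⁻¹ := by
        apply Subtype.ext
        push_cast
        have h1 : x⁻¹ * u = u * x⁻¹ := by
          rw [eq_mul_inv_iff_mul_eq, mul_assoc, ← hxu, ← mul_assoc, inv_mul_cancel, one_mul]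
        rw [inv_inv, ← mul_assoc x⁻¹ u, h1]
        group
      rw [e, hv]
    · rw [if_neg hx]
      by_cases hmem : x⁻¹ * (u * c) * x ∈ H
      · rw [extendByZero_of_mem H _ hmem]
        apply hv0
        by_contra hreg
        apply hx
        have h1 : IsPPart p (x⁻¹ * (u * c) * x) u := by
          refine ⟨(((⟨u, hu'⟩ : H)⁻¹ * ⟨x⁻¹ * (u * c) * x, hmem⟩ : H) : G), ?_, ?_, hu, ?_⟩
          · push_cast
            rw [mul_inv_cancel_left]
          · exact ((hH _).mp (SetLike.coe_mem _)).symm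
          · rw [Subgroup.orderOf_coe]
            exact hreg
        have h2 := isPPart_conj hpp x⁻¹
        rw [inv_inv] at h2
        have h3 := isPPart_unique hp h1 h2
        rw [hH]
        conv_lhs => rw [h3]
        group
      · exact extendByZero_of_not_mem H _ hmem
  unfold indFun
  rw [Finset.sum_congr rfl (fun x _ => key x), ← Finset.sum_filter, Finset.sum_const,
    nsmul_eq_mul]
  have hcard : (Finset.univ.filter (fun x : G => x ∈ H)).card = Nat.card H := by
    rw [Nat.card_eq_fintype_card, Fintype.card_subtype]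
  rw [hcard, ← mul_assoc, inv_mul_cancel₀ (Nat.cast_ne_zero.mpr Nat.card_pos.ne'), one_mul]

theorem frob_th (hu' : u ∈ H) (v : H → ℂ) {χ : G → ℂ} (hχ : IsClassFunction G χ) :
    classInner (indFun H (fun d : H => v ((⟨u, hu'⟩ : H)⁻¹ * d))) χ = classInner v (th H u χ) := by
  rw [frobenius_reciprocity H _ χ hχ]
  unfold classInner th
  congr 1
  rw [← Equiv.sum_comp (Equiv.mulLeft (⟨u, hu'⟩ : H))]
  apply Finset.sum_congr rfl
  intro y _
  simp

theorem inner_blockPart {M : Ideal AlgInt} {p : ℕ} [Fact p.Prime] (hM : IsPModular p M)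
    {e : Set (IrrCharacter G)} (he : IsPBlock M e) {ψ₀ : IrrCharacter G} (hψ₀ : ψ₀ ∈ e)
    {ϑ : G → ℂ} (hϑ : IsClassFunction G ϑ) :
    classInner (pReg p (ψ₀ : G → ℂ)) (pReg p (blockPart e ϑ)) =
      classInner (pReg p (ψ₀ : G → ℂ)) ϑ := by
  classical
  haveI := Fintype.ofFinite (IrrCharacter G)
  rw [classInner_pReg_pReg, blockPart_eq_filter e hϑ, classInner_sum_right]
  simp only [classInner_smul_right]
  rw [classInner_eq_sum (isClassFunction_pReg p (IsIrrCharacter.isClassFunction ψ₀.2)) hϑ,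
    Finset.sum_filter]
  apply Finset.sum_congr rfl
  intro ψ _
  split_ifs with h
  · ring
  · rw [classInner_pReg_eq_zero hM he hψ₀ h]
    ring

/-- the map sending a class function of `G` to the regular part of the `e`-part of its
translate -/
noncomputable def Lam (p : ℕ) (e : Set (IrrCharacter H)) (F : G → ℂ) : H → ℂ :=
  pReg p (blockPart e (th H u F))

theorem Lam_sing (p : ℕ) (e : Set (IrrCharacter H)) (F : G → ℂ) {s : H} (hs : p ∣ orderOf s) :
    Lam H u p e F s = 0 := by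
  unfold Lam pReg
  rw [if_pos hs]

include hH in
theorem Lam_reg (p : ℕ) (e : Set (IrrCharacter H)) {F : G → ℂ} (hF : IsClassFunction G F) {s : H}
    (hs : ¬ p ∣ orderOf s) :
    Lam H u p e F s = ∑ k : H, blockCoeff e k * F (u * ((k * s : H) : G)) := by
  unfold Lam pReg
  rw [if_neg hs, blockPart_eq_sum e (th_isClass H u hH hF)]
  rfl

include hH in
theorem sum_Lam_eq {M : Ideal AlgInt} {p : ℕ} [Fact p.Prime] (hM : IsPModular p M)
    (hu : ∃ k : ℕ, orderOf u = p ^ k) {e : Set (IrrCharacter H)} (he : IsPBlock M e)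
    {ψ₀ : IrrCharacter H} (hψ₀ : ψ₀ ∈ e) [Fintype (IrrCharacter G)] :
    ∑ χ : IrrCharacter G, classInner (pReg p (ψ₀ : H → ℂ)) (Lam H u p e (χ : G → ℂ)) •
      Lam H u p e (χ : G → ℂ) = pReg p (ψ₀ : H → ℂ) := by
  classical
  haveI := Fintype.ofFinite (IrrCharacter H)
  have hu' : u ∈ H := (hH u).mpr rfl
  obtain ⟨v, hvdef⟩ : ∃ v : H → ℂ, v = pReg p (ψ₀ : H → ℂ) := ⟨_, rfl⟩
  have hv : IsClassFunction H v := by
    rw [hvdef]; exact isClassFunction_pReg p (IsIrrCharacter.isClassFunction ψ₀.2)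
  have hv0 : ∀ c : H, p ∣ orderOf c → v c = 0 := by
    intro c hc
    rw [hvdef]
    unfold pReg
    rw [if_pos hc]
  obtain ⟨I, hIdef⟩ : ∃ I : G → ℂ, I = indFun H (fun d : H => v ((⟨u, hu'⟩ : H)⁻¹ * d)) :=
    ⟨_, rfl⟩
  have hI : IsClassFunction G I := by rw [hIdef]; exact indFun_isClassFunction H _
  have c1 : ∀ χ : IrrCharacter G, classInner (pReg p (ψ₀ : H → ℂ)) (Lam H u p e (χ : G → ℂ)) =
      classInner I (χ : G → ℂ) := by
    intro χ
    have hχc := IsIrrCharacter.isClassFunction χ.2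
    unfold Lam
    rw [inner_blockPart hM he hψ₀ (th_isClass H u hH hχc), hIdef, frob_th H u hu' v hχc, hvdef]
  simp only [c1]
  rw [← hvdef]
  funext s
  simp only [Finset.sum_apply, Pi.smul_apply, smul_eq_mul]
  by_cases hs : p ∣ orderOf s
  · rw [hv0 s hs]
    apply Finset.sum_eq_zero
    intro χ _
    rw [Lam_sing H u p e _ hs, mul_zero]
  · have e1 : ∀ χ : IrrCharacter G, classInner I (χ : G → ℂ) * Lam H u p e (χ : G → ℂ) s =
        ∑ k : H, blockCoeff e k * (classInner I (χ : G → ℂ) * (χ : G → ℂ) (u * ((k * s : H) : G))) := by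
      intro χ
      rw [Lam_reg H u hH p e (IsIrrCharacter.isClassFunction χ.2) hs, Finset.mul_sum]
      apply Finset.sum_congr rfl
      intro k _
      ring
    rw [Finset.sum_congr rfl (fun χ _ => e1 χ), Finset.sum_comm]
    have e2 : ∀ g : G, ∑ χ : IrrCharacter G, classInner I (χ : G → ℂ) * (χ : G → ℂ) g = I g := by
      intro g
      have := congrFun (classFunction_eq_sum hI) g
      simp only [Finset.sum_apply, Pi.smul_apply, smul_eq_mul] at this
      exact this.symm
    have e3 : ∀ k : H, ∑ χ : IrrCharacter G,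
        blockCoeff e k * (classInner I (χ : G → ℂ) * (χ : G → ℂ) (u * ((k * s : H) : G))) =
        blockCoeff e k * v (k * s) + blockCoeff e k * (th H u I - v) (k * s) := by
      intro k
      rw [← Finset.mul_sum, e2, ← mul_add]
      congr 1
      simp only [Pi.sub_apply, th]
      ring
    rw [Finset.sum_congr rfl (fun k _ => e3 k), Finset.sum_add_distrib]
    have e4 : ∑ k : H, blockCoeff e k * (th H u I - v) (k * s) = 0 := by
      apply sum_blockCoeff_preg hM he (isClassFunction_sub (th_isClass H u hH hI) hv) _ s hs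
      intro c hc
      simp only [Pi.sub_apply, th]
      rw [hIdef, ind_value H u hH hM.1 hu hu' hv hv0 c hc, sub_self]
    have e5 : ∑ k : H, blockCoeff e k * v (k * s) = v s := by
      rw [← blockPart_eq_sum e hv, blockPart_eq_filter e hv]
      have := pReg_eq_sum_block hM he (Finset.univ.filter (fun χ => χ ∈ e)) (by simp) hψ₀
      rw [← hvdef] at this
      exact (congrFun this s).symm
    rw [e4, e5, add_zero]

include hH in
theorem Lam_mem (p : ℕ) (e : Set (IrrCharacter H)) {F : G → ℂ} (hF : IsClassFunction G F) :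
    Lam H u p e F ∈
      Submodule.span ℂ ((fun χ : IrrCharacter H => pRegularPart p (χ : H → ℂ)) '' e) := by
  classical
  haveI := Fintype.ofFinite (IrrCharacter H)
  unfold Lam
  rw [blockPart_eq_filter e (th_isClass H u hH hF), pReg_sum]
  apply Submodule.sum_mem
  intro ψ hψ
  rw [pReg_smul]
  apply Submodule.smul_mem
  apply Submodule.subset_span
  exact ⟨ψ, (Finset.mem_filter.mp hψ).2, pRegularPart_eq_pReg p _⟩

include hH in
theorem Lam_eq_zero {M : Ideal AlgInt} {p : ℕ} [Fact p.Prime] (hM : IsPModular p M)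
    (hu : ∃ k : ℕ, orderOf u = p ^ k) {e : Set (IrrCharacter H)} {B : Set (IrrCharacter G)}
    (hind : IsInducedBlock M H e B) {χ : IrrCharacter G} (hχ : χ ∉ B) :
    Lam H u p e (χ : G → ℂ) = 0 := by
  classical
  have hu' : u ∈ H := (hH u).mpr rfl
  funext s
  by_cases hs : p ∣ orderOf s
  · exact Lam_sing H u p e _ hs
  · rw [Lam_reg H u hH p e (IsIrrCharacter.isClassFunction χ.2) hs]
    have hsu : (s : G) * u = u * s := (hH s).mp s.2
    have hpp : IsPPart p (((⟨u, hu'⟩ * s : H) : H) : G) u :=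
      ⟨s, rfl, hsu.symm, hu, by rw [Subgroup.orderOf_coe]; exact hs⟩
    have h1 := second_main hM H hind (⟨u, hu'⟩ * s) (by
      intro z hz
      rw [isPPart_unique hM.1 hz hpp]
      intro g hg
      rw [hH]
      exact Subgroup.mem_centralizer_singleton_iff.mp hg) χ hχ
    rw [Pi.zero_apply, ← h1]
    apply Finset.sum_congr rfl
    intro k _
    congr 2
    have hku : (k : G) * u = u * k := (hH k).mp k.2
    push_cast
    rw [← mul_assoc, ← mul_assoc, hku]

include hH in
theorem sum_Lam_norm {M : Ideal AlgInt} {p : ℕ} [Fact p.Prime] (hM : IsPModular p M)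
    (hu : ∃ k : ℕ, orderOf u = p ^ k) {e : Set (IrrCharacter H)} (he : IsPBlock M e)
    [Fintype (IrrCharacter G)] :
    ∑ χ : IrrCharacter G, classInner (Lam H u p e (χ : G → ℂ)) (Lam H u p e (χ : G → ℂ)) =
      (blockRank p e : ℂ) := by
  classical
  unfold blockRank
  apply sum_inner_eq_finrank Finset.univ (fun χ : IrrCharacter G => Lam H u p e (χ : G → ℂ))
  · intro χ _
    exact Lam_mem H u hH p e (IsIrrCharacter.isClassFunction χ.2)
  · intro v hv
    have hle : Submodule.span ℂ ((fun χ : IrrCharacter H => pRegularPart p (χ : H → ℂ)) '' e) ≤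
        LinearMap.eqLocus (∑ χ : IrrCharacter G,
          (innerL (Lam H u p e (χ : G → ℂ))).smulRight (Lam H u p e (χ : G → ℂ)))
          LinearMap.id := by
      rw [Submodule.span_le]
      rintro _ ⟨ψ, hψ, rfl⟩
      simp only [SetLike.mem_coe, LinearMap.mem_eqLocus, LinearMap.sum_apply, LinearMap.id_apply]
      rw [pRegularPart_eq_pReg]
      exact sum_Lam_eq H u hH hM hu he hψ
    have := hle hv
    simp only [LinearMap.mem_eqLocus, LinearMap.sum_apply, LinearMap.id_apply] at this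
    exact this

end Cfsg.Agent.Lib.Helper7.BRank2
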