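import Mathlib
import Cfsg.Prelude.Def_Blocks
import Cfsg.Agent.Lib.Helper2.BlockReg3
import Cfsg.Agent.Lib.Helper2.BlockLam
import Cfsg.Agent.Lib.Helper7.Brauer11
import Cfsg.Agent.Lib.Helper7.Brauer12
import Cfsg.Agent.Lib.Helper7.BPair2
import Cfsg.Agent.Lib.Helper7.BCount1
import Cfsg.Agent.Lib.Helper7.BSpan1
import Cfsg.Agent.Lib.Helper7.BFeit1
import Cfsg.Agent.Lib.Helper7.BRank1
import Cfsg.Agent.Lib.Helper7.BRank2
import Cfsg.Agent.Lib.Helper7.BPair1
import Cfsg.Agent.Lib.Helper7.BSub1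
import Cfsg.Agent.Lib.Helper2.BlockSM7

set_option autoImplicit false
set_option linter.unusedSectionVars false
set_option linter.unusedVariables false
set_option linter.style.haveILetI false

/-! The rank of a block of a centralizer via subsections, final form. -/

namespace Cfsg.Agent.Lib.Helper7.BRank3

open Cfsg Cfsg.Agent.Lib.Helper7.CharIrr Cfsg.Agent.Lib.Helper7.CharOrth
  Cfsg.Agent.Lib.Helper7.CharIntegral Cfsg.Agent.Lib.Helper7.CharMore
  Cfsg.Agent.Lib.Helper7.CharClassAlg Cfsg.Agent.Lib.Helper7.CharComplete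
  Cfsg.Agent.Lib.Helper7.CharDeg Cfsg.Agent.Lib.Helper7.CharGalois
  Cfsg.Agent.Lib.Helper7.CharClassAlg2 Cfsg.Agent.Lib.Helper7.CharInd
  Cfsg.Agent.Lib.Helper7.CharBasic Cfsg.Agent.Lib.Helper7.CharGen Cfsg.Agent.Lib.Helper7.CharRes
  Cfsg.Agent.Lib.Helper7.Brauer11 Cfsg.Agent.Lib.Helper7.Brauer12
  Cfsg.Agent.Lib.Helper2.LocRing Cfsg.Agent.Lib.Helper2.BlockLam
  Cfsg.Agent.Lib.Helper2.BlockZ Cfsg.Agent.Lib.Helper2.BlockDef Cfsg.Agent.Lib.Helper2.BlockCong
  Cfsg.Agent.Lib.Helper2.BlockHt Cfsg.Agent.Lib.Helper2.BlockReg Cfsg.Agent.Lib.Helper2.BlockBr2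
  Cfsg.Agent.Lib.Helper2.BlockSub Cfsg.Agent.Lib.Helper2.BlockReg2 Cfsg.Agent.Lib.Helper2.BlockReg3
open scoped ComplexConjugate

variable {G : Type*} [Group G] [Fintype G]

open Cfsg.Agent.Lib.Helper7.BCount1 Cfsg.Agent.Lib.Helper7.BSpan1 Cfsg.Agent.Lib.Helper7.BPair2
  Cfsg.Agent.Lib.Helper7.BRank1 Cfsg.Agent.Lib.Helper7.BFeit1 Cfsg.Agent.Lib.Helper7.BSub1
  Cfsg.Agent.Lib.Helper7.BRank2
  Cfsg.Agent.Lib.Helper2.BlockSM4 Cfsg.Agent.Lib.Helper2.BlockSM5 Cfsg.Agent.Lib.Helper2.BlockSM7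

variable (H : Subgroup G) [Fintype H] (u : G) (hH : ∀ g : G, g ∈ H ↔ g * u = u * g)

include hH in
theorem blockPart_inv (e : Set (IrrCharacter H)) (χ : IrrCharacter G) (s : H) :
    blockPart e (th H u⁻¹ (χ : G → ℂ)) s⁻¹ = conj (blockPart e (th H u (χ : G → ℂ)) s) := by
  classical
  haveI := Fintype.ofFinite (IrrCharacter H)
  have hχc := IsIrrCharacter.isClassFunction χ.2
  have hH' : ∀ g : G, g ∈ H ↔ g * u⁻¹ = u⁻¹ * g := by
    intro g
    rw [hH]
    exact (Commute.inv_right_iff (a := g) (b := u)).symm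
  rw [blockPart_eq_filter e (th_isClass H u⁻¹ hH' hχc), blockPart_eq_filter e (th_isClass H u hH hχc)]
  simp only [Finset.sum_apply, Pi.smul_apply, smul_eq_mul, map_sum, map_mul]
  apply Finset.sum_congr rfl
  intro ψ _
  rw [irr_conj_eq_inv ψ.2]
  congr 1
  unfold classInner th
  rw [map_mul, map_inv₀, Complex.conj_natCast, map_sum]
  congr 1
  rw [← Equiv.sum_comp (Equiv.inv H)]
  apply Finset.sum_congr rfl
  intro c _
  simp only [Equiv.inv_apply, map_mul, Complex.conj_conj]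
  rw [irr_conj_eq_inv χ.2, irr_conj_eq_inv ψ.2, inv_inv]
  congr 2
  have hc : (c : G) * u = u * c := (hH c).mp c.2
  push_cast
  rw [mul_inv_rev, ← mul_inv_rev, hc, mul_inv_rev]

include hH in
theorem subsection_rank {M : Ideal AlgInt} {p : ℕ} [Fact p.Prime] (hM : IsPModular p M)
    (hu : ∃ k : ℕ, orderOf u = p ^ k) {e : Set (IrrCharacter H)} {B : Set (IrrCharacter G)}
    (hind : IsInducedBlock M H e B) :
    ∑ᶠ χ ∈ B, ∑ᶠ s : H, pRegularPart p (blockPart e (fun c : H => (χ : G → ℂ) (u * c))) s *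
      blockPart e (fun c : H => (χ : G → ℂ) (u⁻¹ * c)) s⁻¹ =
      (Nat.card H : ℂ) * (blockRank p e : ℂ) := by
  classical
  haveI := Fintype.ofFinite (IrrCharacter G)
  rw [← sum_Lam_norm H u hH hM hu hind.1, Finset.mul_sum,
    finsum_mem_eq_finite_toFinset_sum _ (Set.toFinite B)]
  have hterm : ∀ χ : IrrCharacter G,
      ∑ᶠ s : H, pRegularPart p (blockPart e (fun c : H => (χ : G → ℂ) (u * c))) s *
        blockPart e (fun c : H => (χ : G → ℂ) (u⁻¹ * c)) s⁻¹ =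
      (Nat.card H : ℂ) * classInner (Lam H u p e (χ : G → ℂ)) (Lam H u p e (χ : G → ℂ)) := by
    intro χ
    rw [finsum_eq_sum_of_fintype]
    unfold classInner
    rw [← mul_assoc, mul_inv_cancel₀ (Nat.cast_ne_zero.mpr Nat.card_pos.ne'), one_mul]
    apply Finset.sum_congr rfl
    intro s _
    have h1 := blockPart_inv H u hH e χ s
    unfold th at h1
    rw [h1, pRegularPart_eq_pReg]
    unfold Lam th pReg
    split_ifs <;> simp
  rw [Finset.sum_congr rfl (fun χ _ => hterm χ)]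
  apply Finset.sum_subset (Finset.subset_univ _)
  intro χ _ hχ
  rw [Lam_eq_zero H u hH hM hu hind (fun h => hχ ((Set.Finite.mem_toFinset _).mpr h))]
  simp [classInner]

theorem mem_centralizer_zpowers (u g : G) :
    g ∈ Subgroup.centralizer (Subgroup.zpowers u : Set G) ↔ g * u = u * g := by
  rw [Subgroup.mem_centralizer_iff]
  constructor
  · intro h
    exact (h u (Subgroup.mem_zpowers u)).symm
  · rintro h _ ⟨k, rfl⟩
    have : Commute g u := h
    exact (this.zpow_right k).symm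

end Cfsg.Agent.Lib.Helper7.BRank3
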