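import Mathlib
import Cfsg.Prelude.Def_Blocks
import Cfsg.Agent.Lib.Helper2.BlockReg3
import Cfsg.Agent.Lib.Helper2.BlockLam
import Cfsg.Agent.Lib.Helper7.Brauer11
import Cfsg.Agent.Lib.Helper7.Brauer12
import Cfsg.Agent.Lib.Helper7.BPair2
import Cfsg.Agent.Lib.Helper7.BCount1
import Cfsg.Agent.Lib.Helper7.BSpan1
import Cfsg.Agent.Lib.Helper7.BFeit1
import Cfsg.Agent.Lib.Helper7.BRank1
import Cfsg.Agent.Lib.Helper7.BRank2
import Cfsg.Agent.Lib.Helper7.BRank3
import Cfsg.Agent.Lib.Helper2.BlockSM3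
import Cfsg.Agent.Lib.Helper7.BPair1
import Cfsg.Agent.Lib.Helper7.BSub1
import Cfsg.Agent.Lib.Helper2.BlockSM7

set_option autoImplicit false
set_option linter.unusedSectionVars false
set_option linter.unusedVariables false
set_option linter.style.haveILetI false

/-! Counting the characters of a block by subsections: sections. -/

namespace Cfsg.Agent.Lib.Helper7.BRank4

open Cfsg Cfsg.Agent.Lib.Helper7.CharIrr Cfsg.Agent.Lib.Helper7.CharOrth
  Cfsg.Agent.Lib.Helper7.CharIntegral Cfsg.Agent.Lib.Helper7.CharMore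
  Cfsg.Agent.Lib.Helper7.CharClassAlg Cfsg.Agent.Lib.Helper7.CharComplete
  Cfsg.Agent.Lib.Helper7.CharDeg Cfsg.Agent.Lib.Helper7.CharGalois
  Cfsg.Agent.Lib.Helper7.CharClassAlg2 Cfsg.Agent.Lib.Helper7.CharInd
  Cfsg.Agent.Lib.Helper7.CharBasic Cfsg.Agent.Lib.Helper7.CharGen Cfsg.Agent.Lib.Helper7.CharRes
  Cfsg.Agent.Lib.Helper7.Brauer11 Cfsg.Agent.Lib.Helper7.Brauer12
  Cfsg.Agent.Lib.Helper2.LocRing Cfsg.Agent.Lib.Helper2.BlockLam
  Cfsg.Agent.Lib.Helper2.BlockZ Cfsg.Agent.Lib.Helper2.BlockDef Cfsg.Agent.Lib.Helper2.BlockCong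
  Cfsg.Agent.Lib.Helper2.BlockHt Cfsg.Agent.Lib.Helper2.BlockReg Cfsg.Agent.Lib.Helper2.BlockBr2
  Cfsg.Agent.Lib.Helper2.BlockSub Cfsg.Agent.Lib.Helper2.BlockReg2 Cfsg.Agent.Lib.Helper2.BlockReg3
open scoped ComplexConjugate

variable {G : Type*} [Group G] [Fintype G]

open Cfsg.Agent.Lib.Helper7.BCount1 Cfsg.Agent.Lib.Helper7.BSpan1 Cfsg.Agent.Lib.Helper7.BPair2
  Cfsg.Agent.Lib.Helper7.BRank1 Cfsg.Agent.Lib.Helper7.BFeit1 Cfsg.Agent.Lib.Helper7.BSub1
  Cfsg.Agent.Lib.Helper7.BRank2 Cfsg.Agent.Lib.Helper2.BlockSM3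
  Cfsg.Agent.Lib.Helper2.BlockSM4 Cfsg.Agent.Lib.Helper2.BlockSM5 Cfsg.Agent.Lib.Helper2.BlockSM7

variable (H : Subgroup G) [Fintype H] (u : G) (hH : ∀ g : G, g ∈ H ↔ g * u = u * g)

include hH in
/-- the induced section function vanishes off the section -/
theorem ind_zero {p : ℕ} (hp : p.Prime) (hu : ∃ k : ℕ, orderOf u = p ^ k) (hu' : u ∈ H)
    {v : H → ℂ} (hv0 : ∀ c : H, p ∣ orderOf c → v c = 0) {g z : G} (hgz : IsPPart p g z)
    (hz : ¬ IsConj z u) :
    indFun H (fun d : H => v ((⟨u, hu'⟩ : H)⁻¹ * d)) g = 0 := by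
  classical
  unfold indFun
  rw [Finset.sum_eq_zero, mul_zero]
  intro x _
  by_cases hmem : x⁻¹ * g * x ∈ H
  · rw [extendByZero_of_mem H _ hmem]
    apply hv0
    by_contra hreg
    apply hz
    have h1 : IsPPart p (x⁻¹ * g * x) u := by
      refine ⟨(((⟨u, hu'⟩ : H)⁻¹ * ⟨x⁻¹ * g * x, hmem⟩ : H) : G), ?_, ?_, hu, ?_⟩
      · push_cast
        rw [mul_inv_cancel_left]
      · exact ((hH _).mp (SetLike.coe_mem _)).symm
      · rw [Subgroup.orderOf_coe]
        exact hreg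
    have h2 := isPPart_conj hgz x⁻¹
    rw [inv_inv] at h2
    have h3 := isPPart_unique hp h1 h2
    rw [isConj_iff]
    exact ⟨x⁻¹, by rw [inv_inv]; exact h3.symm⟩
  · exact extendByZero_of_not_mem H _ hmem

include hH in
/-- the induced section function of the regular indicator is one on the section -/
theorem ind_one {p : ℕ} (hp : p.Prime) (hu : ∃ k : ℕ, orderOf u = p ^ k) (hu' : u ∈ H)
    {g z : G} (hgz : IsPPart p g z) (hz : IsConj z u) :
    indFun H (fun d : H => pReg p (fun _ : H => (1 : ℂ)) ((⟨u, hu'⟩ : H)⁻¹ * d)) g = 1 := by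
  classical
  obtain ⟨t, ht⟩ := isConj_iff.mp hz
  have h1 := isPPart_conj hgz t
  rw [ht] at h1
  obtain ⟨y, hy1, hy2, -, hy4⟩ := h1
  have hyH : y ∈ H := (hH y).mpr hy2.symm
  have hcl := indFun_isClassFunction H
    (fun d : H => pReg p (fun _ : H => (1 : ℂ)) ((⟨u, hu'⟩ : H)⁻¹ * d)) g t
  rw [← hcl, ← hy1]
  have hyo : ¬ p ∣ orderOf (⟨y, hyH⟩ : H) := by
    rw [← Subgroup.orderOf_coe]
    exact hy4
  have h2 := ind_value H u hH hp hu hu' (v := pReg p (fun _ : H => (1 : ℂ)))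
    (isClassFunction_pReg p (fun _ _ => rfl))
    (by intro c hc; unfold pReg; rw [if_pos hc]) ⟨y, hyH⟩ hyo
  rw [h2]
  unfold pReg
  rw [if_neg hyo]

theorem self_mem_centralizer (x : G) : x ∈ Subgroup.centralizer ({x} : Set G) :=
  Subgroup.mem_centralizer_singleton_iff.mpr rfl

/-- the norm of an irreducible character is the sum of its norms on the `p`-sections -/
theorem sum_sections {p : ℕ} (hp : p.Prime) (X : Finset G)
    (hX : ∀ x ∈ X, ∃ k : ℕ, orderOf x = p ^ k)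
    (hXrep : ∀ g : G, (∃ k : ℕ, orderOf g = p ^ k) → ∃! x, x ∈ X ∧ IsConj g x)
    (χ : IrrCharacter G) [∀ x : G, Fintype (Subgroup.centralizer ({x} : Set G))] :
    ∑ x ∈ X, classInner (pReg p (th (Subgroup.centralizer ({x} : Set G)) x (χ : G → ℂ)))
      (th (Subgroup.centralizer ({x} : Set G)) x (χ : G → ℂ)) = 1 := by
  classical
  obtain ⟨F, hF⟩ : ∃ F : G → ℂ, F = fun g => (χ : G → ℂ) g * conj ((χ : G → ℂ) g) := ⟨_, rfl⟩
  have hχc := IsIrrCharacter.isClassFunction χ.2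
  have hFc : IsClassFunction G F := by
    intro g h
    rw [hF]
    simp only [hχc g h]
  obtain ⟨I, hI⟩ : ∃ I : G → G → ℂ, I = fun x => indFun (Subgroup.centralizer ({x} : Set G))
      (fun d : Subgroup.centralizer ({x} : Set G) =>
        pReg p (fun _ : Subgroup.centralizer ({x} : Set G) => (1 : ℂ))
          ((⟨x, self_mem_centralizer x⟩ : Subgroup.centralizer ({x} : Set G))⁻¹ * d)) := ⟨_, rfl⟩
  have e1 : ∀ x : G, classInner (pReg p (th (Subgroup.centralizer ({x} : Set G)) x (χ : G → ℂ)))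
      (th (Subgroup.centralizer ({x} : Set G)) x (χ : G → ℂ)) = classInner (I x) F := by
    intro x
    rw [hI]
    simp only
    rw [frob_th (Subgroup.centralizer ({x} : Set G)) x (self_mem_centralizer x) _ hFc]
    unfold classInner
    congr 1
    apply Finset.sum_congr rfl
    intro c _
    rw [hF]
    unfold pReg th
    split_ifs
    · simp
    · simp [mul_comm]
  rw [Finset.sum_congr rfl (fun x _ => e1 x), ← classInner_sum_left]
  have e3 : ∑ x ∈ X, I x = fun _ => 1 := by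
    funext g
    obtain ⟨a, ha, -⟩ := exists_ppart_exp G p hp
    have hgz := ha g
    have hz : ∃ k : ℕ, orderOf (g ^ a) = p ^ k := by
      obtain ⟨_, _, _, h, _⟩ := hgz
      exact h
    obtain ⟨x₀, ⟨hx₀X, hconj⟩, huniq⟩ := hXrep (g ^ a) hz
    rw [Finset.sum_apply, Finset.sum_eq_single x₀]
    · rw [hI]
      exact ind_one (Subgroup.centralizer ({x₀} : Set G)) x₀
        (fun g => Subgroup.mem_centralizer_singleton_iff) hp (hX x₀ hx₀X)
        (self_mem_centralizer x₀) hgz hconj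
    · intro x hx hne
      rw [hI]
      apply ind_zero (Subgroup.centralizer ({x} : Set G)) x
        (fun g => Subgroup.mem_centralizer_singleton_iff) hp (hX x hx)
        (self_mem_centralizer x) _ hgz
      · intro hc
        exact hne (huniq x ⟨hx, hc⟩)
      · intro c hc
        unfold pReg
        rw [if_pos hc]
    · intro h
      exact absurd hx₀X h
  rw [e3]
  have e4 := classInner_irr χ.2 χ.2
  rw [if_pos rfl] at e4
  refine Eq.trans ?_ e4
  unfold classInner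
  congr 1
  apply Finset.sum_congr rfl
  intro g _
  rw [hF]
  simp [mul_comm]

end Cfsg.Agent.Lib.Helper7.BRank4
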