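import Mathlib
import Cfsg.Prelude.Def_Blocks
import Cfsg.Agent.Lib.Helper2.BlockReg3
import Cfsg.Agent.Lib.Helper2.BlockLam
import Cfsg.Agent.Lib.Helper7.Brauer11
import Cfsg.Agent.Lib.Helper7.Brauer12
import Cfsg.Agent.Lib.Helper7.BPair2
import Cfsg.Agent.Lib.Helper7.BCount1
import Cfsg.Agent.Lib.Helper7.BSpan1
import Cfsg.Agent.Lib.Helper7.BFeit1
import Cfsg.Agent.Lib.Helper7.BRank1
import Cfsg.Agent.Lib.Helper7.BRank2
import Cfsg.Agent.Lib.Helper7.BRank3
import Cfsg.Agent.Lib.Helper7.BRank4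
import Cfsg.Agent.Lib.Helper2.BlockSM3
import Cfsg.Agent.Lib.Helper7.BPair1
import Cfsg.Agent.Lib.Helper7.BSub1
import Cfsg.Agent.Lib.Helper2.BlockSM7

set_option autoImplicit false
set_option linter.unusedSectionVars false
set_option linter.unusedVariables false
set_option linter.style.haveILetI false

/-! Counting the characters of a block by subsections: blocks of centralizers. -/

namespace Cfsg.Agent.Lib.Helper7.BRank5

open Cfsg Cfsg.Agent.Lib.Helper7.CharIrr Cfsg.Agent.Lib.Helper7.CharOrth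
  Cfsg.Agent.Lib.Helper7.CharIntegral Cfsg.Agent.Lib.Helper7.CharMore
  Cfsg.Agent.Lib.Helper7.CharClassAlg Cfsg.Agent.Lib.Helper7.CharComplete
  Cfsg.Agent.Lib.Helper7.CharDeg Cfsg.Agent.Lib.Helper7.CharGalois
  Cfsg.Agent.Lib.Helper7.CharClassAlg2 Cfsg.Agent.Lib.Helper7.CharInd
  Cfsg.Agent.Lib.Helper7.CharBasic Cfsg.Agent.Lib.Helper7.CharGen Cfsg.Agent.Lib.Helper7.CharRes
  Cfsg.Agent.Lib.Helper7.Brauer11 Cfsg.Agent.Lib.Helper7.Brauer12
  Cfsg.Agent.Lib.Helper2.LocRing Cfsg.Agent.Lib.Helper2.BlockLam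
  Cfsg.Agent.Lib.Helper2.BlockZ Cfsg.Agent.Lib.Helper2.BlockDef Cfsg.Agent.Lib.Helper2.BlockCong
  Cfsg.Agent.Lib.Helper2.BlockHt Cfsg.Agent.Lib.Helper2.BlockReg Cfsg.Agent.Lib.Helper2.BlockBr2
  Cfsg.Agent.Lib.Helper2.BlockSub Cfsg.Agent.Lib.Helper2.BlockReg2 Cfsg.Agent.Lib.Helper2.BlockReg3
open scoped ComplexConjugate

variable {G : Type*} [Group G] [Fintype G]

open Cfsg.Agent.Lib.Helper7.BCount1 Cfsg.Agent.Lib.Helper7.BSpan1 Cfsg.Agent.Lib.Helper7.BPair2
  Cfsg.Agent.Lib.Helper7.BRank1 Cfsg.Agent.Lib.Helper7.BFeit1 Cfsg.Agent.Lib.Helper7.BSub1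
  Cfsg.Agent.Lib.Helper7.BRank2 Cfsg.Agent.Lib.Helper7.BRank4 Cfsg.Agent.Lib.Helper2.BlockSM3
  Cfsg.Agent.Lib.Helper2.BlockSM4 Cfsg.Agent.Lib.Helper2.BlockSM5 Cfsg.Agent.Lib.Helper2.BlockSM7

theorem classInner_pReg_eq_zero' {M : Ideal AlgInt} {p : ℕ} [Fact p.Prime] (hM : IsPModular p M)
    {B : Set (IrrCharacter G)} (hB : IsPBlock M B) {χ ψ : IrrCharacter G} (hχ : χ ∉ B)
    (hψ : ψ ∈ B) : classInner (pReg p (χ : G → ℂ)) (ψ : G → ℂ) = 0 := by
  rw [classInner_pReg_swap, ← classInner_conj_symm, classInner_pReg_eq_zero hM hB hψ hχ, map_zero]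

theorem inner_pReg_blockPart {M : Ideal AlgInt} {p : ℕ} [Fact p.Prime] (hM : IsPModular p M)
    {b : Set (IrrCharacter G)} (hb : IsPBlock M b) {ϑ : G → ℂ} (hϑ : IsClassFunction G ϑ)
    {ψ : IrrCharacter G} (hψ : ψ ∈ b) :
    classInner (pReg p (blockPart b ϑ)) (ψ : G → ℂ) = classInner (pReg p ϑ) (ψ : G → ℂ) := by
  classical
  haveI := Fintype.ofFinite (IrrCharacter G)
  rw [blockPart_eq_filter b hϑ, pReg_sum, classInner_sum_left]
  conv_rhs => rw [classFunction_eq_sum hϑ, pReg_sum, classInner_sum_left]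
  rw [Finset.sum_filter]
  apply Finset.sum_congr rfl
  intro ψ' _
  split_ifs with h
  · rfl
  · rw [pReg_smul, classInner_smul_left, classInner_pReg_eq_zero' hM hb h hψ, mul_zero]

theorem norm_blockPart {M : Ideal AlgInt} {p : ℕ} [Fact p.Prime] (hM : IsPModular p M)
    {b : Set (IrrCharacter G)} (hb : IsPBlock M b) {ϑ : G → ℂ} (hϑ : IsClassFunction G ϑ)
    [Fintype (IrrCharacter G)] [DecidablePred (· ∈ b)] :
    classInner (pReg p (blockPart b ϑ)) (pReg p (blockPart b ϑ)) =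
      ∑ ψ ∈ Finset.univ.filter (fun ψ => ψ ∈ b),
        classInner (pReg p ϑ) (ψ : G → ℂ) * conj (classInner ϑ (ψ : G → ℂ)) := by
  rw [classInner_pReg_pReg]
  conv_lhs => rw [blockPart_eq_filter b hϑ, classInner_sum_right]
  apply Finset.sum_congr rfl
  intro ψ hψ
  rw [classInner_smul_right, ← blockPart_eq_filter b hϑ,
    inner_pReg_blockPart hM hb hϑ (Finset.mem_filter.mp hψ).2]
  ring

theorem sum_blocks_norm {M : Ideal AlgInt} {p : ℕ} [Fact p.Prime] (hM : IsPModular p M)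
    {ϑ : G → ℂ} (hϑ : IsClassFunction G ϑ) [Fintype (IrrCharacter G)]
    [DecidableEq (Set (IrrCharacter G))] :
    classInner (pReg p ϑ) ϑ =
      ∑ b ∈ Finset.univ.image (fun ξ : IrrCharacter G => blockOf M (ξ : G → ℂ)),
        classInner (pReg p (blockPart b ϑ)) (pReg p (blockPart b ϑ)) := by
  classical
  haveI := hM.2.1.isPrime
  rw [classInner_eq_sum (isClassFunction_pReg p hϑ) hϑ,
    ← Finset.sum_fiberwise_of_maps_to (s := Finset.univ)
      (t := Finset.univ.image (fun ξ : IrrCharacter G => blockOf M (ξ : G → ℂ)))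
      (g := fun ξ : IrrCharacter G => blockOf M (ξ : G → ℂ))
      (fun ξ _ => Finset.mem_image_of_mem _ (Finset.mem_univ ξ))]
  apply Finset.sum_congr rfl
  intro b hb
  obtain ⟨ξ, -, rfl⟩ := Finset.mem_image.mp hb
  rw [norm_blockPart hM ⟨ξ, rfl⟩ hϑ]
  apply Finset.sum_congr _ (fun _ _ => rfl)
  ext ψ
  simp only [Finset.mem_filter, Finset.mem_univ, true_and]
  constructor
  · intro h
    rw [← h]
    exact sameBlock_refl (M := M) _
  · intro h
    exact blockOf_eq_of_mem h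

variable (H : Subgroup G) [Fintype H] (u : G) (hH : ∀ g : G, g ∈ H ↔ g * u = u * g)

include hH in
theorem sum_secNorm {M : Ideal AlgInt} {p : ℕ} [Fact p.Prime] (hM : IsPModular p M)
    (hu : ∃ k : ℕ, orderOf u = p ^ k) {B : Set (IrrCharacter G)} (hB : IsPBlock M B)
    (S : Finset (IrrCharacter G)) (hS : ∀ χ, χ ∈ S ↔ χ ∈ B)
    (hex : ∀ b : Set (IrrCharacter H), IsPBlock M b → ∃ B', IsInducedBlock M H b B') :
    ∑ χ ∈ S, classInner (pReg p (th H u (χ : G → ℂ))) (th H u (χ : G → ℂ)) =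
      ((∑ᶠ b ∈ {b : Set (IrrCharacter H) | IsInducedBlock M H b B}, blockRank p b : ℕ) : ℂ) := by
  classical
  haveI := hM.2.1.isPrime
  haveI := Fintype.ofFinite (IrrCharacter G)
  haveI := Fintype.ofFinite (IrrCharacter H)
  obtain ⟨𝔅, h𝔅⟩ : ∃ 𝔅 : Finset (Set (IrrCharacter H)),
      𝔅 = Finset.univ.image (fun ξ : IrrCharacter H => blockOf M (ξ : H → ℂ)) := ⟨_, rfl⟩
  have hset : {b : Set (IrrCharacter H) | IsInducedBlock M H b B} =
      ↑(𝔅.filter (fun b => IsInducedBlock M H b B)) := by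
    ext b
    simp only [Set.mem_setOf_eq, Finset.coe_filter]
    constructor
    · intro h
      refine ⟨?_, h⟩
      obtain ⟨ξ, rfl⟩ := h.1
      rw [h𝔅]
      exact Finset.mem_image_of_mem _ (Finset.mem_univ ξ)
    · intro h
      exact h.2
  rw [hset, finsum_mem_coe_finset]
  have e1 : ∀ χ : IrrCharacter G,
      classInner (pReg p (th H u (χ : G → ℂ))) (th H u (χ : G → ℂ)) =
      ∑ b ∈ 𝔅, classInner (Lam H u p b (χ : G → ℂ)) (Lam H u p b (χ : G → ℂ)) := by
    intro χ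
    rw [h𝔅]
    exact sum_blocks_norm hM (th_isClass H u hH (IsIrrCharacter.isClassFunction χ.2))
  rw [Finset.sum_congr rfl (fun χ _ => e1 χ), Finset.sum_comm]
  push_cast
  rw [Finset.sum_filter]
  apply Finset.sum_congr rfl
  intro b hb
  have hbb : IsPBlock M b := by
    rw [h𝔅] at hb
    obtain ⟨ξ, -, rfl⟩ := Finset.mem_image.mp hb
    exact ⟨ξ, rfl⟩
  split_ifs with hind
  · rw [← sum_Lam_norm H u hH hM hu hbb]
    apply Finset.sum_subset (Finset.subset_univ _)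
    intro χ _ hχ
    rw [Lam_eq_zero H u hH hM hu hind (fun h => hχ ((hS χ).mpr h))]
    simp [classInner]
  · obtain ⟨B', hB'⟩ := hex b hbb
    apply Finset.sum_eq_zero
    intro χ hχ
    have hχB' : χ ∉ B' := by
      intro h
      apply hind
      rw [block_eq_of_mem hB hB'.2.1 ((hS χ).mp hχ) h]
      exact hB'
    rw [Lam_eq_zero H u hH hM hu hB' hχB']
    simp [classInner]

/-- Brauer's count of the characters of a block by subsections -/
theorem card_block_eq {M : Ideal AlgInt} {p : ℕ} [Fact p.Prime] (hM : IsPModular p M)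
    {B : Set (IrrCharacter G)} (hB : IsPBlock M B) (X : Finset G)
    (hX : ∀ x ∈ X, ∃ k : ℕ, orderOf x = p ^ k)
    (hXrep : ∀ g : G, (∃ k : ℕ, orderOf g = p ^ k) → ∃! x, x ∈ X ∧ IsConj g x) :
    Nat.card B = ∑ x ∈ X, ∑ᶠ b ∈ {b : Set (IrrCharacter ↥(Subgroup.centralizer ({x} : Set G))) |
      IsInducedBlock M (Subgroup.centralizer ({x} : Set G)) b B}, blockRank p b := by
  classical
  haveI : ∀ x : G, Fintype (Subgroup.centralizer ({x} : Set G)) := fun x => Fintype.ofFinite _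
  obtain ⟨S, hSdef⟩ : ∃ S, S = (Set.toFinite B).toFinset := ⟨_, rfl⟩
  have hS : ∀ χ, χ ∈ S ↔ χ ∈ B := fun χ => by rw [hSdef]; exact Set.Finite.mem_toFinset _
  have hcard : Nat.card B = S.card := by
    rw [Nat.card_coe_set_eq, Set.ncard_eq_toFinset_card B (Set.toFinite B), hSdef]
  apply Nat.cast_injective (R := ℂ)
  rw [hcard, Finset.card_eq_sum_ones, Nat.cast_sum, Nat.cast_sum]
  simp only [Nat.cast_one]
  have e1 : ∀ χ ∈ S, (1 : ℂ) = ∑ x ∈ X,
      classInner (pReg p (th (Subgroup.centralizer ({x} : Set G)) x (χ : G → ℂ)))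
        (th (Subgroup.centralizer ({x} : Set G)) x (χ : G → ℂ)) :=
    fun χ _ => (sum_sections hM.1 X hX hXrep χ).symm
  rw [Finset.sum_congr rfl e1, Finset.sum_comm]
  apply Finset.sum_congr rfl
  intro x hx
  exact sum_secNorm (Subgroup.centralizer ({x} : Set G)) x
    (fun g => Subgroup.mem_centralizer_singleton_iff) hM (hX x hx) hB S hS
    (fun b hb => Cfsg.Agent.Lib.Helper2.BlockSM5.exists_induced_centralizer hM x (hX x hx) hb)

end Cfsg.Agent.Lib.Helper7.BRank5
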