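import Mathlib
import Cfsg.Prelude.Def_Blocks
import Cfsg.Agent.Lib.Helper2.BlockReg3
import Cfsg.Agent.Lib.Helper2.BlockLam
import Cfsg.Agent.Lib.Helper7.Brauer11
import Cfsg.Agent.Lib.Helper7.Brauer12
import Cfsg.Agent.Lib.Helper7.BPair2
import Cfsg.Agent.Lib.Helper7.BCount1
import Cfsg.Agent.Lib.Helper7.BSpan1
import Cfsg.Agent.Lib.Helper7.BFeit1
import Cfsg.Agent.Lib.Helper7.BRank1
import Cfsg.Agent.Lib.Helper7.BRank2
import Cfsg.Agent.Lib.Helper7.BRank3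
import Cfsg.Agent.Lib.Helper7.BRank4
import Cfsg.Agent.Lib.Helper7.BRank5
import Cfsg.Agent.S4733
import Cfsg.Agent.Lib.Helper2.BlockSM3
import Cfsg.Agent.Lib.Helper7.BPair1
import Cfsg.Agent.Lib.Helper7.BSub1
import Cfsg.Agent.Lib.Helper2.BlockSM7

set_option autoImplicit false
set_option linter.unusedSectionVars false
set_option linter.unusedVariables false
set_option linter.style.haveILetI false

/-! 2-blocks of defect one. -/

namespace Cfsg.Agent.Lib.Helper7.BDef1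

open Cfsg Cfsg.Agent.Lib.Helper7.CharIrr Cfsg.Agent.Lib.Helper7.CharOrth
  Cfsg.Agent.Lib.Helper7.CharIntegral Cfsg.Agent.Lib.Helper7.CharMore
  Cfsg.Agent.Lib.Helper7.CharClassAlg Cfsg.Agent.Lib.Helper7.CharComplete
  Cfsg.Agent.Lib.Helper7.CharDeg Cfsg.Agent.Lib.Helper7.CharGalois
  Cfsg.Agent.Lib.Helper7.CharClassAlg2 Cfsg.Agent.Lib.Helper7.CharInd
  Cfsg.Agent.Lib.Helper7.CharBasic Cfsg.Agent.Lib.Helper7.CharGen Cfsg.Agent.Lib.Helper7.CharRes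
  Cfsg.Agent.Lib.Helper7.Brauer11 Cfsg.Agent.Lib.Helper7.Brauer12
  Cfsg.Agent.Lib.Helper2.LocRing Cfsg.Agent.Lib.Helper2.BlockLam
  Cfsg.Agent.Lib.Helper2.BlockZ Cfsg.Agent.Lib.Helper2.BlockDef Cfsg.Agent.Lib.Helper2.BlockCong
  Cfsg.Agent.Lib.Helper2.BlockHt Cfsg.Agent.Lib.Helper2.BlockReg Cfsg.Agent.Lib.Helper2.BlockBr2
  Cfsg.Agent.Lib.Helper2.BlockSub Cfsg.Agent.Lib.Helper2.BlockReg2 Cfsg.Agent.Lib.Helper2.BlockReg3
open scoped ComplexConjugate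

variable {G : Type*} [Group G] [Fintype G]

open Cfsg.Agent.Lib.Helper7.BCount1 Cfsg.Agent.Lib.Helper7.BSpan1 Cfsg.Agent.Lib.Helper7.BPair2
  Cfsg.Agent.Lib.Helper7.BRank1 Cfsg.Agent.Lib.Helper7.BFeit1 Cfsg.Agent.Lib.Helper7.BSub1
  Cfsg.Agent.Lib.Helper7.BRank2 Cfsg.Agent.Lib.Helper7.BRank4 Cfsg.Agent.Lib.Helper2.BlockSM3
  Cfsg.Agent.Lib.Helper2.BlockSM4 Cfsg.Agent.Lib.Helper2.BlockSM5 Cfsg.Agent.Lib.Helper2.BlockSM7
  Cfsg.Agent.Lib.Helper7.BRank5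

theorem two_inner_int {M : Ideal AlgInt} (hM : IsPModular 2 M) {B : Set (IrrCharacter G)}
    (hd : blockDefect 2 B = 1) {χ : IrrCharacter G} (hχ : χ ∈ B) (ψ : IrrCharacter G) :
    ∃ n : ℤ, 2 * classInner (pReg 2 (χ : G → ℂ)) (ψ : G → ℂ) = n := by
  have hgen := isGen_pow_pReg 2 hM.1 χ
  obtain ⟨n, hn⟩ := classInner_gen_int hgen (IsIrrCharacter.isCharacter ψ.2)
  rw [classInner_smul_left] at hn
  obtain ⟨e, he⟩ : ∃ e, e = (Nat.card G).factorization 2 -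
      (charDegree (χ : G → ℂ)).factorization 2 := ⟨_, rfl⟩
  rw [← he] at hn
  have hle : e ≤ 1 := by
    unfold blockDefect at hd
    have h1 : sInf ((fun χ : IrrCharacter G => (charDegree (χ : G → ℂ)).factorization 2) '' B) ≤
        (charDegree (χ : G → ℂ)).factorization 2 := Nat.sInf_le ⟨χ, hχ, rfl⟩
    omega
  interval_cases e
  · refine ⟨2 * n, ?_⟩
    push_cast
    rw [← hn]
    simp
  · refine ⟨n, ?_⟩
    rw [← hn]
    simp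

theorem pReg_norm_pos (p : ℕ) (hp : p.Prime) (χ : IrrCharacter G) :
    ∃ r : ℝ, classInner (pReg p (χ : G → ℂ)) (pReg p (χ : G → ℂ)) = (r : ℂ) ∧ 0 < r := by
  classical
  refine ⟨_, classInner_self_eq _, ?_⟩
  apply mul_pos (inv_pos.mpr (by exact_mod_cast Nat.card_pos))
  have h1 : pReg p (χ : G → ℂ) 1 = (χ : G → ℂ) 1 := by
    unfold pReg
    rw [if_neg (by rw [orderOf_one, Nat.dvd_one]; exact hp.one_lt.ne')]
  have h2 : 0 < ‖pReg p (χ : G → ℂ) 1‖ ^ 2 := by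
    rw [h1]
    have := irr_one_ne_zero χ.2
    positivity
  exact lt_of_lt_of_le h2 (Finset.single_le_sum
    (f := fun g : G => ‖pReg p (χ : G → ℂ) g‖ ^ 2) (fun _ _ => sq_nonneg _) (Finset.mem_univ 1))

theorem blockRank_ne_zero (p : ℕ) (hp : p.Prime) {B : Set (IrrCharacter G)} {χ : IrrCharacter G}
    (hχ : χ ∈ B) : blockRank p B ≠ 0 := by
  intro h0
  unfold blockRank at h0
  rw [Submodule.finrank_eq_zero, Submodule.span_eq_bot] at h0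
  have h7 := h0 _ ⟨χ, hχ, rfl⟩
  simp only at h7
  rw [pRegularPart_eq_pReg] at h7
  have h8 := congrFun h7 1
  simp only [pReg, orderOf_one, Nat.dvd_one, Pi.zero_apply] at h8
  rw [if_neg hp.one_lt.ne'] at h8
  exact irr_one_ne_zero χ.2 h8

theorem defect_one {M : Ideal AlgInt} (hM : IsPModular 2 M) {B : Set (IrrCharacter G)}
    (hB : IsPBlock M B) (hd : blockDefect 2 B = 1) :
    ∃ χ₁ χ₂ : IrrCharacter G, χ₁ ≠ χ₂ ∧ (∀ χ, χ ∈ B ↔ χ = χ₁ ∨ χ = χ₂) ∧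
      (∀ g : G, ¬ 2 ∣ orderOf g → (χ₁ : G → ℂ) g = (χ₂ : G → ℂ) g) ∧
      (∀ g : G, 2 ∣ orderOf g → (χ₁ : G → ℂ) g = - (χ₂ : G → ℂ) g) ∧
      classInner (pReg 2 (χ₁ : G → ℂ)) (pReg 2 (χ₁ : G → ℂ)) = 1 / 2 ∧
      classInner (pReg 2 (χ₂ : G → ℂ)) (pReg 2 (χ₂ : G → ℂ)) = 1 / 2 ∧ blockRank 2 B = 1 := by
  classical
  haveI : Fact (Nat.Prime 2) := ⟨hM.1⟩
  haveI := hM.2.1.isPrime
  haveI := Fintype.ofFinite (IrrCharacter G)
  obtain ⟨S, hSdef⟩ : ∃ S, S = (Set.toFinite B).toFinset := ⟨_, rfl⟩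
  have hS : ∀ χ, χ ∈ S ↔ χ ∈ B := fun χ => by rw [hSdef]; exact Set.Finite.mem_toFinset _
  have hcard : Nat.card B = S.card := by
    rw [Nat.card_coe_set_eq, Set.ncard_eq_toFinset_card B (Set.toFinite B), hSdef]
  obtain ⟨hle, -, h2⟩ := Cfsg.Agent.S4733.result 2 M hM B hB
  have hbf := brauer_feit hM hB S hS
  rw [hd] at hbf
  norm_num at hbf
  have hk2 : S.card ≤ 2 := by
    calc S.card = ∑ χ ∈ S, 1 := Finset.card_eq_sum_ones S
      _ ≤ ∑ χ ∈ S, 2 ^ (2 * blockHeight 2 B (χ : G → ℂ)) :=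
          Finset.sum_le_sum (fun χ _ => Nat.one_le_pow _ _ (by norm_num))
      _ ≤ 2 := hbf
  obtain ⟨χ₀, hχ₀⟩ := block_nonempty hB
  have hl0 := blockRank_ne_zero 2 hM.1 hχ₀
  have hkl : Nat.card B ≠ blockRank 2 B := fun h => by
    have := h2.mpr h
    omega
  have hk : S.card = 2 := by omega
  have hl : blockRank 2 B = 1 := by omega
  obtain ⟨χ₁, χ₂, hne, hSeq⟩ := Finset.card_eq_two.mp hk
  have hmem : ∀ χ, χ ∈ B ↔ χ = χ₁ ∨ χ = χ₂ := by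
    intro χ
    rw [← hS, hSeq]
    simp
  have hχ₁ : χ₁ ∈ B := (hmem χ₁).mpr (Or.inl rfl)
  have hχ₂ : χ₂ ∈ B := (hmem χ₂).mpr (Or.inr rfl)
  have hrank := rank_eq hM hB S hS
  rw [hSeq, Finset.sum_pair hne, hl] at hrank
  obtain ⟨r₁, hr₁, hr₁p⟩ := pReg_norm_pos 2 hM.1 χ₁
  obtain ⟨r₂, hr₂, hr₂p⟩ := pReg_norm_pos 2 hM.1 χ₂
  obtain ⟨n₁, hn₁⟩ := two_inner_int hM hd hχ₁ χ₁
  obtain ⟨n₂, hn₂⟩ := two_inner_int hM hd hχ₂ χ₂
  rw [← classInner_pReg_pReg, hr₁] at hn₁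
  rw [← classInner_pReg_pReg, hr₂] at hn₂
  rw [hr₁, hr₂] at hrank
  have hn₁' : 2 * r₁ = (n₁ : ℝ) := by exact_mod_cast hn₁
  have hn₂' : 2 * r₂ = (n₂ : ℝ) := by exact_mod_cast hn₂
  have hrank' : r₁ + r₂ = 1 := by exact_mod_cast hrank
  have hp₁ : 0 < n₁ := by
    have : (0 : ℝ) < (n₁ : ℝ) := by rw [← hn₁']; positivity
    exact_mod_cast this
  have hp₂ : 0 < n₂ := by
    have : (0 : ℝ) < (n₂ : ℝ) := by rw [← hn₂']; positivity
    exact_mod_cast this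
  have hsum : n₁ + n₂ = 2 := by
    have : (n₁ : ℝ) + (n₂ : ℝ) = 2 := by rw [← hn₁', ← hn₂']; linarith
    exact_mod_cast this
  have e₁ : n₁ = 1 := by omega
  have e₂ : n₂ = 1 := by omega
  have hr₁' : r₁ = 1 / 2 := by rw [e₁] at hn₁'; push_cast at hn₁'; linarith
  have hr₂' : r₂ = 1 / 2 := by rw [e₂] at hn₂'; push_cast at hn₂'; linarith
  have hN₁ : classInner (pReg 2 (χ₁ : G → ℂ)) (pReg 2 (χ₁ : G → ℂ)) = 1 / 2 := by
    rw [hr₁, hr₁']; push_cast; rfl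
  have hN₂ : classInner (pReg 2 (χ₂ : G → ℂ)) (pReg 2 (χ₂ : G → ℂ)) = 1 / 2 := by
    rw [hr₂, hr₂']; push_cast; rfl
  obtain ⟨m, hm⟩ := two_inner_int hM hd hχ₁ χ₂
  obtain ⟨m', hm'⟩ := two_inner_int hM hd hχ₂ χ₁
  have E₁ := pReg_eq_sum_block hM hB S hS hχ₁
  have E₂ := pReg_eq_sum_block hM hB S hS hχ₂
  rw [hSeq, Finset.sum_pair hne, ← classInner_pReg_pReg 2 (χ₁ : G → ℂ) (χ₁ : G → ℂ), hN₁] at E₁
  rw [hSeq, Finset.sum_pair hne, ← classInner_pReg_pReg 2 (χ₂ : G → ℂ) (χ₂ : G → ℂ), hN₂] at E₂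
  have hreg1 : ∀ χ : IrrCharacter G, pReg 2 (χ : G → ℂ) 1 = (χ : G → ℂ) 1 := by
    intro χ
    unfold pReg
    rw [if_neg (by rw [orderOf_one, Nat.dvd_one]; norm_num)]
  obtain ⟨d₁, hd₁p, hd₁⟩ := irr_one_pos χ₁.2
  obtain ⟨d₂, hd₂p, hd₂⟩ := irr_one_pos χ₂.2
  have F₁ := congrFun E₁ 1
  have F₂ := congrFun E₂ 1
  simp only [Pi.add_apply, Pi.smul_apply, smul_eq_mul] at F₁ F₂
  rw [hreg1, hd₁, hd₂] at F₁ F₂
  have G₁ : (d₁ : ℂ) = m * d₂ := by rw [← hm]; linear_combination 2 * F₁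
  have G₂ : (d₂ : ℂ) = m' * d₁ := by rw [← hm']; linear_combination 2 * F₂
  have G₁' : (d₁ : ℤ) = m * d₂ := by exact_mod_cast G₁
  have G₂' : (d₂ : ℤ) = m' * d₁ := by exact_mod_cast G₂
  have hmp : 0 < m := by
    by_contra hneg
    have h1 : m ≤ 0 := not_lt.mp hneg
    have h2 : m * (d₂ : ℤ) ≤ 0 := mul_nonpos_of_nonpos_of_nonneg h1 (by positivity)
    have h3 : (0 : ℤ) < d₁ := by exact_mod_cast hd₁p
    omega
  have hmm : m * m' = 1 := by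
    have h3 : (d₁ : ℤ) ≠ 0 := by exact_mod_cast hd₁p.ne'
    have h4 : (m * m') * (d₁ : ℤ) = 1 * d₁ := by
      rw [one_mul]
      conv_rhs => rw [G₁', G₂']
      ring
    exact mul_right_cancel₀ h3 h4
  have hm1 : m = 1 := by
    rcases Int.eq_one_or_neg_one_of_mul_eq_one hmm with h | h
    · exact h
    · omega
  rw [hm1] at hm
  have hc : classInner (pReg 2 (χ₁ : G → ℂ)) (χ₂ : G → ℂ) = 1 / 2 := by
    push_cast at hm
    linear_combination (1 / 2) * hm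
  rw [hc] at E₁
  refine ⟨χ₁, χ₂, hne, hmem, ?_, ?_, hN₁, hN₂, hl⟩
  · intro g hg
    have h := congrFun E₁ g
    simp only [Pi.add_apply, Pi.smul_apply, smul_eq_mul, pReg] at h
    rw [if_neg hg] at h
    linear_combination 2 * h
  · intro g hg
    have h := congrFun E₁ g
    simp only [Pi.add_apply, Pi.smul_apply, smul_eq_mul, pReg] at h
    rw [if_pos hg] at h
    linear_combination (-2) * h

end Cfsg.Agent.Lib.Helper7.BDef1
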