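import Mathlib
import Cfsg.Prelude.Def_Blocks
import Cfsg.Agent.Lib.Helper2.BlockReg3
import Cfsg.Agent.Lib.Helper2.BlockLam
import Cfsg.Agent.Lib.Helper7.Brauer11
import Cfsg.Agent.Lib.Helper7.Brauer12
import Cfsg.Agent.Lib.Helper7.BPair2
import Cfsg.Agent.Lib.Helper7.BCount1
import Cfsg.Agent.Lib.Helper7.BSpan1
import Cfsg.Agent.Lib.Helper7.BFeit1
import Cfsg.Agent.Lib.Helper7.BRank1
import Cfsg.Agent.Lib.Helper7.BRank2
import Cfsg.Agent.Lib.Helper7.BRank3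
import Cfsg.Agent.Lib.Helper7.BRank4
import Cfsg.Agent.Lib.Helper7.BRank5
import Cfsg.Agent.S4733
import Cfsg.Agent.Lib.Helper7.BDef1
import Cfsg.Agent.Lib.Helper7.CharKer
import Cfsg.Agent.Lib.Helper2.BlockSM3
import Cfsg.Agent.Lib.Helper7.BPair1
import Cfsg.Agent.Lib.Helper7.BSub1
import Cfsg.Agent.Lib.Helper2.BlockSM7

set_option autoImplicit false
set_option linter.unusedSectionVars false
set_option linter.unusedVariables false
set_option linter.style.haveILetI false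

/-! Blocks with a central defect group have rank one. -/

namespace Cfsg.Agent.Lib.Helper7.BCent1

open Cfsg Cfsg.Agent.Lib.Helper7.CharIrr Cfsg.Agent.Lib.Helper7.CharOrth
  Cfsg.Agent.Lib.Helper7.CharIntegral Cfsg.Agent.Lib.Helper7.CharMore
  Cfsg.Agent.Lib.Helper7.CharClassAlg Cfsg.Agent.Lib.Helper7.CharComplete
  Cfsg.Agent.Lib.Helper7.CharDeg Cfsg.Agent.Lib.Helper7.CharGalois
  Cfsg.Agent.Lib.Helper7.CharClassAlg2 Cfsg.Agent.Lib.Helper7.CharInd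
  Cfsg.Agent.Lib.Helper7.CharBasic Cfsg.Agent.Lib.Helper7.CharGen Cfsg.Agent.Lib.Helper7.CharRes
  Cfsg.Agent.Lib.Helper7.Brauer11 Cfsg.Agent.Lib.Helper7.Brauer12
  Cfsg.Agent.Lib.Helper2.LocRing Cfsg.Agent.Lib.Helper2.BlockLam
  Cfsg.Agent.Lib.Helper2.BlockZ Cfsg.Agent.Lib.Helper2.BlockDef Cfsg.Agent.Lib.Helper2.BlockCong
  Cfsg.Agent.Lib.Helper2.BlockHt Cfsg.Agent.Lib.Helper2.BlockReg Cfsg.Agent.Lib.Helper2.BlockBr2
  Cfsg.Agent.Lib.Helper2.BlockSub Cfsg.Agent.Lib.Helper2.BlockReg2 Cfsg.Agent.Lib.Helper2.BlockReg3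
open scoped ComplexConjugate

variable {G : Type*} [Group G] [Fintype G]

open Cfsg.Agent.Lib.Helper7.BCount1 Cfsg.Agent.Lib.Helper7.BSpan1 Cfsg.Agent.Lib.Helper7.BPair2
  Cfsg.Agent.Lib.Helper7.BRank1 Cfsg.Agent.Lib.Helper7.BFeit1 Cfsg.Agent.Lib.Helper7.BSub1
  Cfsg.Agent.Lib.Helper7.BRank2 Cfsg.Agent.Lib.Helper7.BRank4 Cfsg.Agent.Lib.Helper2.BlockSM3
  Cfsg.Agent.Lib.Helper2.BlockSM4 Cfsg.Agent.Lib.Helper2.BlockSM5 Cfsg.Agent.Lib.Helper2.BlockSM7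
  Cfsg.Agent.Lib.Helper7.BRank5 Cfsg.Agent.Lib.Helper7.BDef1 Cfsg.Agent.Lib.Helper7.CharKer

theorem norm_central {χ : G → ℂ} (hχ : IsIrrCharacter G χ) {z : G}
    (hz : z ∈ Subgroup.center G) (g : G) : ‖χ (z * g)‖ ^ 2 = ‖χ g‖ ^ 2 := by
  have h0 := irr_one_ne_zero hχ
  have h1 := irr_mul_central hχ hz z⁻¹
  rw [mul_inv_cancel, irr_inv (IsIrrCharacter.isCharacter hχ)] at h1
  have h2 : ‖χ z‖ ^ 2 = ‖χ 1‖ ^ 2 := by
    have h3 : χ z * conj (χ z) = χ 1 * χ 1 := by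
      field_simp at h1
      linear_combination -h1
    have h4 := congrArg norm h3
    rw [norm_mul, norm_mul, RCLike.norm_conj] at h4
    rw [sq, sq]
    exact h4
  rw [irr_mul_central hχ hz g, norm_div, norm_mul, div_pow, mul_pow, h2]
  have h5 : ‖χ 1‖ ^ 2 ≠ 0 := by positivity
  field_simp

theorem card_mul_norm_le (p : ℕ) (hp : p.Prime) (P : Subgroup G) (hPZ : P ≤ Subgroup.center G)
    (hPp : IsPGroup p P) (χ : IrrCharacter G) :
    ∃ r : ℝ, classInner (pReg p (χ : G → ℂ)) (pReg p (χ : G → ℂ)) = (r : ℂ) ∧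
      (Nat.card P : ℝ) * r ≤ 1 := by
  classical
  haveI : Fact p.Prime := ⟨hp⟩
  refine ⟨_, classInner_self_eq _, ?_⟩
  have h1 := classInner_self_eq (χ : G → ℂ)
  rw [classInner_irr χ.2 χ.2, if_pos rfl] at h1
  have h2 : (Nat.card G : ℝ)⁻¹ * ∑ g : G, ‖(χ : G → ℂ) g‖ ^ 2 = 1 := by exact_mod_cast h1.symm
  rw [← h2, ← mul_assoc, mul_comm (Nat.card P : ℝ), mul_assoc]
  apply mul_le_mul_of_nonneg_left _ (by positivity)
  haveI : Fintype P := Fintype.ofFinite _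
  obtain ⟨R, hR⟩ : ∃ R, R = Finset.univ.filter (fun g : G => ¬ p ∣ orderOf g) := ⟨_, rfl⟩
  have e1 : ∑ g : G, ‖pReg p (χ : G → ℂ) g‖ ^ 2 = ∑ y ∈ R, ‖(χ : G → ℂ) y‖ ^ 2 := by
    rw [hR, Finset.sum_filter]
    apply Finset.sum_congr rfl
    intro g _
    unfold pReg
    split_ifs <;> simp_all
  have e2 : (Nat.card P : ℝ) * ∑ y ∈ R, ‖(χ : G → ℂ) y‖ ^ 2 =
      ∑ w ∈ (Finset.univ : Finset P) ×ˢ R, ‖(χ : G → ℂ) ((w.1 : G) * w.2)‖ ^ 2 := by
    rw [Finset.sum_product]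
    have e3 : ∀ z : P, ∑ y ∈ R, ‖(χ : G → ℂ) ((z : G) * y)‖ ^ 2 =
        ∑ y ∈ R, ‖(χ : G → ℂ) y‖ ^ 2 := fun z =>
      Finset.sum_congr rfl (fun y _ => norm_central χ.2 (hPZ z.2) y)
    simp only [e3]
    rw [Finset.sum_const, Finset.card_univ, nsmul_eq_mul, Nat.card_eq_fintype_card]
  have hinj : Set.InjOn (fun w : P × G => (w.1 : G) * w.2)
      ↑((Finset.univ : Finset P) ×ˢ R) := by
    rintro ⟨z, y⟩ hw ⟨z', y'⟩ hw' h
    simp only [Finset.coe_product, Set.mem_prod, Finset.mem_coe] at hw hw'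
    simp only at h
    have hy : ¬ p ∣ orderOf y := by
      have := hw.2
      rw [hR] at this
      exact (Finset.mem_filter.mp this).2
    have hy' : ¬ p ∣ orderOf y' := by
      have := hw'.2
      rw [hR] at this
      exact (Finset.mem_filter.mp this).2
    have hzp : ∀ z : P, ∃ k : ℕ, orderOf (z : G) = p ^ k := by
      intro z
      obtain ⟨k, hk⟩ := (IsPGroup.iff_orderOf.mp hPp) z
      exact ⟨k, by rw [Subgroup.orderOf_coe, hk]⟩
    have hcz : ∀ (z : P) (y : G), Commute (z : G) y := fun z y =>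
      (Subgroup.mem_center_iff.mp (hPZ z.2) y).symm
    have p1 : IsPPart p ((z : G) * y) (z : G) := ⟨y, rfl, hcz z y, hzp z, hy⟩
    have p2 : IsPPart p ((z : G) * y) (z' : G) := ⟨y', h.symm, hcz z' y', hzp z', hy'⟩
    have hzz := isPPart_unique hp p1 p2
    rw [hzz] at h
    exact Prod.ext (Subtype.ext hzz) (mul_left_cancel h)
  rw [e1, e2, ← Finset.sum_image (f := fun g => ‖(χ : G → ℂ) g‖ ^ 2)
    (g := fun w : P × G => (w.1 : G) * w.2) hinj]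
  exact Finset.sum_le_sum_of_subset_of_nonneg (Finset.subset_univ _)
    (fun _ _ _ => by positivity)

theorem pow_inner_int {M : Ideal AlgInt} {p : ℕ} [Fact p.Prime] (hM : IsPModular p M)
    {B : Set (IrrCharacter G)} {χ : IrrCharacter G} (hχ : χ ∈ B) (ψ : IrrCharacter G) :
    ∃ n : ℤ, ((p ^ blockDefect p B : ℕ) : ℂ) * classInner (pReg p (χ : G → ℂ)) (ψ : G → ℂ) = n := by
  have hgen := isGen_pow_pReg p hM.1 χ
  obtain ⟨n, hn⟩ := classInner_gen_int hgen (IsIrrCharacter.isCharacter ψ.2)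
  rw [classInner_smul_left] at hn
  obtain ⟨e, he⟩ : ∃ e, e = (Nat.card G).factorization p -
      (charDegree (χ : G → ℂ)).factorization p := ⟨_, rfl⟩
  rw [← he] at hn
  have hle : e ≤ blockDefect p B := by
    unfold blockDefect
    have h1 : sInf ((fun χ : IrrCharacter G => (charDegree (χ : G → ℂ)).factorization p) '' B) ≤
        (charDegree (χ : G → ℂ)).factorization p := Nat.sInf_le ⟨χ, hχ, rfl⟩
    omega
  refine ⟨(p : ℤ) ^ (blockDefect p B - e) * n, ?_⟩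
  push_cast
  rw [← hn]
  have h2 : (p : ℂ) ^ blockDefect p B = (p : ℂ) ^ (blockDefect p B - e) * (p : ℂ) ^ e := by
    rw [← pow_add, Nat.sub_add_cancel hle]
  rw [h2]
  push_cast
  ring

theorem rank_one_of_central {M : Ideal AlgInt} {p : ℕ} [Fact p.Prime] (hM : IsPModular p M)
    {B : Set (IrrCharacter G)} (hB : IsPBlock M B) (P : Subgroup G)
    (hcard : Nat.card P = p ^ blockDefect p B) (hPZ : P ≤ Subgroup.center G) :
    blockRank p B = 1 := by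
  classical
  haveI := hM.2.1.isPrime
  haveI := Fintype.ofFinite (IrrCharacter G)
  have hPp : IsPGroup p P := IsPGroup.of_card hcard
  obtain ⟨S, hSdef⟩ : ∃ S, S = (Set.toFinite B).toFinset := ⟨_, rfl⟩
  have hS : ∀ χ, χ ∈ S ↔ χ ∈ B := fun χ => by rw [hSdef]; exact Set.Finite.mem_toFinset _
  choose r hr1 hr2 using fun χ : IrrCharacter G => card_mul_norm_le p hM.1 P hPZ hPp χ
  obtain ⟨q, hq⟩ : ∃ q : ℝ, q = ((p ^ blockDefect p B : ℕ) : ℝ) := ⟨_, rfl⟩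
  have hq0 : 0 < q := by
    rw [hq]
    exact_mod_cast pow_pos hM.1.pos _
  rw [hcard, ← hq] at hr2
  obtain ⟨χ, hχ, h0⟩ := exists_height_zero (p := p) (block_nonempty hB)
  choose n hn using fun ψ => pow_inner_int hM hχ ψ
  have hqc : (((p ^ blockDefect p B : ℕ) : ℂ)) = (q : ℂ) := by
    rw [hq]
    push_cast
    rfl
  have hqc0 : (q : ℂ) ≠ 0 := by exact_mod_cast hq0.ne'
  have hc : ∀ ψ : IrrCharacter G,
      classInner (pReg p (χ : G → ℂ)) (ψ : G → ℂ) = (n ψ : ℂ) / (q : ℂ) := by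
    intro ψ
    rw [← hn ψ, hqc]
    field_simp
  have hn0 : ∀ ψ ∈ S, n ψ ≠ 0 := by
    intro ψ hψ h
    have h2 := classInner_pReg_ne_zero hM hB hχ ((hS ψ).mp hψ) h0
    rw [hc ψ, h] at h2
    simp at h2
  have E := pReg_eq_sum_block hM hB S hS hχ
  have hnorm : (r χ : ℂ) = ∑ ψ ∈ S, ((n ψ : ℂ) / (q : ℂ)) * ((n ψ : ℂ) / (q : ℂ)) := by
    rw [← hr1 χ]
    nth_rewrite 2 [E]
    rw [classInner_sum_right]
    apply Finset.sum_congr rfl
    intro ψ _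
    rw [classInner_smul_right, hc ψ, map_div₀, map_intCast, Complex.conj_ofReal]
  have hnorm' : r χ = ∑ ψ ∈ S, ((n ψ : ℝ) / q) * ((n ψ : ℝ) / q) := by
    have h : (r χ : ℂ) = ((∑ ψ ∈ S, ((n ψ : ℝ) / q) * ((n ψ : ℝ) / q) : ℝ) : ℂ) := by
      rw [hnorm]
      push_cast
      rfl
    exact_mod_cast h
  have hk : (S.card : ℝ) ≤ q := by
    have h1 : (S.card : ℝ) ≤ ∑ ψ ∈ S, (n ψ : ℝ) * (n ψ : ℝ) := by
      rw [Finset.card_eq_sum_ones]
      push_cast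
      apply Finset.sum_le_sum
      intro ψ hψ
      have h2 : 0 < n ψ * n ψ := mul_self_pos.mpr (hn0 ψ hψ)
      have h3 : (1 : ℤ) ≤ n ψ * n ψ := h2
      exact_mod_cast h3
    have h4 : ∑ ψ ∈ S, (n ψ : ℝ) * (n ψ : ℝ) = q * (q * r χ) := by
      rw [hnorm', Finset.mul_sum, Finset.mul_sum]
      apply Finset.sum_congr rfl
      intro ψ _
      field_simp
    have h5 : q * (q * r χ) ≤ q * 1 := mul_le_mul_of_nonneg_left (hr2 χ) hq0.le
    linarith
  have hrank := rank_eq hM hB S hS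
  have hrank' : ∑ ψ ∈ S, r ψ = (blockRank p B : ℝ) := by
    have h : ((∑ ψ ∈ S, r ψ : ℝ) : ℂ) = ((blockRank p B : ℝ) : ℂ) := by
      push_cast
      rw [← hrank]
      exact Finset.sum_congr rfl (fun ψ _ => (hr1 ψ).symm)
    exact_mod_cast h
  have hl : (blockRank p B : ℝ) ≤ 1 := by
    have h1 : q * ∑ ψ ∈ S, r ψ ≤ ∑ ψ ∈ S, (1 : ℝ) := by
      rw [Finset.mul_sum]
      exact Finset.sum_le_sum (fun ψ _ => hr2 ψ)
    rw [hrank'] at h1
    simp only [Finset.sum_const, nsmul_eq_mul, mul_one] at h1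
    have h2 : q * (blockRank p B : ℝ) ≤ q * 1 := by linarith
    exact le_of_mul_le_mul_left h2 hq0
  have hl' : blockRank p B ≤ 1 := by exact_mod_cast hl
  have hl0 := blockRank_ne_zero p hM.1 hχ
  omega

end Cfsg.Agent.Lib.Helper7.BCent1
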