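import Mathlib
import Cfsg.Prelude.Def_Blocks
import Cfsg.Agent.Lib.Helper2.BlockReg3
import Cfsg.Agent.Lib.Helper2.BlockLam
import Cfsg.Agent.Lib.Helper7.Brauer11
import Cfsg.Agent.Lib.Helper7.Brauer12
import Cfsg.Agent.Lib.Helper7.BPair2
import Cfsg.Agent.Lib.Helper7.BCount1
import Cfsg.Agent.Lib.Helper7.BSpan1
import Cfsg.Agent.Lib.Helper7.BFeit1
import Cfsg.Agent.Lib.Helper7.BRank1
import Cfsg.Agent.Lib.Helper7.BRank2
import Cfsg.Agent.Lib.Helper7.BRank3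
import Cfsg.Agent.Lib.Helper7.BRank4
import Cfsg.Agent.Lib.Helper7.BRank5
import Cfsg.Agent.S4733
import Cfsg.Agent.Lib.Helper7.BDef1
import Cfsg.Agent.Lib.Helper7.BCent1
import Cfsg.Agent.Lib.Helper2.BlockOrth
import Cfsg.Agent.Lib.Helper2.BlockSM3
import Cfsg.Agent.Lib.Helper7.BPair1
import Cfsg.Agent.Lib.Helper7.BSub1
import Cfsg.Agent.Lib.Helper2.BlockSM7

set_option autoImplicit false
set_option linter.unusedSectionVars false
set_option linter.unusedVariables false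
set_option linter.style.haveILetI false

/-! The Cartan invariant of a block of rank one. -/

namespace Cfsg.Agent.Lib.Helper7.BCart1

open Cfsg Cfsg.Agent.Lib.Helper7.CharIrr Cfsg.Agent.Lib.Helper7.CharOrth
  Cfsg.Agent.Lib.Helper7.CharIntegral Cfsg.Agent.Lib.Helper7.CharMore
  Cfsg.Agent.Lib.Helper7.CharClassAlg Cfsg.Agent.Lib.Helper7.CharComplete
  Cfsg.Agent.Lib.Helper7.CharDeg Cfsg.Agent.Lib.Helper7.CharGalois
  Cfsg.Agent.Lib.Helper7.CharClassAlg2 Cfsg.Agent.Lib.Helper7.CharInd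
  Cfsg.Agent.Lib.Helper7.CharBasic Cfsg.Agent.Lib.Helper7.CharGen Cfsg.Agent.Lib.Helper7.CharRes
  Cfsg.Agent.Lib.Helper7.Brauer11 Cfsg.Agent.Lib.Helper7.Brauer12
  Cfsg.Agent.Lib.Helper2.LocRing Cfsg.Agent.Lib.Helper2.BlockLam
  Cfsg.Agent.Lib.Helper2.BlockZ Cfsg.Agent.Lib.Helper2.BlockDef Cfsg.Agent.Lib.Helper2.BlockCong
  Cfsg.Agent.Lib.Helper2.BlockHt Cfsg.Agent.Lib.Helper2.BlockReg Cfsg.Agent.Lib.Helper2.BlockBr2
  Cfsg.Agent.Lib.Helper2.BlockSub Cfsg.Agent.Lib.Helper2.BlockReg2 Cfsg.Agent.Lib.Helper2.BlockReg3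
open scoped ComplexConjugate

variable {G : Type*} [Group G] [Fintype G]

open Cfsg.Agent.Lib.Helper7.BCount1 Cfsg.Agent.Lib.Helper7.BSpan1 Cfsg.Agent.Lib.Helper7.BPair2
  Cfsg.Agent.Lib.Helper7.BRank1 Cfsg.Agent.Lib.Helper7.BFeit1 Cfsg.Agent.Lib.Helper7.BSub1
  Cfsg.Agent.Lib.Helper7.BRank2 Cfsg.Agent.Lib.Helper7.BRank4 Cfsg.Agent.Lib.Helper2.BlockSM3
  Cfsg.Agent.Lib.Helper2.BlockSM4 Cfsg.Agent.Lib.Helper2.BlockSM5 Cfsg.Agent.Lib.Helper2.BlockSM7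
  Cfsg.Agent.Lib.Helper7.BRank5 Cfsg.Agent.Lib.Helper7.BDef1 Cfsg.Agent.Lib.Helper7.BCent1
  Cfsg.Agent.Lib.Helper2.BlockOrth

theorem cartan_rank_one {M : Ideal AlgInt} {p : ℕ} [Fact p.Prime] (hM : IsPModular p M)
    {B : Set (IrrCharacter G)} (hB : IsPBlock M B) (hl : blockRank p B = 1)
    (S : Finset (IrrCharacter G)) (hS : ∀ χ, χ ∈ S ↔ χ ∈ B) :
    ∃ φ : G → ℂ, ∃ d : IrrCharacter G → ℕ, ∃ n : IrrCharacter G → ℤ,
      φ = ∑ ψ ∈ S, (n ψ : ℂ) • pReg p (ψ : G → ℂ) ∧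
      (∀ χ ∈ B, pReg p (χ : G → ℂ) = (d χ : ℂ) • φ) ∧
      ∑ χ ∈ S, d χ ^ 2 = p ^ blockDefect p B := by
  classical
  haveI := hM.2.1.isPrime
  haveI := Fintype.ofFinite (IrrCharacter G)
  have hp := hM.1
  obtain ⟨χ₁, hχ₁, h0⟩ := exists_height_zero (p := p) (block_nonempty hB)
  obtain ⟨g, hgdef⟩ : ∃ g : ℤ, g = S.gcd (fun χ => (charDegree (χ : G → ℂ) : ℤ)) := ⟨_, rfl⟩
  have hgdvd : ∀ χ ∈ S, g ∣ (charDegree (χ : G → ℂ) : ℤ) := by
    intro χ hχ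
    rw [hgdef]
    exact Finset.gcd_dvd hχ
  have hg0 : g ≠ 0 := by
    intro h
    have h1 := hgdvd χ₁ ((hS χ₁).mpr hχ₁)
    rw [h, zero_dvd_iff] at h1
    have := charDegree_pos χ₁.2
    omega
  have hgnn : 0 ≤ g := by
    rw [hgdef, ← Finset.normalize_gcd, ← Int.abs_eq_normalize]
    exact abs_nonneg _
  have hgpos : 0 < g := lt_of_le_of_ne hgnn (Ne.symm hg0)
  obtain ⟨n, hn⟩ := Finset.gcd_eq_sum_mul S (fun χ => (charDegree (χ : G → ℂ) : ℤ))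
  rw [← hgdef] at hn
  obtain ⟨d, hd⟩ : ∃ d : IrrCharacter G → ℕ, ∀ χ ∈ S,
      (charDegree (χ : G → ℂ) : ℤ) = g * (d χ : ℤ) := by
    refine ⟨fun χ => ((charDegree (χ : G → ℂ) : ℤ) / g).toNat, ?_⟩
    intro χ hχ
    have h1 : 0 ≤ (charDegree (χ : G → ℂ) : ℤ) / g := Int.ediv_nonneg (by positivity) hgnn
    rw [Int.toNat_of_nonneg h1, Int.mul_ediv_cancel' (hgdvd χ hχ)]
  have hgc : (g : ℂ) ≠ 0 := by exact_mod_cast hg0
  have hdc : ∀ χ ∈ S, (χ : G → ℂ) 1 = (g : ℂ) * (d χ : ℂ) := by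
    intro χ hχ
    rw [← charDegree_cast (IsIrrCharacter.isCharacter χ.2)]
    exact_mod_cast hd χ hχ
  have hreg1 : ∀ χ : IrrCharacter G, pReg p (χ : G → ℂ) 1 = (χ : G → ℂ) 1 := by
    intro χ
    unfold pReg
    rw [if_neg (by rw [orderOf_one, Nat.dvd_one]; exact hp.one_lt.ne')]
  -- proportionality
  obtain ⟨V, hV⟩ : ∃ V, V = Submodule.span ℂ
      ((fun χ : IrrCharacter G => pRegularPart p (χ : G → ℂ)) '' B) := ⟨_, rfl⟩
  have hfin : Module.finrank ℂ V = 1 := by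
    rw [hV]
    exact hl
  have hmemV : ∀ χ ∈ B, pReg p (χ : G → ℂ) ∈ V := by
    intro χ hχ
    rw [hV]
    exact Submodule.subset_span ⟨χ, hχ, pRegularPart_eq_pReg p _⟩
  have hv0 : (⟨pReg p (χ₁ : G → ℂ), hmemV χ₁ hχ₁⟩ : V) ≠ 0 := by
    intro h
    have h1 := congrArg Subtype.val h
    have h2 := congrFun h1 1
    simp only [hreg1] at h2
    exact irr_one_ne_zero χ₁.2 h2
  obtain ⟨φ, hφ⟩ : ∃ φ : G → ℂ, φ = ((d χ₁ : ℂ))⁻¹ • pReg p (χ₁ : G → ℂ) := ⟨_, rfl⟩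
  have hd1 : (d χ₁ : ℂ) ≠ 0 := by
    intro h
    have h1 := hdc χ₁ ((hS χ₁).mpr hχ₁)
    rw [h, mul_zero] at h1
    exact irr_one_ne_zero χ₁.2 h1
  have H1 : ∀ χ ∈ B, pReg p (χ : G → ℂ) = (d χ : ℂ) • φ := by
    intro χ hχ
    obtain ⟨c, hc⟩ := (finrank_eq_one_iff_of_nonzero' _ hv0).mp hfin ⟨_, hmemV χ hχ⟩
    have hc' : c • pReg p (χ₁ : G → ℂ) = pReg p (χ : G → ℂ) := congrArg Subtype.val hc
    have h1 := congrFun hc' 1
    rw [Pi.smul_apply, hreg1, hreg1, hdc χ ((hS χ).mpr hχ), hdc χ₁ ((hS χ₁).mpr hχ₁),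
      smul_eq_mul] at h1
    have h2 : c = (d χ : ℂ) * ((d χ₁ : ℂ))⁻¹ := by
      field_simp
      have h3 : (g : ℂ) * (c * (d χ₁ : ℂ)) = (g : ℂ) * (d χ : ℂ) := by linear_combination h1
      exact mul_left_cancel₀ hgc h3
    rw [← hc', h2, hφ, smul_smul]
  have hbez : ∑ ψ ∈ S, (n ψ : ℂ) * (d ψ : ℂ) = 1 := by
    have h1 : g * ∑ ψ ∈ S, n ψ * (d ψ : ℤ) = g * 1 := by
      rw [mul_one, Finset.mul_sum]
      conv_rhs => rw [hn]
      apply Finset.sum_congr rfl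
      intro ψ hψ
      rw [hd ψ hψ]
      ring
    have h2 := mul_left_cancel₀ hg0 h1
    exact_mod_cast h2
  have H2 : φ = ∑ ψ ∈ S, (n ψ : ℂ) • pReg p (ψ : G → ℂ) := by
    have h1 : ∑ ψ ∈ S, (n ψ : ℂ) • pReg p (ψ : G → ℂ) =
        ∑ ψ ∈ S, ((n ψ : ℂ) * (d ψ : ℂ)) • φ := by
      apply Finset.sum_congr rfl
      intro ψ hψ
      rw [H1 ψ ((hS ψ).mp hψ), smul_smul]
    rw [h1, ← Finset.sum_smul, hbez, one_smul]
  refine ⟨φ, d, n, H2, H1, ?_⟩
  obtain ⟨N, hN⟩ : ∃ N, N = classInner φ φ := ⟨_, rfl⟩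
  obtain ⟨c, hc⟩ : ∃ c : ℕ, c = ∑ χ ∈ S, d χ ^ 2 := ⟨_, rfl⟩
  rw [← hc]
  have hcN : (c : ℂ) * N = 1 := by
    have h1 := rank_eq hM hB S hS
    rw [hl] at h1
    rw [hc]
    push_cast
    rw [Finset.sum_mul, ← Nat.cast_one (R := ℂ), ← h1]
    apply Finset.sum_congr rfl
    intro χ hχ
    rw [H1 χ ((hS χ).mp hχ), classInner_smul_left, classInner_smul_right, ← hN,
      Complex.conj_natCast]
    ring
  -- integrality
  choose mm hmm using fun χ : {χ : IrrCharacter G // χ ∈ B} => fun ψ : IrrCharacter G =>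
    pow_inner_int hM χ.2 ψ
  obtain ⟨t, ht⟩ : ∃ t : ℤ, ((p ^ blockDefect p B : ℕ) : ℂ) * N = t := by
    refine ⟨∑ χ ∈ S.attach, ∑ ψ ∈ S, n χ.1 * n ψ * mm ⟨χ.1, (hS χ.1).mp χ.2⟩ ψ, ?_⟩
    rw [hN]
    conv_lhs => rw [H2]
    rw [classInner_sum_left, Finset.mul_sum, ← Finset.sum_attach]
    push_cast
    apply Finset.sum_congr rfl
    intro χ _
    rw [classInner_smul_left, classInner_sum_right, Finset.mul_sum, Finset.mul_sum]
    apply Finset.sum_congr rfl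
    intro ψ _
    rw [classInner_smul_right, classInner_pReg_pReg, map_intCast, ← hmm ⟨χ.1, (hS χ.1).mp χ.2⟩ ψ]
    push_cast
    ring
  have hdvd1 : c ∣ p ^ blockDefect p B := by
    have h1 : ((p ^ blockDefect p B : ℕ) : ℂ) = (((c : ℤ) * t : ℤ) : ℂ) := by
      push_cast
      rw [← ht]
      push_cast
      linear_combination (-(p : ℂ) ^ blockDefect p B) * hcN
    have h2 : ((p ^ blockDefect p B : ℕ) : ℤ) = (c : ℤ) * t := by exact_mod_cast h1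
    have h3 : (c : ℤ) ∣ ((p ^ blockDefect p B : ℕ) : ℤ) := ⟨t, h2⟩
    exact_mod_cast h3
  have hdvd2 : p ^ blockDefect p B ∣ c := by
    obtain ⟨Φ, hΦ⟩ : ∃ Φ : G → ℂ, Φ = ∑ χ ∈ S, ((d χ : ℕ) : ℂ) • (χ : G → ℂ) := ⟨_, rfl⟩
    have hgen : IsGeneralizedCharacter G Φ := by
      rw [hΦ]
      exact isGen_sum _ _ (fun χ _ => isGen_nsmul _
        (isGen_of_isCharacter (IsIrrCharacter.isCharacter χ.2)))
    have hval : ∀ y : G, (g : ℂ) * Φ y = ∑ χ ∈ S, (χ : G → ℂ) 1 * (χ : G → ℂ) y := by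
      intro y
      rw [hΦ, Finset.sum_apply, Finset.mul_sum]
      apply Finset.sum_congr rfl
      intro χ hχ
      rw [Pi.smul_apply, smul_eq_mul, hdc χ hχ]
      ring
    have hSf : S = Finset.univ.filter (fun χ : IrrCharacter G => χ ∈ B) := by
      ext χ
      simp [hS]
    have hvan : ∀ y : G, p ∣ orderOf y → Φ y = 0 := by
      intro y hy
      have h1 := weak_orth hM B (block_closed hB) 1 y⁻¹
        (by rw [orderOf_one, Nat.dvd_one]; exact hp.one_lt.ne') (by rwa [orderOf_inv])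
      have h2 : (g : ℂ) * Φ y = 0 := by
        rw [hval, hSf, ← h1]
        apply Finset.sum_congr rfl
        intro χ _
        rw [irr_inv (IsIrrCharacter.isCharacter χ.2), Complex.conj_conj]
      exact (mul_eq_zero.mp h2).resolve_left hgc
    obtain ⟨k, hk⟩ := dvd_degree_of_vanish p hgen hvan
    have hΦ1 : Φ 1 = (g : ℂ) * (c : ℂ) := by
      rw [hΦ, Finset.sum_apply, hc]
      push_cast
      rw [Finset.mul_sum]
      apply Finset.sum_congr rfl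
      intro χ hχ
      rw [Pi.smul_apply, smul_eq_mul, hdc χ hχ]
      ring
    rw [hΦ1] at hk
    have hk' : g * (c : ℤ) = ((p ^ (Nat.card G).factorization p : ℕ) : ℤ) * k := by
      exact_mod_cast hk
    -- multiply up to the degree of a character of height zero
    obtain ⟨Dn, hDn⟩ : ∃ Dn, Dn = charDegree (χ₁ : G → ℂ) := ⟨_, rfl⟩
    have hDn0 : Dn ≠ 0 := by
      rw [hDn]
      exact (charDegree_pos χ₁.2).ne'
    have h3 : p ^ (Nat.card G).factorization p ∣ Dn * c := by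
      have h4 : ((p ^ (Nat.card G).factorization p : ℕ) : ℤ) ∣ ((Dn * c : ℕ) : ℤ) := by
        push_cast
        rw [hDn, hd χ₁ ((hS χ₁).mpr hχ₁)]
        refine ⟨k * (d χ₁ : ℤ), ?_⟩
        have e : g * (d χ₁ : ℤ) * (c : ℤ) = (g * (c : ℤ)) * (d χ₁ : ℤ) := by ring
        rw [e, hk']
        push_cast
        ring
      exact_mod_cast h4
    have hle : Dn.factorization p ≤ (Nat.card G).factorization p := by
      rw [hDn]
      exact (Nat.factorization_le_iff_dvd (charDegree_pos χ₁.2).ne' Nat.card_pos.ne').mpr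
        (charDegree_dvd_card χ₁.2) p
    have hdef : (Nat.card G).factorization p = Dn.factorization p + blockDefect p B := by
      have h5 : sInf ((fun χ : IrrCharacter G =>
          (charDegree (χ : G → ℂ)).factorization p) '' B) ≤
          (charDegree (χ₁ : G → ℂ)).factorization p := Nat.sInf_le ⟨χ₁, hχ₁, rfl⟩
      unfold blockHeight at h0
      unfold blockDefect
      rw [← hDn] at h0 h5
      omega
    rw [hdef, pow_add] at h3
    have h6 : Dn = p ^ Dn.factorization p * (Dn / p ^ Dn.factorization p) :=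
      (Nat.ordProj_mul_ordCompl_eq_self Dn p).symm
    have h7 : p ^ Dn.factorization p * p ^ blockDefect p B ∣
        p ^ Dn.factorization p * ((Dn / p ^ Dn.factorization p) * c) := by
      rw [← mul_assoc, ← h6]
      exact h3
    have h8 := (Nat.mul_dvd_mul_iff_left (pow_pos hp.pos _)).mp h7
    have h9 : Nat.Coprime (p ^ blockDefect p B) (Dn / p ^ Dn.factorization p) :=
      (Nat.coprime_ordCompl hp hDn0).pow_left _
    exact h9.dvd_of_dvd_mul_left h8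
  exact Nat.dvd_antisymm hdvd1 hdvd2

end Cfsg.Agent.Lib.Helper7.BCart1
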