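import Mathlib
import Cfsg.Prelude.Def_Blocks
import Cfsg.Agent.Lib.Helper2.BlockReg3
import Cfsg.Agent.Lib.Helper2.BlockLam
import Cfsg.Agent.Lib.Helper7.Brauer11
import Cfsg.Agent.Lib.Helper7.Brauer12
import Cfsg.Agent.Lib.Helper7.BPair2
import Cfsg.Agent.Lib.Helper7.BCount1
import Cfsg.Agent.Lib.Helper7.BSpan1
import Cfsg.Agent.Lib.Helper7.BFeit1
import Cfsg.Agent.Lib.Helper7.BRank1
import Cfsg.Agent.Lib.Helper7.BRank2
import Cfsg.Agent.Lib.Helper7.BRank3
import Cfsg.Agent.Lib.Helper7.BRank4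
import Cfsg.Agent.Lib.Helper7.BRank5
import Cfsg.Agent.S4733
import Cfsg.Agent.S0908
import Cfsg.Agent.S0973
import Cfsg.Agent.Lib.Helper7.BDef1
import Cfsg.Agent.Lib.Helper2.BlockSM3
import Cfsg.Agent.Lib.Helper7.BPair1
import Cfsg.Agent.Lib.Helper7.BSub1
import Cfsg.Agent.Lib.Helper2.BlockSM7

set_option autoImplicit false
set_option linter.unusedSectionVars false
set_option linter.unusedVariables false
set_option linter.style.haveILetI false

/-! 2-blocks of defect one: the values on the section of the involution. -/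

namespace Cfsg.Agent.Lib.Helper7.BDef2

open Cfsg Cfsg.Agent.Lib.Helper7.CharIrr Cfsg.Agent.Lib.Helper7.CharOrth
  Cfsg.Agent.Lib.Helper7.CharIntegral Cfsg.Agent.Lib.Helper7.CharMore
  Cfsg.Agent.Lib.Helper7.CharClassAlg Cfsg.Agent.Lib.Helper7.CharComplete
  Cfsg.Agent.Lib.Helper7.CharDeg Cfsg.Agent.Lib.Helper7.CharGalois
  Cfsg.Agent.Lib.Helper7.CharClassAlg2 Cfsg.Agent.Lib.Helper7.CharInd
  Cfsg.Agent.Lib.Helper7.CharBasic Cfsg.Agent.Lib.Helper7.CharGen Cfsg.Agent.Lib.Helper7.CharRes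
  Cfsg.Agent.Lib.Helper7.Brauer11 Cfsg.Agent.Lib.Helper7.Brauer12
  Cfsg.Agent.Lib.Helper2.LocRing Cfsg.Agent.Lib.Helper2.BlockLam
  Cfsg.Agent.Lib.Helper2.BlockZ Cfsg.Agent.Lib.Helper2.BlockDef Cfsg.Agent.Lib.Helper2.BlockCong
  Cfsg.Agent.Lib.Helper2.BlockHt Cfsg.Agent.Lib.Helper2.BlockReg Cfsg.Agent.Lib.Helper2.BlockBr2
  Cfsg.Agent.Lib.Helper2.BlockSub Cfsg.Agent.Lib.Helper2.BlockReg2 Cfsg.Agent.Lib.Helper2.BlockReg3
open scoped ComplexConjugate

variable {G : Type*} [Group G] [Fintype G]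

open Cfsg.Agent.Lib.Helper7.BCount1 Cfsg.Agent.Lib.Helper7.BSpan1 Cfsg.Agent.Lib.Helper7.BPair2
  Cfsg.Agent.Lib.Helper7.BRank1 Cfsg.Agent.Lib.Helper7.BFeit1 Cfsg.Agent.Lib.Helper7.BSub1
  Cfsg.Agent.Lib.Helper7.BRank2 Cfsg.Agent.Lib.Helper7.BRank4 Cfsg.Agent.Lib.Helper2.BlockSM3
  Cfsg.Agent.Lib.Helper2.BlockSM4 Cfsg.Agent.Lib.Helper2.BlockSM5 Cfsg.Agent.Lib.Helper2.BlockSM7
  Cfsg.Agent.Lib.Helper7.BRank5 Cfsg.Agent.Lib.Helper7.BDef1 Cfsg.Agent.Lib.Helper7.BRank3

theorem exists_reps (p : ℕ) (x : G) (hx : ∃ k : ℕ, orderOf x = p ^ k) :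
    ∃ X : Finset G, x ∈ X ∧ (∀ x ∈ X, ∃ k : ℕ, orderOf x = p ^ k) ∧
      (∀ g : G, (∃ k : ℕ, orderOf g = p ^ k) → ∃! x, x ∈ X ∧ IsConj g x) := by
  classical
  obtain ⟨rep, hrep⟩ : ∃ rep : G → G,
      rep = fun g => if IsConj g x then x else Quotient.out (ConjClasses.mk g) := ⟨_, rfl⟩
  have h1 : ∀ g, IsConj g (rep g) := by
    intro g
    rw [hrep]
    simp only
    split_ifs with h
    · exact h
    · have : ConjClasses.mk (Quotient.out (ConjClasses.mk g)) = ConjClasses.mk g :=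
        Quotient.out_eq _
      exact (ConjClasses.mk_eq_mk_iff_isConj.mp this).symm
  have h2 : ∀ g h, IsConj g h → rep g = rep h := by
    intro g h hgh
    rw [hrep]
    simp only
    have e : ConjClasses.mk g = ConjClasses.mk h := ConjClasses.mk_eq_mk_iff_isConj.mpr hgh
    by_cases hc : IsConj g x
    · rw [if_pos hc, if_pos (hgh.symm.trans hc)]
    · rw [if_neg hc, if_neg (fun h' => hc (hgh.trans h')), e]
  have h3 : ∀ g, orderOf (rep g) = orderOf g := by
    intro g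
    obtain ⟨c, hc⟩ := isConj_iff.mp (h1 g)
    rw [← hc, orderOf_conj']
  refine ⟨(Finset.univ.filter (fun g : G => ∃ k : ℕ, orderOf g = p ^ k)).image rep, ?_, ?_, ?_⟩
  · refine Finset.mem_image.mpr ⟨x, by simp [hx], ?_⟩
    rw [hrep]
    simp only
    rw [if_pos (IsConj.refl x)]
  · intro y hy
    obtain ⟨g, hg, rfl⟩ := Finset.mem_image.mp hy
    obtain ⟨k, hk⟩ := (Finset.mem_filter.mp hg).2
    exact ⟨k, by rw [h3, hk]⟩
  · intro g hg
    refine ⟨rep g, ⟨Finset.mem_image.mpr ⟨g, by simp [hg], rfl⟩, h1 g⟩, ?_⟩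
    rintro y ⟨hy, hgy⟩
    obtain ⟨h, hh, rfl⟩ := Finset.mem_image.mp hy
    exact (h2 g h (hgy.trans (h1 h).symm)).symm

theorem secNorm_one (H : Subgroup G) [Fintype H] (hH : ∀ g : G, g ∈ H) (p : ℕ) (F : G → ℂ) :
    classInner (pReg p (th H 1 F)) (th H 1 F) = classInner (pReg p F) F := by
  classical
  unfold classInner
  have hc : Nat.card H = Nat.card G := Nat.card_congr (Equiv.subtypeUnivEquiv hH)
  rw [hc]
  congr 1
  apply Fintype.sum_equiv (Equiv.subtypeUnivEquiv hH)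
  intro c
  simp only [Equiv.subtypeUnivEquiv_apply, pReg, th, one_mul, Subgroup.orderOf_coe]

theorem eq_sum_blockPart {M : Ideal AlgInt} {p : ℕ} [Fact p.Prime] (hM : IsPModular p M)
    {ϑ : G → ℂ} (hϑ : IsClassFunction G ϑ) [Fintype (IrrCharacter G)]
    [DecidableEq (Set (IrrCharacter G))] :
    ϑ = ∑ b ∈ Finset.univ.image (fun ξ : IrrCharacter G => blockOf M (ξ : G → ℂ)),
        blockPart b ϑ := by
  classical
  haveI := hM.2.1.isPrime
  conv_lhs => rw [classFunction_eq_sum hϑ,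
    ← Finset.sum_fiberwise_of_maps_to (s := Finset.univ)
      (t := Finset.univ.image (fun ξ : IrrCharacter G => blockOf M (ξ : G → ℂ)))
      (g := fun ξ : IrrCharacter G => blockOf M (ξ : G → ℂ))
      (fun ξ _ => Finset.mem_image_of_mem _ (Finset.mem_univ ξ))]
  apply Finset.sum_congr rfl
  intro b hb
  obtain ⟨ξ, -, rfl⟩ := Finset.mem_image.mp hb
  rw [blockPart_eq_filter _ hϑ]
  apply Finset.sum_congr _ (fun _ _ => rfl)
  ext ψ
  simp only [Finset.mem_filter, Finset.mem_univ, true_and]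
  constructor
  · intro h
    rw [← h]
    exact sameBlock_refl (M := M) _
  · intro h
    exact blockOf_eq_of_mem h

theorem main {M : Ideal AlgInt} (hM : IsPModular 2 M) (x : G) (hx : orderOf x = 2)
    {B : Set (IrrCharacter G)} (hB : IsPBlock M B)
    (hBD : IsDefectGroup 2 M B (Subgroup.zpowers x))
    {b : Set (IrrCharacter ↥(Subgroup.centralizer ({x} : Set G)))}
    (hb : IsInducedBlock M (Subgroup.centralizer ({x} : Set G)) b B)
    {θ : IrrCharacter ↥(Subgroup.centralizer ({x} : Set G))} (hθ : θ ∈ b) :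
    ∃ χ₁ χ₂ : IrrCharacter G, χ₁ ≠ χ₂ ∧ (∀ χ, χ ∈ B ↔ χ = χ₁ ∨ χ = χ₂) ∧
      (∀ g : G, ¬ 2 ∣ orderOf g → (χ₁ : G → ℂ) g = (χ₂ : G → ℂ) g) ∧
      ∃ ε : ℤ, (ε = 1 ∨ ε = -1) ∧
        ∀ y : ↥(Subgroup.centralizer ({x} : Set G)), ¬ 2 ∣ orderOf y →
        (χ₁ : G → ℂ) (x * y) = (ε : ℂ) * (θ : ↥(Subgroup.centralizer ({x} : Set G)) → ℂ) y ∧
        (χ₂ : G → ℂ) (x * y) =
          ((-ε : ℤ) : ℂ) * (θ : ↥(Subgroup.centralizer ({x} : Set G)) → ℂ) y := by
  classical
  haveI : Fact (Nat.Prime 2) := ⟨hM.1⟩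
  haveI := hM.2.1.isPrime
  haveI := Fintype.ofFinite (IrrCharacter G)
  haveI : ∀ x : G, Fintype (Subgroup.centralizer ({x} : Set G)) := fun x => Fintype.ofFinite _
  haveI := Fintype.ofFinite (IrrCharacter ↥(Subgroup.centralizer ({x} : Set G)))
  have hx2 : ∃ k : ℕ, orderOf x = 2 ^ k := ⟨1, by rw [hx, pow_one]⟩
  have hHx : ∀ g : G, g ∈ Subgroup.centralizer ({x} : Set G) ↔ g * x = x * g :=
    fun g => Subgroup.mem_centralizer_singleton_iff
  have hdB : blockDefect 2 B = 1 := by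
    have h := Cfsg.Agent.S0908.result 2 M hM B hB _ hBD
    rw [Nat.card_zpowers, hx] at h
    have h' : 2 ^ 1 = 2 ^ blockDefect 2 B := by rw [pow_one]; exact h
    exact (Nat.pow_right_injective (le_refl 2) h').symm
  obtain ⟨χ₁, χ₂, hne, hmem, hreg, hsing, hN₁, hN₂, hl⟩ := defect_one hM hB hdB
  have hχ₁ : χ₁ ∈ B := (hmem χ₁).mpr (Or.inl rfl)
  obtain ⟨X, hxX, hX, hXrep⟩ := exists_reps 2 x hx2
  have h1X : (1 : G) ∈ X := by
    obtain ⟨z, ⟨hz, hc⟩, -⟩ := hXrep 1 ⟨0, by simp⟩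
    have : z = 1 := isConj_one_left.mp hc.symm
    rwa [this] at hz
  have h1x : (1 : G) ≠ x := by
    intro h
    rw [← h, orderOf_one] at hx
    norm_num at hx
  have hnn : ∀ (z : G) (χ : IrrCharacter G), ∃ r : ℝ, 0 ≤ r ∧
      classInner (pReg 2 (th (Subgroup.centralizer ({z} : Set G)) z (χ : G → ℂ)))
        (th (Subgroup.centralizer ({z} : Set G)) z (χ : G → ℂ)) = (r : ℂ) := by
    intro z χ
    rw [← classInner_pReg_pReg]
    exact ⟨_, by positivity, classInner_self_eq _⟩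
  choose r hr0 hr using hnn
  have hsum : ∀ χ : IrrCharacter G, ∑ z ∈ X, r z χ = 1 := by
    intro χ
    have h := sum_sections hM.1 X hX hXrep χ
    rw [Finset.sum_congr rfl (fun z _ => hr z χ)] at h
    exact_mod_cast h
  have hr1 : ∀ χ : IrrCharacter G,
      classInner (pReg 2 (χ : G → ℂ)) (pReg 2 (χ : G → ℂ)) = 1 / 2 → r 1 χ = 1 / 2 := by
    intro χ h
    have h' := hr 1 χ
    rw [secNorm_one _ (fun g => Subgroup.mem_centralizer_singleton_iff.mpr (by simp)),
      ← classInner_pReg_pReg, h] at h'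
    have : ((1 / 2 : ℝ) : ℂ) = (r 1 χ : ℂ) := by
      rw [← h']
      push_cast
      rfl
    exact_mod_cast this.symm
  have hrx : ∀ χ : IrrCharacter G, r 1 χ = 1 / 2 → r x χ ≤ 1 / 2 := by
    intro χ h
    have h2 : r 1 χ + r x χ ≤ ∑ z ∈ X, r z χ := by
      rw [← Finset.sum_pair (f := fun z => r z χ) h1x]
      apply Finset.sum_le_sum_of_subset_of_nonneg
      · intro z hz
        simp only [Finset.mem_insert, Finset.mem_singleton] at hz
        rcases hz with rfl | rfl <;> assumption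
      · intro z _ _
        exact hr0 z χ
    rw [hsum χ, h] at h2
    linarith
  have hS : ∀ χ, χ ∈ ({χ₁, χ₂} : Finset (IrrCharacter G)) ↔ χ ∈ B := by
    intro χ
    rw [hmem]
    simp
  have hsec := sum_secNorm (Subgroup.centralizer ({x} : Set G)) x hHx hM hx2 hB _ hS
    (fun b hb => exists_induced_centralizer hM x hx2 hb)
  rw [Finset.sum_pair hne, hr, hr] at hsec
  obtain ⟨L, hL⟩ : ∃ L : ℕ, L = ∑ᶠ b ∈ {b : Set (IrrCharacter
      ↥(Subgroup.centralizer ({x} : Set G))) |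
      IsInducedBlock M (Subgroup.centralizer ({x} : Set G)) b B}, blockRank 2 b := ⟨_, rfl⟩
  rw [← hL] at hsec
  have hsec' : r x χ₁ + r x χ₂ = (L : ℝ) := by exact_mod_cast hsec
  have hL1 : L ≤ 1 := by
    have : (L : ℝ) ≤ 1 := by
      rw [← hsec']
      linarith [hrx χ₁ (hr1 χ₁ hN₁), hrx χ₂ (hr1 χ₂ hN₂)]
    exact_mod_cast this
  have hTfin : {b : Set (IrrCharacter ↥(Subgroup.centralizer ({x} : Set G))) |
      IsInducedBlock M (Subgroup.centralizer ({x} : Set G)) b B}.Finite := Set.toFinite _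
  rw [finsum_mem_eq_finite_toFinset_sum _ hTfin] at hL
  have hrk : ∀ b' : Set (IrrCharacter ↥(Subgroup.centralizer ({x} : Set G))),
      IsInducedBlock M (Subgroup.centralizer ({x} : Set G)) b' B → 1 ≤ blockRank 2 b' := by
    intro b' hb'
    obtain ⟨ζ, hζ⟩ := block_nonempty hb'.1
    exact Nat.one_le_iff_ne_zero.mpr (blockRank_ne_zero 2 hM.1 hζ)
  have huniq : ∀ b' : Set (IrrCharacter ↥(Subgroup.centralizer ({x} : Set G))),
      IsInducedBlock M (Subgroup.centralizer ({x} : Set G)) b' B → b' = b := by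
    intro b' hb'
    by_contra hneq
    have h2 : blockRank 2 b' + blockRank 2 b ≤ L := by
      rw [hL, ← Finset.sum_pair (f := fun b => blockRank 2 b) hneq]
      apply Finset.sum_le_sum_of_subset
      intro z hz
      simp only [Finset.mem_insert, Finset.mem_singleton] at hz
      rw [Set.Finite.mem_toFinset]
      rcases hz with rfl | rfl
      · exact hb'
      · exact hb
    have h3 := hrk b' hb'
    have h4 := hrk b hb
    omega
  have hL1' : L = 1 := by
    have h2 : blockRank 2 b ≤ L := by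
      rw [hL]
      exact Finset.single_le_sum (f := fun b => blockRank 2 b) (fun _ _ => Nat.zero_le _)
        ((Set.Finite.mem_toFinset _).mpr hb)
    have h4 := hrk b hb
    omega
  have hrx₁ : r x χ₁ = 1 / 2 := by
    rw [hL1'] at hsec'
    push_cast at hsec'
    linarith [hrx χ₁ (hr1 χ₁ hN₁), hrx χ₂ (hr1 χ₂ hN₂)]
  have key : ∀ H : Subgroup G,
      H = Subgroup.zpowers x ⊔ Subgroup.centralizer (Subgroup.zpowers x : Set G) →
      ∃ b0 : Set (IrrCharacter H), IsDefectGroup 2 M b0 ((Subgroup.zpowers x).subgroupOf H) ∧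
        IsInducedBlock M H b0 B := by
    rintro H rfl
    exact (Cfsg.Agent.S0973.result 2 M hM B hB _ hBD).1
  have hzle : Subgroup.zpowers x ≤ Subgroup.centralizer ({x} : Set G) := by
    rw [Subgroup.zpowers_le]
    exact self_mem_centralizer x
  have hHeq : Subgroup.centralizer ({x} : Set G) =
      Subgroup.zpowers x ⊔ Subgroup.centralizer (Subgroup.zpowers x : Set G) := by
    have e : Subgroup.centralizer (Subgroup.zpowers x : Set G) =
        Subgroup.centralizer ({x} : Set G) := by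
      ext g
      rw [mem_centralizer_zpowers, hHx]
    rw [e, sup_eq_right.mpr hzle]
  obtain ⟨b0, hb0D, hb0I⟩ := key _ hHeq
  rw [huniq b0 hb0I] at hb0D
  have hdb : blockDefect 2 b = 1 := by
    have h := Cfsg.Agent.S0908.result 2 M hM b hb.1 _ hb0D
    rw [Nat.card_congr (Subgroup.subgroupOfEquivOfLe hzle).toEquiv, Nat.card_zpowers, hx] at h
    have h' : 2 ^ 1 = 2 ^ blockDefect 2 b := by rw [pow_one]; exact h
    exact (Nat.pow_right_injective (le_refl 2) h').symm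
  obtain ⟨θ₁, θ₂, hne', hmem', hreg', -, hN₁', hN₂', -⟩ := defect_one hM hb.1 hdb
  have hpe : pReg 2 (θ₁ : ↥(Subgroup.centralizer ({x} : Set G)) → ℂ) =
      pReg 2 (θ₂ : ↥(Subgroup.centralizer ({x} : Set G)) → ℂ) := by
    funext g
    unfold pReg
    split_ifs with h
    · rfl
    · exact hreg' g h
  have hθN : classInner (pReg 2 (θ : ↥(Subgroup.centralizer ({x} : Set G)) → ℂ))
      (pReg 2 (θ : ↥(Subgroup.centralizer ({x} : Set G)) → ℂ)) = 1 / 2 := by
    rcases (hmem' θ).mp hθ with h | h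
    · rw [h]; exact hN₁'
    · rw [h]; exact hN₂'
  have hζ : ∀ ζ ∈ b, pReg 2 (ζ : ↥(Subgroup.centralizer ({x} : Set G)) → ℂ) =
      pReg 2 (θ : ↥(Subgroup.centralizer ({x} : Set G)) → ℂ) := by
    intro ζ hζ
    rcases (hmem' θ).mp hθ with h | h <;> rcases (hmem' ζ).mp hζ with h' | h' <;> rw [h, h']
    · exact hpe.symm
    · exact hpe
  have hχc := IsIrrCharacter.isClassFunction χ₁.2
  have hthc := th_isClass (Subgroup.centralizer ({x} : Set G)) x hHx hχc
  have hdec := eq_sum_blockPart hM hthc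
  have hdec' : pReg 2 (th (Subgroup.centralizer ({x} : Set G)) x (χ₁ : G → ℂ)) =
      Lam (Subgroup.centralizer ({x} : Set G)) x 2 b (χ₁ : G → ℂ) := by
    conv_lhs => rw [hdec, pReg_sum]
    rw [Finset.sum_eq_single b]
    · rfl
    · intro b' hb' hneq
      obtain ⟨ξ, -, rfl⟩ := Finset.mem_image.mp hb'
      obtain ⟨B', hB'⟩ := exists_induced_centralizer hM x hx2
        (b := blockOf M (ξ : ↥(Subgroup.centralizer ({x} : Set G)) → ℂ)) ⟨ξ, rfl⟩
      have hχB' : χ₁ ∉ B' := by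
        intro h
        apply hneq
        apply huniq
        rw [block_eq_of_mem hB hB'.2.1 hχ₁ h]
        exact hB'
      exact Lam_eq_zero _ x hHx hM hx2 hB' hχB'
    · intro h
      exfalso
      apply h
      obtain ⟨ξ, hξ⟩ := hb.1
      rw [hξ]
      exact Finset.mem_image_of_mem _ (Finset.mem_univ ξ)
  have hspan : Lam (Subgroup.centralizer ({x} : Set G)) x 2 b (χ₁ : G → ℂ) ∈
      Submodule.span ℂ {pReg 2 (θ : ↥(Subgroup.centralizer ({x} : Set G)) → ℂ)} := by
    have h1 := Lam_mem (Subgroup.centralizer ({x} : Set G)) x hHx 2 b hχc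
    refine (Submodule.span_le.mpr ?_) h1
    rintro _ ⟨ζ, hζb, rfl⟩
    simp only
    rw [pRegularPart_eq_pReg, hζ ζ hζb]
    exact Submodule.mem_span_singleton_self _
  obtain ⟨c, hc⟩ := Submodule.mem_span_singleton.mp hspan
  have hnorm : c * conj c = 1 := by
    have h := hr x χ₁
    rw [← classInner_pReg_pReg, hdec', ← hc, classInner_smul_left, classInner_smul_right, hθN,
      hrx₁] at h
    push_cast at h
    linear_combination 2 * h
  have hval : ∀ y : ↥(Subgroup.centralizer ({x} : Set G)), ¬ 2 ∣ orderOf y →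
      (χ₁ : G → ℂ) (x * y) = c * (θ : ↥(Subgroup.centralizer ({x} : Set G)) → ℂ) y := by
    intro y hy
    have h := congrFun (hdec'.trans hc.symm) y
    simp only [pReg, th, Pi.smul_apply, smul_eq_mul] at h
    rw [if_neg hy, if_neg hy] at h
    exact h
  obtain ⟨d, hdp, hd⟩ := irr_one_pos θ.2
  have hcreal : conj c = c := by
    have h1 := hval 1 (by rw [orderOf_one]; norm_num)
    rw [hd] at h1
    simp only [OneMemClass.coe_one, mul_one] at h1
    have h2 : conj ((χ₁ : G → ℂ) x) = (χ₁ : G → ℂ) x := by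
      rw [← irr_inv (IsIrrCharacter.isCharacter χ₁.2)]
      have h3 : x ^ 2 = 1 := by rw [← hx]; exact pow_orderOf_eq_one x
      have h4 : x⁻¹ = x := inv_eq_of_mul_eq_one_left (by rw [← sq]; exact h3)
      rw [h4]
    have hd0 : (d : ℂ) ≠ 0 := by exact_mod_cast hdp.ne'
    rw [h1, map_mul, Complex.conj_natCast] at h2
    exact mul_right_cancel₀ hd0 h2
  have hc2 : c = 1 ∨ c = -1 := by
    rw [hcreal] at hnorm
    have h3 : (c - 1) * (c + 1) = 0 := by linear_combination hnorm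
    rcases mul_eq_zero.mp h3 with h | h
    · left; linear_combination h
    · right; linear_combination h
  have hsingxy : ∀ y : ↥(Subgroup.centralizer ({x} : Set G)), ¬ 2 ∣ orderOf y →
      2 ∣ orderOf (x * (y : G)) := by
    intro y hy
    have hcomm : Commute x (y : G) := ((hHx y).mp y.2).symm
    have hcop : Nat.Coprime (orderOf x) (orderOf (y : G)) := by
      rw [hx, Subgroup.orderOf_coe]
      exact (Nat.Prime.coprime_iff_not_dvd Nat.prime_two).mpr hy
    rw [hcomm.orderOf_mul_eq_mul_orderOf_of_coprime hcop, hx]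
    exact Dvd.intro _ rfl
  obtain ⟨ε, hε, hεc⟩ : ∃ ε : ℤ, (ε = 1 ∨ ε = -1) ∧ (ε : ℂ) = c := by
    rcases hc2 with h | h
    · exact ⟨1, Or.inl rfl, by rw [h]; simp⟩
    · exact ⟨-1, Or.inr rfl, by rw [h]; simp⟩
  refine ⟨χ₁, χ₂, hne, hmem, hreg, ε, hε, ?_⟩
  intro y hy
  refine ⟨by rw [hεc]; exact hval y hy, ?_⟩
  have h := hsing _ (hsingxy y hy)
  rw [hval y hy] at h
  push_cast
  rw [hεc]
  linear_combination h

end Cfsg.Agent.Lib.Helper7.BDef2
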