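import Mathlib
import Cfsg.Prelude.Def_Blocks
import Cfsg.Agent.Lib.Helper2.BlockReg3
import Cfsg.Agent.Lib.Helper2.BlockLam
import Cfsg.Agent.Lib.Helper7.Brauer11
import Cfsg.Agent.Lib.Helper7.Brauer12
import Cfsg.Agent.Lib.Helper7.BPair2
import Cfsg.Agent.Lib.Helper7.BCount1
import Cfsg.Agent.Lib.Helper7.BSpan1
import Cfsg.Agent.Lib.Helper7.BFeit1
import Cfsg.Agent.Lib.Helper7.BRank1
import Cfsg.Agent.Lib.Helper7.BRank2
import Cfsg.Agent.Lib.Helper7.BRank3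
import Cfsg.Agent.Lib.Helper7.BRank4
import Cfsg.Agent.Lib.Helper7.BRank5
import Cfsg.Agent.S4733
import Cfsg.Agent.S0928
import Cfsg.Agent.Lib.Helper7.BDef1
import Cfsg.Agent.Lib.Helper2.BlockSM3
import Cfsg.Agent.Lib.Helper7.BPair1
import Cfsg.Agent.Lib.Helper7.BSub1
import Cfsg.Agent.Lib.Helper2.BlockSM7

set_option autoImplicit false
set_option linter.unusedSectionVars false
set_option linter.unusedVariables false
set_option linter.style.haveILetI false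

/-! A character of defect at most one lies in a block of defect at most one. -/

namespace Cfsg.Agent.Lib.Helper7.BHt1

open Cfsg Cfsg.Agent.Lib.Helper7.CharIrr Cfsg.Agent.Lib.Helper7.CharOrth
  Cfsg.Agent.Lib.Helper7.CharIntegral Cfsg.Agent.Lib.Helper7.CharMore
  Cfsg.Agent.Lib.Helper7.CharClassAlg Cfsg.Agent.Lib.Helper7.CharComplete
  Cfsg.Agent.Lib.Helper7.CharDeg Cfsg.Agent.Lib.Helper7.CharGalois
  Cfsg.Agent.Lib.Helper7.CharClassAlg2 Cfsg.Agent.Lib.Helper7.CharInd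
  Cfsg.Agent.Lib.Helper7.CharBasic Cfsg.Agent.Lib.Helper7.CharGen Cfsg.Agent.Lib.Helper7.CharRes
  Cfsg.Agent.Lib.Helper7.Brauer11 Cfsg.Agent.Lib.Helper7.Brauer12
  Cfsg.Agent.Lib.Helper2.LocRing Cfsg.Agent.Lib.Helper2.BlockLam
  Cfsg.Agent.Lib.Helper2.BlockZ Cfsg.Agent.Lib.Helper2.BlockDef Cfsg.Agent.Lib.Helper2.BlockCong
  Cfsg.Agent.Lib.Helper2.BlockHt Cfsg.Agent.Lib.Helper2.BlockReg Cfsg.Agent.Lib.Helper2.BlockBr2
  Cfsg.Agent.Lib.Helper2.BlockSub Cfsg.Agent.Lib.Helper2.BlockReg2 Cfsg.Agent.Lib.Helper2.BlockReg3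
open scoped ComplexConjugate

variable {G : Type*} [Group G] [Fintype G]

open Cfsg.Agent.Lib.Helper7.BCount1 Cfsg.Agent.Lib.Helper7.BSpan1 Cfsg.Agent.Lib.Helper7.BPair2
  Cfsg.Agent.Lib.Helper7.BRank1 Cfsg.Agent.Lib.Helper7.BFeit1 Cfsg.Agent.Lib.Helper7.BSub1
  Cfsg.Agent.Lib.Helper7.BRank2 Cfsg.Agent.Lib.Helper7.BRank4 Cfsg.Agent.Lib.Helper2.BlockSM3
  Cfsg.Agent.Lib.Helper2.BlockSM4 Cfsg.Agent.Lib.Helper2.BlockSM5 Cfsg.Agent.Lib.Helper2.BlockSM7
  Cfsg.Agent.Lib.Helper7.BRank5 Cfsg.Agent.Lib.Helper7.BDef1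

/-- if the regular part has norm one, the character has defect zero -/
theorem full_of_norm_one (p : ℕ) [Fact p.Prime] (χ : IrrCharacter G)
    (h : classInner (pReg p (χ : G → ℂ)) (pReg p (χ : G → ℂ)) = 1) :
    (charDegree (χ : G → ℂ)).factorization p = (Nat.card G).factorization p := by
  classical
  apply Cfsg.Agent.S0928.result p χ
  intro g hg
  have h1 := h
  rw [classInner_self_eq] at h1
  have h2 := classInner_self_eq (χ : G → ℂ)
  rw [classInner_irr χ.2 χ.2, if_pos rfl] at h2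
  have h1' : (Nat.card G : ℝ)⁻¹ * ∑ g : G, ‖pReg p (χ : G → ℂ) g‖ ^ 2 = 1 := by
    exact_mod_cast h1
  have h2' : (Nat.card G : ℝ)⁻¹ * ∑ g : G, ‖(χ : G → ℂ) g‖ ^ 2 = 1 := by
    exact_mod_cast h2.symm
  have hG : (Nat.card G : ℝ)⁻¹ ≠ 0 := by
    have : (Nat.card G : ℝ) ≠ 0 := by exact_mod_cast Nat.card_pos.ne'
    exact inv_ne_zero this
  have h4 : ∑ g : G, ‖pReg p (χ : G → ℂ) g‖ ^ 2 = ∑ g : G, ‖(χ : G → ℂ) g‖ ^ 2 :=
    mul_left_cancel₀ hG (h1'.trans h2'.symm)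
  have h5 := (Finset.sum_eq_sum_iff_of_le (s := Finset.univ)
    (f := fun g : G => ‖pReg p (χ : G → ℂ) g‖ ^ 2)
    (g := fun g : G => ‖(χ : G → ℂ) g‖ ^ 2) (by
      intro g _
      simp only [pReg]
      split_ifs
      · simp
      · exact le_rfl)).mp h4 g (Finset.mem_univ g)
  simp only [pReg] at h5
  rw [if_pos (by rw [hg])] at h5
  simp only [norm_zero] at h5
  have h6 : ‖(χ : G → ℂ) g‖ = 0 := by
    have : ‖(χ : G → ℂ) g‖ ^ 2 = 0 := by rw [← h5]; norm_num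
    exact pow_eq_zero_iff (two_ne_zero) |>.mp this
  exact norm_eq_zero.mp h6

theorem defect_le_one {M : Ideal AlgInt} {p : ℕ} [Fact p.Prime] (hM : IsPModular p M)
    {B : Set (IrrCharacter G)} (hB : IsPBlock M B) {χ ψ : IrrCharacter G} (hχ : χ ∈ B)
    (hψ : ψ ∈ B)
    (hdiv : p ^ ((Nat.card G).factorization p - 1) ∣ charDegree (χ : G → ℂ)) :
    p ^ ((Nat.card G).factorization p - 1) ∣ charDegree (ψ : G → ℂ) := by
  classical
  haveI := hM.2.1.isPrime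
  have hp := hM.1
  obtain ⟨a, ha⟩ : ∃ a, a = (Nat.card G).factorization p := ⟨_, rfl⟩
  obtain ⟨ν, hν⟩ : ∃ ν, ν = (charDegree (χ : G → ℂ)).factorization p := ⟨_, rfl⟩
  rw [← ha] at hdiv ⊢
  have hν1 : a - 1 ≤ ν := by
    rw [hν]
    exact (Nat.Prime.pow_dvd_iff_le_factorization hp (charDegree_pos χ.2).ne').mp hdiv
  have hν2 : ν ≤ a := by
    rw [hν, ha]
    exact (Nat.factorization_le_iff_dvd (charDegree_pos χ.2).ne' Nat.card_pos.ne').mpr
      (charDegree_dvd_card χ.2) p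
  obtain ⟨e, he⟩ : ∃ e, e = a - ν := ⟨_, rfl⟩
  have he1 : e ≤ 1 := by omega
  have hgen := isGen_pow_pReg p hp χ
  rw [← ha, ← hν, ← he] at hgen
  obtain ⟨aχ, haχ⟩ := classInner_gen_int hgen (IsIrrCharacter.isCharacter χ.2)
  obtain ⟨aψ, haψ⟩ := classInner_gen_int hgen (IsIrrCharacter.isCharacter ψ.2)
  rw [classInner_smul_left] at haχ haψ
  obtain ⟨r, hr, hrpos⟩ := pReg_norm_pos p hp χ
  obtain ⟨r', hr', hrle⟩ := classInner_pReg_self_le p χ.2
  have hrr : r = r' := by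
    have : (r : ℂ) = (r' : ℂ) := by rw [← hr, ← hr']
    exact_mod_cast this
  rw [← hrr] at hrle
  rw [← classInner_pReg_pReg, hr] at haχ
  have haχ' : ((p ^ e : ℕ) : ℝ) * r = (aχ : ℝ) := by exact_mod_cast haχ
  have hpe : (0 : ℝ) < ((p ^ e : ℕ) : ℝ) := by exact_mod_cast pow_pos hp.pos e
  have haχpos : 0 < aχ := by
    have : (0 : ℝ) < (aχ : ℝ) := by rw [← haχ']; positivity
    exact_mod_cast this
  have hnd : ¬ (p : ℤ) ∣ aχ := by
    intro hd
    have h1 : (p : ℤ) ≤ aχ := Int.le_of_dvd haχpos hd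
    have h2 : (p : ℝ) ≤ (aχ : ℝ) := by exact_mod_cast h1
    have h3 : (aχ : ℝ) ≤ ((p ^ e : ℕ) : ℝ) := by
      rw [← haχ']
      exact mul_le_of_le_one_right hpe.le hrle
    interval_cases e
    · have h4 : (p : ℝ) ≤ 1 := by
        have := h2.trans h3
        simpa using this
      have h5 : (1 : ℝ) < (p : ℝ) := by exact_mod_cast hp.one_lt
      linarith
    · have h4 : r = 1 := by
        have h5 : (p : ℝ) ≤ (p : ℝ) * r := by
          have := haχ'
          simp only [pow_one] at this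
          rw [this]
          exact h2
        have h6 : (0 : ℝ) < (p : ℝ) := by exact_mod_cast hp.pos
        have h7 : 1 ≤ r := by
          have h8 : (p : ℝ) * 1 ≤ (p : ℝ) * r := by rw [mul_one]; exact h5
          exact le_of_mul_le_mul_left h8 h6
        linarith
      have h9 := full_of_norm_one p χ (by rw [hr, h4]; simp)
      rw [← hν, ← ha] at h9
      omega
  obtain ⟨A, hA⟩ : ∃ A : ℕ, (A : ℤ) = aχ := ⟨aχ.toNat, Int.toNat_of_nonneg haχpos.le⟩
  have hndA : ¬ p ∣ A := by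
    intro h
    apply hnd
    rw [← hA]
    exact_mod_cast h
  -- the cofactor of the degree of χ
  obtain ⟨u, hu⟩ : ∃ u, u = Nat.card G / charDegree (χ : G → ℂ) := ⟨_, rfl⟩
  have hmul : charDegree (χ : G → ℂ) * u = Nat.card G := by
    rw [hu]
    exact Nat.mul_div_cancel' (charDegree_dvd_card χ.2)
  have hu0 : u ≠ 0 := by
    rintro rfl
    rw [mul_zero] at hmul
    exact Nat.card_pos.ne' hmul.symm
  have huf : u.factorization p = e := by
    rw [hu, Nat.factorization_div (charDegree_dvd_card χ.2)]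
    simp only [Finsupp.coe_tsub, Pi.sub_apply]
    rw [← ha, ← hν, he]
  obtain ⟨m, hm⟩ : ∃ m, m = u / p ^ e := ⟨_, rfl⟩
  have hum : p ^ e * m = u := by
    rw [hm, ← huf]
    exact Nat.ordProj_mul_ordCompl_eq_self u p
  have hmnd : ¬ p ∣ m := by
    rw [hm, ← huf]
    exact Nat.not_dvd_ordCompl hp hu0
  have hGc : (Nat.card G : ℂ) ≠ 0 := Nat.cast_ne_zero.mpr Nat.card_pos.ne'
  have hχ1 := irr_one_ne_zero χ.2
  have hψ1 := irr_one_ne_zero ψ.2
  have hWχ : W (χ : G → ℂ) (creg p (χ : G → ℂ)) = ((m * A : ℕ) : ℂ) := by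
    have h1 := conj_classInner_pReg p (χ : G → ℂ) (χ : G → ℂ) hχ1
    rw [← classInner_pReg_pReg, hr, Complex.conj_ofReal] at h1
    have h2 : (Nat.card G : ℂ) = (χ : G → ℂ) 1 * (((p ^ e : ℕ) : ℂ) * (m : ℂ)) := by
      rw [← charDegree_cast (IsIrrCharacter.isCharacter χ.2)]
      exact_mod_cast (by rw [hum]; exact hmul.symm)
    have h3 : (A : ℂ) = ((p ^ e : ℕ) : ℂ) * (r : ℂ) := by
      rw [haχ, ← hA]
      push_cast
      rfl
    have h4 : (Nat.card G : ℂ) * (r : ℂ) =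
        (χ : G → ℂ) 1 * W (χ : G → ℂ) (creg p (χ : G → ℂ)) := by
      rw [h1]
      field_simp
    rw [h2] at h4
    have h5 : (χ : G → ℂ) 1 * ((m : ℂ) * (A : ℂ)) =
        (χ : G → ℂ) 1 * W (χ : G → ℂ) (creg p (χ : G → ℂ)) := by
      rw [← h4, h3]
      ring
    push_cast
    exact (mul_left_cancel₀ hχ1 h5).symm
  have hF : W (χ : G → ℂ) (creg p (χ : G → ℂ)) ∉ Iloc M := by
    rw [hWχ, natCast_mem_Iloc_iff hM]
    intro h
    rcases (Nat.Prime.dvd_mul hp).mp h with h | h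
    · exact hmnd h
    · exact hndA h
  have hχc := IsIrrCharacter.isClassFunction χ.2
  have h1 := W_sub_mem_Iloc (sameBlock_of_mem hB hχ hψ) (creg_isClass p hχc) (creg_mem_Rloc p χ.2)
  have h2 : W (ψ : G → ℂ) (creg p (χ : G → ℂ)) ∉ Iloc M := notMem_of_sub_mem h1 hF
  by_contra hcon
  apply h2
  obtain ⟨νψ, hνψ⟩ : ∃ νψ, νψ = (charDegree (ψ : G → ℂ)).factorization p := ⟨_, rfl⟩
  have hlt : νψ < a - 1 := by
    by_contra hge
    apply hcon
    apply (Nat.Prime.pow_dvd_iff_le_factorization hp (charDegree_pos ψ.2).ne').mpr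
    rw [← hνψ]
    omega
  obtain ⟨w, hw⟩ : ∃ w, w = Nat.card G / charDegree (ψ : G → ℂ) := ⟨_, rfl⟩
  have hmulψ : charDegree (ψ : G → ℂ) * w = Nat.card G := by
    rw [hw]
    exact Nat.mul_div_cancel' (charDegree_dvd_card ψ.2)
  have hw0 : w ≠ 0 := by
    rintro rfl
    rw [mul_zero] at hmulψ
    exact Nat.card_pos.ne' hmulψ.symm
  have hwf : w.factorization p = a - νψ := by
    rw [hw, Nat.factorization_div (charDegree_dvd_card ψ.2)]
    simp only [Finsupp.coe_tsub, Pi.sub_apply]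
    rw [← ha, ← hνψ]
  obtain ⟨w', hw'⟩ : p ^ (e + 1) ∣ w := by
    apply (Nat.Prime.pow_dvd_iff_le_factorization hp hw0).mpr
    rw [hwf]
    omega
  have h3 := conj_classInner_pReg p (χ : G → ℂ) (ψ : G → ℂ) hψ1
  have h4 : ((p ^ e : ℕ) : ℂ) * conj (classInner (pReg p (χ : G → ℂ)) (ψ : G → ℂ)) = (aψ : ℂ) := by
    have := congrArg conj haψ
    rw [map_mul, Complex.conj_natCast, map_intCast] at this
    exact this
  have h5 : (Nat.card G : ℂ) = (ψ : G → ℂ) 1 * (((p ^ e : ℕ) : ℂ) * (p : ℂ) * (w' : ℂ)) := by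
    rw [← charDegree_cast (IsIrrCharacter.isCharacter ψ.2)]
    have : Nat.card G = charDegree (ψ : G → ℂ) * (p ^ e * p * w') := by
      rw [← pow_succ, ← hw']
      exact hmulψ.symm
    exact_mod_cast this
  have h6 : (Nat.card G : ℂ) * conj (classInner (pReg p (χ : G → ℂ)) (ψ : G → ℂ)) =
      (ψ : G → ℂ) 1 * W (ψ : G → ℂ) (creg p (χ : G → ℂ)) := by
    rw [h3]
    field_simp
  rw [h5] at h6
  have h7 : (ψ : G → ℂ) 1 * ((p : ℂ) * ((w' : ℂ) * (aψ : ℂ))) =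
      (ψ : G → ℂ) 1 * W (ψ : G → ℂ) (creg p (χ : G → ℂ)) := by
    rw [← h6, ← h4]
    ring
  rw [← mul_left_cancel₀ hψ1 h7]
  apply mul_mem_Iloc' ((natCast_mem_Iloc_iff hM p).mpr dvd_rfl)
  exact (Rloc M).mul_mem (natCast_mem_Rloc w') (intCast_mem _ aψ)

end Cfsg.Agent.Lib.Helper7.BHt1
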