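import Mathlib
import Cfsg.Prelude.Def_Blocks
import Cfsg.Agent.Lib.Helper2.BlockReg3
import Cfsg.Agent.Lib.Helper2.BlockLam
import Cfsg.Agent.Lib.Helper7.Brauer11
import Cfsg.Agent.Lib.Helper7.Brauer12
import Cfsg.Agent.Lib.Helper7.BPair2
import Cfsg.Agent.Lib.Helper7.BCount1
import Cfsg.Agent.Lib.Helper7.BSpan1
import Cfsg.Agent.Lib.Helper7.BFeit1
import Cfsg.Agent.Lib.Helper7.BRank1
import Cfsg.Agent.Lib.Helper7.BRank2
import Cfsg.Agent.Lib.Helper7.BRank3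
import Cfsg.Agent.Lib.Helper7.BRank4
import Cfsg.Agent.Lib.Helper7.BRank5
import Cfsg.Agent.S4733
import Cfsg.Agent.S0928
import Cfsg.Agent.Lib.Helper7.BDef1
import Cfsg.Agent.Lib.Helper7.BHt1
import Cfsg.Agent.Lib.Helper2.BlockSM3
import Cfsg.Agent.Lib.Helper7.BPair1
import Cfsg.Agent.Lib.Helper7.BSub1
import Cfsg.Agent.Lib.Helper2.BlockSM7

set_option autoImplicit false
set_option linter.unusedSectionVars false
set_option linter.unusedVariables false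
set_option linter.style.haveILetI false

/-! Brauer-Feit: heights and the sharper bound in the presence of positive heights. -/

namespace Cfsg.Agent.Lib.Helper7.BHt2

open Cfsg Cfsg.Agent.Lib.Helper7.CharIrr Cfsg.Agent.Lib.Helper7.CharOrth
  Cfsg.Agent.Lib.Helper7.CharIntegral Cfsg.Agent.Lib.Helper7.CharMore
  Cfsg.Agent.Lib.Helper7.CharClassAlg Cfsg.Agent.Lib.Helper7.CharComplete
  Cfsg.Agent.Lib.Helper7.CharDeg Cfsg.Agent.Lib.Helper7.CharGalois
  Cfsg.Agent.Lib.Helper7.CharClassAlg2 Cfsg.Agent.Lib.Helper7.CharInd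
  Cfsg.Agent.Lib.Helper7.CharBasic Cfsg.Agent.Lib.Helper7.CharGen Cfsg.Agent.Lib.Helper7.CharRes
  Cfsg.Agent.Lib.Helper7.Brauer11 Cfsg.Agent.Lib.Helper7.Brauer12
  Cfsg.Agent.Lib.Helper2.LocRing Cfsg.Agent.Lib.Helper2.BlockLam
  Cfsg.Agent.Lib.Helper2.BlockZ Cfsg.Agent.Lib.Helper2.BlockDef Cfsg.Agent.Lib.Helper2.BlockCong
  Cfsg.Agent.Lib.Helper2.BlockHt Cfsg.Agent.Lib.Helper2.BlockReg Cfsg.Agent.Lib.Helper2.BlockBr2
  Cfsg.Agent.Lib.Helper2.BlockSub Cfsg.Agent.Lib.Helper2.BlockReg2 Cfsg.Agent.Lib.Helper2.BlockReg3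
open scoped ComplexConjugate

variable {G : Type*} [Group G] [Fintype G]

open Cfsg.Agent.Lib.Helper7.BCount1 Cfsg.Agent.Lib.Helper7.BSpan1 Cfsg.Agent.Lib.Helper7.BPair2
  Cfsg.Agent.Lib.Helper7.BRank1 Cfsg.Agent.Lib.Helper7.BFeit1 Cfsg.Agent.Lib.Helper7.BSub1
  Cfsg.Agent.Lib.Helper7.BRank2 Cfsg.Agent.Lib.Helper7.BRank4 Cfsg.Agent.Lib.Helper2.BlockSM3
  Cfsg.Agent.Lib.Helper2.BlockSM4 Cfsg.Agent.Lib.Helper2.BlockSM5 Cfsg.Agent.Lib.Helper2.BlockSM7
  Cfsg.Agent.Lib.Helper7.BRank5 Cfsg.Agent.Lib.Helper7.BDef1 Cfsg.Agent.Lib.Helper7.BHt1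

theorem card_height_zero_le {M : Ideal AlgInt} {p : ℕ} [Fact p.Prime] (hM : IsPModular p M)
    {B : Set (IrrCharacter G)} (hB : IsPBlock M B) (S : Finset (IrrCharacter G))
    (hS : ∀ ψ, ψ ∈ S ↔ ψ ∈ B) {χ : IrrCharacter G} (hχ : χ ∈ B)
    (hpos : 0 < blockHeight p B (χ : G → ℂ)) :
    4 * (S.filter (fun ψ : IrrCharacter G => blockHeight p B (ψ : G → ℂ) = 0)).card ≤
      (p ^ ((Nat.card G).factorization p - (charDegree (χ : G → ℂ)).factorization p)) ^ 2 := by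
  classical
  haveI := Fintype.ofFinite (IrrCharacter G)
  haveI := hM.2.1.isPrime
  have hp : p.Prime := hM.1
  obtain ⟨e, he⟩ : ∃ e, e = (Nat.card G).factorization p -
      (charDegree (χ : G → ℂ)).factorization p := ⟨_, rfl⟩
  rw [← he]
  have hgen := isGen_pow_pReg p hp χ
  rw [← he] at hgen
  obtain ⟨c, hc, -⟩ := gen_eq_sum hgen
  have hnorm := norm_gen (isGen_isClassFunction hgen) c hc
  rw [classInner_smul_right, Complex.conj_natCast, classInner_smul_left, classInner_pReg_pReg,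
    ← classInner_smul_left, hc χ] at hnorm
  have hnorm' : ((p ^ e : ℕ) : ℤ) * c χ = ∑ ψ : IrrCharacter G, c ψ ^ 2 := by exact_mod_cast hnorm
  obtain ⟨S₀, hS₀⟩ : ∃ S₀, S₀ = S.filter
      (fun ψ : IrrCharacter G => blockHeight p B (ψ : G → ℂ) = 0) := ⟨_, rfl⟩
  rw [← hS₀]
  have hne : ∀ ψ ∈ S₀, c ψ ≠ 0 := by
    intro ψ hψ hz
    rw [hS₀] at hψ
    obtain ⟨hψS, hψ0⟩ := Finset.mem_filter.mp hψ
    have h4 := hc ψ
    rw [hz, classInner_smul_left, classInner_pReg_swap, ← classInner_conj_symm] at h4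
    have h5 := classInner_pReg_ne_zero hM hB ((hS ψ).mp hψS) hχ hψ0
    have h6 : ((p ^ e : ℕ) : ℂ) ≠ 0 := Nat.cast_ne_zero.mpr (pow_pos hp.pos e).ne'
    simp only [Int.cast_zero] at h4
    have h7 := (mul_eq_zero.mp h4).resolve_left h6
    exact h5 ((map_eq_zero _).mp h7)
  have hsub : S₀ ⊆ Finset.univ.erase χ := by
    intro ψ hψ
    rw [hS₀] at hψ
    refine Finset.mem_erase.mpr ⟨?_, Finset.mem_univ _⟩
    rintro rfl
    have := (Finset.mem_filter.mp hψ).2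
    omega
  have h1 : (S₀.card : ℤ) ≤ ∑ ψ ∈ Finset.univ.erase χ, c ψ ^ 2 := by
    calc (S₀.card : ℤ) = ∑ ψ ∈ S₀, (1 : ℤ) := by simp
      _ ≤ ∑ ψ ∈ S₀, c ψ ^ 2 := by
          apply Finset.sum_le_sum
          intro ψ hψ
          have h2 : 0 < c ψ ^ 2 := by
            have := hne ψ hψ
            positivity
          omega
      _ ≤ ∑ ψ ∈ Finset.univ.erase χ, c ψ ^ 2 :=
          Finset.sum_le_sum_of_subset_of_nonneg hsub (fun ψ _ _ => by positivity)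
  have hsplit : ∑ ψ : IrrCharacter G, c ψ ^ 2 =
      c χ ^ 2 + ∑ ψ ∈ Finset.univ.erase χ, c ψ ^ 2 :=
    (Finset.add_sum_erase _ _ (Finset.mem_univ χ)).symm
  have h9 : ∑ ψ ∈ Finset.univ.erase χ, c ψ ^ 2 = ((p ^ e : ℕ) : ℤ) * c χ - c χ ^ 2 := by
    rw [hnorm', hsplit]
    ring
  rw [h9] at h1
  have hfin : (4 : ℤ) * (S₀.card : ℤ) ≤ (((p ^ e) ^ 2 : ℕ) : ℤ) := by
    push_cast at h1 ⊢
    nlinarith [sq_nonneg ((p : ℤ) ^ e - 2 * c χ)]
  exact_mod_cast hfin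

theorem heights {M : Ideal AlgInt} {p : ℕ} [Fact p.Prime] (hM : IsPModular p M)
    {B : Set (IrrCharacter G)} (hB : IsPBlock M B) (d : ℕ) (hd : blockDefect p B = d) :
    ((∃ χ ∈ B, 0 < blockHeight p B (χ : G → ℂ)) → 2 * Nat.card B ≤ p ^ (2 * d - 2)) ∧
      ∀ χ ∈ B, (d ≤ 1 → blockHeight p B (χ : G → ℂ) = 0) ∧
        (2 ≤ d → blockHeight p B (χ : G → ℂ) ≤ d - 2) := by
  classical
  haveI := Fintype.ofFinite (IrrCharacter G)
  haveI := hM.2.1.isPrime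
  have hp : p.Prime := hM.1
  obtain ⟨S, hSdef⟩ : ∃ S, S = (Set.toFinite B).toFinset := ⟨_, rfl⟩
  have hS : ∀ χ, χ ∈ S ↔ χ ∈ B := fun χ => by rw [hSdef]; exact Set.Finite.mem_toFinset _
  have hcard : Nat.card B = S.card := by
    rw [Nat.card_coe_set_eq, Set.ncard_eq_toFinset_card B (Set.toFinite B), hSdef]
  obtain ⟨ψ₀, hψ₀, h0⟩ := exists_height_zero (p := p) (block_nonempty hB)
  obtain ⟨s, hs⟩ : ∃ s, s = sInf ((fun χ : IrrCharacter G =>
    (charDegree (χ : G → ℂ)).factorization p) '' B) := ⟨_, rfl⟩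
  obtain ⟨a, ha⟩ : ∃ a, a = (Nat.card G).factorization p := ⟨_, rfl⟩
  have hda : d = a - s := by rw [← hd, ha, hs]; rfl
  have hsle : ∀ ψ ∈ B, s ≤ (charDegree (ψ : G → ℂ)).factorization p := by
    intro ψ hψ
    rw [hs]
    exact Nat.sInf_le (Set.mem_image_of_mem _ hψ)
  have hlea : ∀ ψ : IrrCharacter G, (charDegree (ψ : G → ℂ)).factorization p ≤ a := by
    intro ψ
    rw [ha]
    exact (Nat.factorization_le_iff_dvd (charDegree_pos ψ.2).ne' Nat.card_pos.ne').mpr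
      (charDegree_dvd_card ψ.2) p
  have hh : ∀ ψ : IrrCharacter G, blockHeight p B (ψ : G → ℂ) =
      (charDegree (ψ : G → ℂ)).factorization p - s := by
    intro ψ
    rw [hs]; rfl
  have hψs : (charDegree (ψ₀ : G → ℂ)).factorization p = s := by
    have h1 := hsle ψ₀ hψ₀
    have h2 := hh ψ₀
    omega
  have hbf := brauer_feit hM hB S hS
  rw [hd] at hbf
  have hsplit := Finset.sum_filter_add_sum_filter_not S
    (fun ψ : IrrCharacter G => blockHeight p B (ψ : G → ℂ) = 0)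
    (fun ψ : IrrCharacter G => p ^ (2 * blockHeight p B (ψ : G → ℂ)))
  have hA : (S.filter (fun ψ : IrrCharacter G => blockHeight p B (ψ : G → ℂ) = 0)).card • 1 ≤
      ∑ ψ ∈ S.filter (fun ψ : IrrCharacter G => blockHeight p B (ψ : G → ℂ) = 0),
        p ^ (2 * blockHeight p B (ψ : G → ℂ)) :=
    Finset.card_nsmul_le_sum _ _ _ (fun ψ _ => Nat.one_le_pow _ _ hp.pos)
  have hB' : (S.filter (fun ψ : IrrCharacter G => ¬ blockHeight p B (ψ : G → ℂ) = 0)).card •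
      (p ^ 2) ≤ ∑ ψ ∈ S.filter (fun ψ : IrrCharacter G => ¬ blockHeight p B (ψ : G → ℂ) = 0),
        p ^ (2 * blockHeight p B (ψ : G → ℂ)) := by
    apply Finset.card_nsmul_le_sum
    intro ψ hψ
    have h1 := (Finset.mem_filter.mp hψ).2
    exact Nat.pow_le_pow_right hp.pos (by omega)
  have hC := Finset.card_filter_add_card_filter_not (s := S)
    (fun ψ : IrrCharacter G => blockHeight p B (ψ : G → ℂ) = 0)
  have hk0 : 0 < (S.filter (fun ψ : IrrCharacter G => blockHeight p B (ψ : G → ℂ) = 0)).card :=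
    Finset.card_pos.mpr ⟨ψ₀, Finset.mem_filter.mpr ⟨(hS ψ₀).mpr hψ₀, h0⟩⟩
  simp only [smul_eq_mul, mul_one] at hA hB'
  obtain ⟨k₀, hk₀⟩ : ∃ k₀, k₀ = (S.filter
      (fun ψ : IrrCharacter G => blockHeight p B (ψ : G → ℂ) = 0)).card := ⟨_, rfl⟩
  obtain ⟨k₁, hk₁⟩ : ∃ k₁, k₁ = (S.filter
      (fun ψ : IrrCharacter G => ¬ blockHeight p B (ψ : G → ℂ) = 0)).card := ⟨_, rfl⟩
  rw [← hk₀] at hA hC hk0
  rw [← hk₁] at hB' hC
  have hmain : k₁ * p ^ 2 ≤ (p ^ d) ^ 2 / 4 := by omega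
  have hmain' : 4 * (k₁ * p ^ 2) ≤ (p ^ d) ^ 2 := by
    have := Nat.div_mul_le_self ((p ^ d) ^ 2) 4
    omega
  refine ⟨?_, ?_⟩
  · rintro ⟨χ, hχ, hpos⟩
    have h1 := card_height_zero_le hM hB S hS hχ hpos
    rw [← hk₀, ← ha] at h1
    have h2 := hsle χ hχ
    have h3 := hlea χ
    have h4 := hh χ
    have hd1 : 1 ≤ d := by omega
    have e1 : (p ^ d) ^ 2 = p ^ (2 * d - 2) * p ^ 2 := by
      rw [← pow_mul, ← pow_add]
      congr 1
      omega
    have h5 : 4 * k₁ ≤ p ^ (2 * d - 2) := by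
      rw [e1] at hmain'
      have h6 : (4 * k₁) * p ^ 2 ≤ p ^ (2 * d - 2) * p ^ 2 := by
        calc (4 * k₁) * p ^ 2 = 4 * (k₁ * p ^ 2) := by ring
          _ ≤ _ := hmain'
      exact Nat.le_of_mul_le_mul_right h6 (pow_pos hp.pos 2)
    have h7 : (p ^ (a - (charDegree (χ : G → ℂ)).factorization p)) ^ 2 ≤ p ^ (2 * d - 2) := by
      rw [← pow_mul]
      exact Nat.pow_le_pow_right hp.pos (by omega)
    rw [hcard]
    omega
  · intro χ hχ
    have h2 := hsle χ hχ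
    have h3 := hlea χ
    have h4 := hh χ
    constructor
    · intro hd1
      by_contra hne
      have hχ1 : χ ∈ S.filter (fun ψ : IrrCharacter G => ¬ blockHeight p B (ψ : G → ℂ) = 0) :=
        Finset.mem_filter.mpr ⟨(hS χ).mpr hχ, hne⟩
      have hk1 : 0 < k₁ := by
        rw [hk₁]
        exact Finset.card_pos.mpr ⟨χ, hχ1⟩
      have h5 : (p ^ d) ^ 2 ≤ p ^ 2 := by
        rw [← pow_mul]
        exact Nat.pow_le_pow_right hp.pos (by omega)
      have h6 : 0 < p ^ 2 := pow_pos hp.pos 2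
      nlinarith
    · intro hd2
      by_contra hgt
      have h5 : a - 1 ≤ (charDegree (χ : G → ℂ)).factorization p := by omega
      have h6 : p ^ ((Nat.card G).factorization p - 1) ∣ charDegree (χ : G → ℂ) := by
        rw [← ha]
        exact (Nat.Prime.pow_dvd_iff_le_factorization hp (charDegree_pos χ.2).ne').mpr h5
      have h7 := defect_le_one hM hB hχ hψ₀ h6
      rw [← ha] at h7
      have h8 := (Nat.Prime.pow_dvd_iff_le_factorization hp (charDegree_pos ψ₀.2).ne').mp h7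
      omega

end Cfsg.Agent.Lib.Helper7.BHt2
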