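import Mathlib
import Cfsg.Prelude.Def_Blocks
import Cfsg.Agent.Lib.Helper7.BInd1
import Cfsg.Agent.S0973
import Cfsg.Agent.S0936

set_option autoImplicit false
set_option linter.unusedSectionVars false
set_option linter.unusedVariables false
set_option linter.style.haveILetI false

/-! A block with defect group `D` is induced from a block of at least the same defect of any
subgroup containing `D C(D)`. -/

namespace Cfsg.Agent.Lib.Helper7.BInd2

open Cfsg Cfsg.Agent.Lib.Helper7.CharIrr Cfsg.Agent.Lib.Helper7.CharOrth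
  Cfsg.Agent.Lib.Helper7.CharIntegral Cfsg.Agent.Lib.Helper7.CharMore
  Cfsg.Agent.Lib.Helper7.CharClassAlg Cfsg.Agent.Lib.Helper7.CharComplete
  Cfsg.Agent.Lib.Helper7.CharBurnside
  Cfsg.Agent.Lib.Helper2.LocRing Cfsg.Agent.Lib.Helper2.CentralMod
  Cfsg.Agent.Lib.Helper2.BlockZ Cfsg.Agent.Lib.Helper2.BlockOrth Cfsg.Agent.Lib.Helper2.BlockFix
  Cfsg.Agent.Lib.Helper2.BlockLam Cfsg.Agent.Lib.Helper2.BlockN Cfsg.Agent.Lib.Helper2.BlockSub
  Cfsg.Agent.Lib.Helper2.BlockAvg Cfsg.Agent.Lib.Helper2.BlockBr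
  Cfsg.Agent.Lib.Helper2.BlockExt Cfsg.Agent.Lib.Helper2.BlockExt2 Cfsg.Agent.Lib.Helper7.BPair2
  Cfsg.Agent.Lib.Helper7.BInd1
open scoped ComplexConjugate

variable {G : Type*} [Group G] [Fintype G]

theorem exists_induced_ge {M : Ideal AlgInt} {p : ℕ} [Fact p.Prime] (hM : IsPModular p M)
    {B : Set (IrrCharacter G)} (hB : IsPBlock M B) {D : Subgroup G} (hD : IsDefectGroup p M B D)
    (H : Subgroup G) (hH : D ⊔ Subgroup.centralizer (D : Set G) ≤ H) :
    ∃ b : Set (IrrCharacter H), IsInducedBlock M H b B ∧ blockDefect p B ≤ blockDefect p b := by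
  classical
  haveI := hM.2.1.isPrime
  have hDp := isPGroup_defectGroup hD
  obtain ⟨⟨β, hβD, hβ⟩, -⟩ := Cfsg.Agent.S0973.result p M hM B hB D hD
  have hDH : D ≤ H := le_sup_left.trans hH
  have hP' : IsPGroup p (D.subgroupOf H) :=
    IsPGroup.comap_of_injective hDp _ (Subgroup.subtype_injective _)
  have h1 : D.subgroupOf H ≤ (D ⊔ Subgroup.centralizer (D : Set G)).subgroupOf H := by
    intro x hx
    exact Subgroup.mem_subgroupOf.mpr (le_sup_left (a := D) (Subgroup.mem_subgroupOf.mp hx))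
  have h2 : Subgroup.centralizer ((D.subgroupOf H : Subgroup H) : Set H) ≤
      (D ⊔ Subgroup.centralizer (D : Set G)).subgroupOf H := by
    intro x hx
    rw [Subgroup.mem_subgroupOf]
    apply le_sup_right (a := D)
    rw [Subgroup.mem_centralizer_iff] at hx ⊢
    intro q hq
    exact congrArg Subtype.val (hx ⟨q, hDH hq⟩ (Subgroup.mem_subgroupOf.mpr hq))
  have h3 : (D ⊔ Subgroup.centralizer (D : Set G)).subgroupOf H ≤
      Subgroup.normalizer ((D.subgroupOf H : Subgroup H) : Set H) := by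
    intro x hx
    have hx' := sup_le_normalizer D (Subgroup.mem_subgroupOf.mp hx)
    rw [Subgroup.mem_normalizer_iff] at hx' ⊢
    intro h
    rw [Subgroup.mem_subgroupOf, Subgroup.mem_subgroupOf]
    exact hx' h
  obtain ⟨b, hb, -⟩ := exists_isInducedBlock (G := H) hM hP' h1 h2 h3
    (trSet_isPBlock (M := M) (Subgroup.subgroupOfEquivOfLe hH) hβ.1)
  refine ⟨b, induced_trans hH hb hβ, ?_⟩
  have c1 := defect_le_of_induced hM hb
  rw [blockDefect_trSet] at c1
  have c2 := card_defectGroup hM hβ.1 hβD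
  have c3 := card_defectGroup hM hB hD
  have c4 : Nat.card (D.subgroupOf (D ⊔ Subgroup.centralizer (D : Set G))) = Nat.card D :=
    Nat.card_congr (Subgroup.subgroupOfEquivOfLe le_sup_left).toEquiv
  rw [c4, c3] at c2
  have c5 := Nat.pow_right_injective hM.1.two_le c2
  rw [c5]
  exact c1

end Cfsg.Agent.Lib.Helper7.BInd2
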