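import Mathlib
import Cfsg.Prelude.Def_Blocks
import Cfsg.Agent.Lib.Helper2.BlockReg3
import Cfsg.Agent.Lib.Helper2.BlockLam
import Cfsg.Agent.Lib.Helper7.Brauer11
import Cfsg.Agent.Lib.Helper7.Brauer12
import Cfsg.Agent.Lib.Helper7.BPair2
import Cfsg.Agent.Lib.Helper7.BCount1
import Cfsg.Agent.Lib.Helper7.BSpan1
import Cfsg.Agent.Lib.Helper7.BFeit1
import Cfsg.Agent.Lib.Helper7.BRank1
import Cfsg.Agent.Lib.Helper7.BRank2
import Cfsg.Agent.Lib.Helper7.BRank3
import Cfsg.Agent.Lib.Helper7.BRank4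
import Cfsg.Agent.Lib.Helper7.BRank5
import Cfsg.Agent.S4733
import Cfsg.Agent.S0936
import Cfsg.Agent.Lib.Helper7.BDef1
import Cfsg.Agent.Lib.Helper7.BDef2
import Cfsg.Agent.Lib.Helper7.CharBurnside
import Cfsg.Agent.Lib.Helper2.BlockOrth
import Cfsg.Agent.Lib.Helper2.BlockSM3
import Cfsg.Agent.Lib.Helper7.BPair1
import Cfsg.Agent.Lib.Helper7.BSub1
import Cfsg.Agent.Lib.Helper2.BlockSM7

set_option autoImplicit false
set_option linter.unusedSectionVars false
set_option linter.unusedVariables false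
set_option linter.style.haveILetI false

/-! Principal 2-blocks of groups with Sylow 2-subgroups of order four. -/

namespace Cfsg.Agent.Lib.Helper7.BKlein1

open Cfsg Cfsg.Agent.Lib.Helper7.CharIrr Cfsg.Agent.Lib.Helper7.CharOrth
  Cfsg.Agent.Lib.Helper7.CharIntegral Cfsg.Agent.Lib.Helper7.CharMore
  Cfsg.Agent.Lib.Helper7.CharClassAlg Cfsg.Agent.Lib.Helper7.CharComplete
  Cfsg.Agent.Lib.Helper7.CharDeg Cfsg.Agent.Lib.Helper7.CharGalois
  Cfsg.Agent.Lib.Helper7.CharClassAlg2 Cfsg.Agent.Lib.Helper7.CharInd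
  Cfsg.Agent.Lib.Helper7.CharBasic Cfsg.Agent.Lib.Helper7.CharGen Cfsg.Agent.Lib.Helper7.CharRes
  Cfsg.Agent.Lib.Helper7.Brauer11 Cfsg.Agent.Lib.Helper7.Brauer12
  Cfsg.Agent.Lib.Helper2.LocRing Cfsg.Agent.Lib.Helper2.BlockLam
  Cfsg.Agent.Lib.Helper2.BlockZ Cfsg.Agent.Lib.Helper2.BlockDef Cfsg.Agent.Lib.Helper2.BlockCong
  Cfsg.Agent.Lib.Helper2.BlockHt Cfsg.Agent.Lib.Helper2.BlockReg Cfsg.Agent.Lib.Helper2.BlockBr2
  Cfsg.Agent.Lib.Helper2.BlockSub Cfsg.Agent.Lib.Helper2.BlockReg2 Cfsg.Agent.Lib.Helper2.BlockReg3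
open scoped ComplexConjugate

variable {G : Type*} [Group G] [Fintype G]

open Cfsg.Agent.Lib.Helper7.BCount1 Cfsg.Agent.Lib.Helper7.BSpan1 Cfsg.Agent.Lib.Helper7.BPair2
  Cfsg.Agent.Lib.Helper7.BRank1 Cfsg.Agent.Lib.Helper7.BFeit1 Cfsg.Agent.Lib.Helper7.BSub1
  Cfsg.Agent.Lib.Helper7.BRank2 Cfsg.Agent.Lib.Helper7.BRank4 Cfsg.Agent.Lib.Helper2.BlockSM3
  Cfsg.Agent.Lib.Helper2.BlockSM4 Cfsg.Agent.Lib.Helper2.BlockSM5 Cfsg.Agent.Lib.Helper2.BlockSM7
  Cfsg.Agent.Lib.Helper7.BRank5 Cfsg.Agent.Lib.Helper7.BDef1 Cfsg.Agent.Lib.Helper7.BRank3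
  Cfsg.Agent.Lib.Helper7.BDef2 Cfsg.Agent.Lib.Helper7.CharBurnside Cfsg.Agent.Lib.Helper2.BlockOrth

theorem principal_isBlock (M : Ideal AlgInt) : IsPBlock M (principalBlock M G) :=
  ⟨⟨fun _ => 1, isIrrCharacter_one⟩, rfl⟩

theorem card_principal_eq_four {M : Ideal AlgInt} (hM : IsPModular 2 M)
    (ha : (Nat.card G).factorization 2 = 2) : Nat.card (principalBlock M G) = 4 := by
  classical
  haveI : Fact (Nat.Prime 2) := ⟨hM.1⟩
  haveI := hM.2.1.isPrime
  haveI := Fintype.ofFinite (IrrCharacter G)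
  obtain ⟨B, hBdef⟩ : ∃ B, B = principalBlock M G := ⟨_, rfl⟩
  rw [← hBdef]
  have hB : IsPBlock M B := by rw [hBdef]; exact principal_isBlock M
  obtain ⟨τ, hτ⟩ : ∃ τ : IrrCharacter G, (τ : G → ℂ) = fun _ => 1 :=
    ⟨⟨fun _ => 1, isIrrCharacter_one⟩, rfl⟩
  have hτB : τ ∈ B := by
    rw [hBdef]
    unfold principalBlock
    rw [← hτ]
    exact sameBlock_refl (M := M) _
  have hτd : charDegree (τ : G → ℂ) = 1 := charDegree_of_eq (by rw [hτ]; simp)
  have hinf : sInf ((fun χ : IrrCharacter G =>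
      (charDegree (χ : G → ℂ)).factorization 2) '' B) = 0 := by
    have h1 : sInf ((fun χ : IrrCharacter G => (charDegree (χ : G → ℂ)).factorization 2) '' B) ≤
        (charDegree (τ : G → ℂ)).factorization 2 := Nat.sInf_le ⟨τ, hτB, rfl⟩
    rw [hτd] at h1
    simpa using h1
  have hd : blockDefect 2 B = 2 := by
    unfold blockDefect
    rw [hinf, ha]
  have hh : ∀ χ : IrrCharacter G, blockHeight 2 B (χ : G → ℂ) =
      (charDegree (χ : G → ℂ)).factorization 2 := by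
    intro χ
    unfold blockHeight
    rw [hinf, Nat.sub_zero]
  obtain ⟨S, hSdef⟩ : ∃ S, S = Finset.univ.filter (fun χ : IrrCharacter G => χ ∈ B) := ⟨_, rfl⟩
  have hS : ∀ χ, χ ∈ S ↔ χ ∈ B := fun χ => by rw [hSdef]; simp
  have hcard : Nat.card B = S.card := by
    have hBS : B = ↑S := by
      ext χ
      simp [hS]
    rw [hBS, Nat.card_coe_set_eq, Set.ncard_coe_finset]
  have hbf := brauer_feit hM hB S hS
  rw [hd] at hbf
  norm_num at hbf
  have hdiv : 4 ∣ ∑ χ ∈ S, (charDegree (χ : G → ℂ)) ^ 2 := by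
    obtain ⟨Φ, hΦ⟩ : ∃ Φ : G → ℂ,
        Φ = ∑ χ ∈ S, ((charDegree (χ : G → ℂ) : ℕ) : ℂ) • (χ : G → ℂ) := ⟨_, rfl⟩
    have hgen : IsGeneralizedCharacter G Φ := by
      rw [hΦ]
      exact isGen_sum _ _ (fun χ _ => isGen_nsmul _
        (isGen_of_isCharacter (IsIrrCharacter.isCharacter χ.2)))
    have hval : ∀ g : G, Φ g = ∑ χ ∈ S, (χ : G → ℂ) 1 * (χ : G → ℂ) g := by
      intro g
      rw [hΦ, Finset.sum_apply]
      apply Finset.sum_congr rfl
      intro χ _
      rw [Pi.smul_apply, smul_eq_mul, charDegree_cast (IsIrrCharacter.isCharacter χ.2)]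
    have hvan : ∀ g : G, 2 ∣ orderOf g → Φ g = 0 := by
      intro g hg
      have h1 := weak_orth hM B (block_closed hB) 1 g⁻¹ (by rw [orderOf_one]; norm_num)
        (by rwa [orderOf_inv])
      rw [hval, hSdef, ← h1]
      apply Finset.sum_congr rfl
      intro χ _
      rw [irr_inv (IsIrrCharacter.isCharacter χ.2), Complex.conj_conj]
    obtain ⟨k, hk⟩ := dvd_degree_of_vanish 2 hgen hvan
    rw [ha, hval] at hk
    have hk' : ((∑ χ ∈ S, (charDegree (χ : G → ℂ)) ^ 2 : ℕ) : ℂ) = ((4 * k : ℤ) : ℂ) := by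
      push_cast
      norm_num at hk
      rw [← hk]
      apply Finset.sum_congr rfl
      intro χ _
      rw [charDegree_cast (IsIrrCharacter.isCharacter χ.2), sq]
    have hk'' : ((∑ χ ∈ S, (charDegree (χ : G → ℂ)) ^ 2 : ℕ) : ℤ) = 4 * k := by
      exact_mod_cast hk'
    have : (4 : ℤ) ∣ ((∑ χ ∈ S, (charDegree (χ : G → ℂ)) ^ 2 : ℕ) : ℤ) := ⟨k, hk''⟩
    exact_mod_cast this
  have hmod : (∑ χ ∈ S, (charDegree (χ : G → ℂ)) ^ 2) % 4 =
      (S.filter (fun χ : IrrCharacter G => Odd (charDegree (χ : G → ℂ)))).card % 4 := by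
    rw [Finset.sum_nat_mod, Finset.card_filter]
    congr 1
    apply Finset.sum_congr rfl
    intro χ _
    split_ifs with h
    · obtain ⟨m, hm⟩ := h
      have h4 : charDegree (χ : G → ℂ) % 4 = 1 ∨ charDegree (χ : G → ℂ) % 4 = 3 := by omega
      rcases h4 with h4 | h4 <;> rw [Nat.pow_mod, h4]
    · obtain ⟨m, hm⟩ := Nat.not_odd_iff_even.mp h
      have h4 : charDegree (χ : G → ℂ) % 4 = 0 ∨ charDegree (χ : G → ℂ) % 4 = 2 := by omega
      rcases h4 with h4 | h4 <;> rw [Nat.pow_mod, h4]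
  have hk0 : 0 < (S.filter (fun χ : IrrCharacter G => Odd (charDegree (χ : G → ℂ)))).card := by
    apply Finset.card_pos.mpr
    exact ⟨τ, Finset.mem_filter.mpr ⟨(hS τ).mpr hτB, by rw [hτd]; exact odd_one⟩⟩
  have hsplit := Finset.sum_filter_add_sum_filter_not S
    (fun χ : IrrCharacter G => Odd (charDegree (χ : G → ℂ))) (fun χ : IrrCharacter G => 2 ^ (2 * blockHeight 2 B (χ : G → ℂ)))
  have h0 : (S.filter (fun χ : IrrCharacter G => Odd (charDegree (χ : G → ℂ)))).card • 1 ≤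
      ∑ χ ∈ S.filter (fun χ : IrrCharacter G => Odd (charDegree (χ : G → ℂ))),
        2 ^ (2 * blockHeight 2 B (χ : G → ℂ)) :=
    Finset.card_nsmul_le_sum _ _ _ (fun χ _ => Nat.one_le_pow _ _ (by norm_num))
  have h1 : (S.filter (fun χ : IrrCharacter G => ¬ Odd (charDegree (χ : G → ℂ)))).card • 4 ≤
      ∑ χ ∈ S.filter (fun χ : IrrCharacter G => ¬ Odd (charDegree (χ : G → ℂ))),
        2 ^ (2 * blockHeight 2 B (χ : G → ℂ)) := by
    apply Finset.card_nsmul_le_sum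
    intro χ hχ
    have hev : 2 ∣ charDegree (χ : G → ℂ) :=
      even_iff_two_dvd.mp (Nat.not_odd_iff_even.mp (Finset.mem_filter.mp hχ).2)
    have hpos : 0 < (charDegree (χ : G → ℂ)).factorization 2 :=
      Nat.Prime.factorization_pos_of_dvd Nat.prime_two (charDegree_pos χ.2).ne' hev
    rw [hh]
    calc 4 = 2 ^ 2 := by norm_num
      _ ≤ 2 ^ (2 * (charDegree (χ : G → ℂ)).factorization 2) :=
          Nat.pow_le_pow_right (by norm_num) (by omega)
  have hc := Finset.card_filter_add_card_filter_not (s := S)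
    (fun χ : IrrCharacter G => Odd (charDegree (χ : G → ℂ)))
  simp only [smul_eq_mul, mul_one] at h0 h1
  rw [hcard]
  omega

theorem card_eq_rank_add {M : Ideal AlgInt} {p : ℕ} [Fact p.Prime] (hM : IsPModular p M)
    {B : Set (IrrCharacter G)} (hB : IsPBlock M B) (X : Finset G)
    (hX : ∀ x ∈ X, ∃ k : ℕ, orderOf x = p ^ k)
    (hXrep : ∀ g : G, (∃ k : ℕ, orderOf g = p ^ k) → ∃! x, x ∈ X ∧ IsConj g x)
    (h1X : (1 : G) ∈ X) [DecidableEq G] :
    Nat.card B = blockRank p B + ∑ x ∈ X.erase 1,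
      ∑ᶠ b ∈ {b : Set (IrrCharacter ↥(Subgroup.centralizer ({x} : Set G))) |
        IsInducedBlock M (Subgroup.centralizer ({x} : Set G)) b B}, blockRank p b := by
  classical
  haveI : ∀ x : G, Fintype (Subgroup.centralizer ({x} : Set G)) := fun x => Fintype.ofFinite _
  rw [card_block_eq hM hB X hX hXrep, ← Finset.add_sum_erase X _ h1X]
  congr 1
  apply Nat.cast_injective (R := ℂ)
  obtain ⟨S, hSdef⟩ : ∃ S, S = (Set.toFinite B).toFinset := ⟨_, rfl⟩
  have hS : ∀ χ, χ ∈ S ↔ χ ∈ B := fun χ => by rw [hSdef]; exact Set.Finite.mem_toFinset _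
  rw [← sum_secNorm (Subgroup.centralizer ({1} : Set G)) 1
    (fun g => Subgroup.mem_centralizer_singleton_iff) hM ⟨0, by simp⟩ hB S hS
    (fun b hb => exists_induced_centralizer hM 1 ⟨0, by simp⟩ hb), ← rank_eq hM hB S hS]
  apply Finset.sum_congr rfl
  intro χ _
  rw [secNorm_one _ (fun g => Subgroup.mem_centralizer_singleton_iff.mpr (by simp)),
    classInner_pReg_pReg]

theorem finsum_principal {M : Ideal AlgInt} {p : ℕ} [Fact p.Prime] (hM : IsPModular p M) (x : G)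
    (hx : ∃ k : ℕ, orderOf x = p ^ k) :
    ∑ᶠ b ∈ {b : Set (IrrCharacter ↥(Subgroup.centralizer ({x} : Set G))) |
        IsInducedBlock M (Subgroup.centralizer ({x} : Set G)) b (principalBlock M G)},
      blockRank p b = blockRank p (principalBlock M ↥(Subgroup.centralizer ({x} : Set G))) := by
  haveI : Fintype (Subgroup.centralizer ({x} : Set G)) := Fintype.ofFinite _
  have hset : {b : Set (IrrCharacter ↥(Subgroup.centralizer ({x} : Set G))) |
        IsInducedBlock M (Subgroup.centralizer ({x} : Set G)) b (principalBlock M G)} =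
      {principalBlock M ↥(Subgroup.centralizer ({x} : Set G))} := by
    ext b
    simp only [Set.mem_ofPred_eq, Set.mem_singleton_iff]
    constructor
    · intro h
      exact (Cfsg.Agent.S0936.result p M hM _ b ⟨_, h⟩).mp h
    · rintro rfl
      exact (Cfsg.Agent.S0936.result p M hM _ _
        (exists_induced_centralizer hM x hx (principal_isBlock M))).mpr rfl
  rw [hset, finsum_mem_singleton]

end Cfsg.Agent.Lib.Helper7.BKlein1
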