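import Mathlib
import Cfsg.Prelude.Def_Blocks
import Cfsg.Agent.Lib.Helper2.BlockReg3
import Cfsg.Agent.Lib.Helper2.BlockLam
import Cfsg.Agent.Lib.Helper7.Brauer11
import Cfsg.Agent.Lib.Helper7.Brauer12
import Cfsg.Agent.Lib.Helper7.BPair2
import Cfsg.Agent.Lib.Helper7.BCount1
import Cfsg.Agent.Lib.Helper7.BSpan1
import Cfsg.Agent.Lib.Helper7.BFeit1
import Cfsg.Agent.Lib.Helper7.BRank1
import Cfsg.Agent.Lib.Helper7.BRank2
import Cfsg.Agent.Lib.Helper7.BRank3
import Cfsg.Agent.Lib.Helper7.BRank4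
import Cfsg.Agent.Lib.Helper7.BRank5
import Cfsg.Agent.S4733
import Cfsg.Agent.S0936
import Cfsg.Agent.Lib.Helper7.BDef1
import Cfsg.Agent.Lib.Helper7.BDef2
import Cfsg.Agent.Lib.Helper7.CharBurnside
import Cfsg.Agent.Lib.Helper2.BlockOrth
import Cfsg.Agent.Lib.Helper7.BKlein1
import Cfsg.Agent.Lib.Helper2.BlockSM3
import Cfsg.Agent.Lib.Helper7.BPair1
import Cfsg.Agent.Lib.Helper7.BSub1
import Cfsg.Agent.Lib.Helper2.BlockSM7

set_option autoImplicit false
set_option linter.unusedSectionVars false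
set_option linter.unusedVariables false
set_option linter.style.haveILetI false

/-! Klein four Sylow 2-subgroups with one class of involutions. -/

namespace Cfsg.Agent.Lib.Helper7.BKlein2

open Cfsg Cfsg.Agent.Lib.Helper7.CharIrr Cfsg.Agent.Lib.Helper7.CharOrth
  Cfsg.Agent.Lib.Helper7.CharIntegral Cfsg.Agent.Lib.Helper7.CharMore
  Cfsg.Agent.Lib.Helper7.CharClassAlg Cfsg.Agent.Lib.Helper7.CharComplete
  Cfsg.Agent.Lib.Helper7.CharDeg Cfsg.Agent.Lib.Helper7.CharGalois
  Cfsg.Agent.Lib.Helper7.CharClassAlg2 Cfsg.Agent.Lib.Helper7.CharInd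
  Cfsg.Agent.Lib.Helper7.CharBasic Cfsg.Agent.Lib.Helper7.CharGen Cfsg.Agent.Lib.Helper7.CharRes
  Cfsg.Agent.Lib.Helper7.Brauer11 Cfsg.Agent.Lib.Helper7.Brauer12
  Cfsg.Agent.Lib.Helper2.LocRing Cfsg.Agent.Lib.Helper2.BlockLam
  Cfsg.Agent.Lib.Helper2.BlockZ Cfsg.Agent.Lib.Helper2.BlockDef Cfsg.Agent.Lib.Helper2.BlockCong
  Cfsg.Agent.Lib.Helper2.BlockHt Cfsg.Agent.Lib.Helper2.BlockReg Cfsg.Agent.Lib.Helper2.BlockBr2
  Cfsg.Agent.Lib.Helper2.BlockSub Cfsg.Agent.Lib.Helper2.BlockReg2 Cfsg.Agent.Lib.Helper2.BlockReg3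
open scoped ComplexConjugate

variable {G : Type*} [Group G] [Fintype G]

open Cfsg.Agent.Lib.Helper7.BCount1 Cfsg.Agent.Lib.Helper7.BSpan1 Cfsg.Agent.Lib.Helper7.BPair2
  Cfsg.Agent.Lib.Helper7.BRank1 Cfsg.Agent.Lib.Helper7.BFeit1 Cfsg.Agent.Lib.Helper7.BSub1
  Cfsg.Agent.Lib.Helper7.BRank2 Cfsg.Agent.Lib.Helper7.BRank4 Cfsg.Agent.Lib.Helper2.BlockSM3
  Cfsg.Agent.Lib.Helper2.BlockSM4 Cfsg.Agent.Lib.Helper2.BlockSM5 Cfsg.Agent.Lib.Helper2.BlockSM7
  Cfsg.Agent.Lib.Helper7.BRank5 Cfsg.Agent.Lib.Helper7.BDef1 Cfsg.Agent.Lib.Helper7.BRank3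
  Cfsg.Agent.Lib.Helper7.BDef2 Cfsg.Agent.Lib.Helper7.CharBurnside Cfsg.Agent.Lib.Helper2.BlockOrth
  Cfsg.Agent.Lib.Helper7.BKlein1

open scoped Pointwise in
theorem sq_one_of_two_elt (P : Sylow 2 G) (hexp : ∀ x : P, x * x = 1) (g : G)
    (hg : ∃ k : ℕ, orderOf g = 2 ^ k) : g * g = 1 := by
  haveI : Fact (Nat.Prime 2) := ⟨Nat.prime_two⟩
  obtain ⟨k, hk⟩ := hg
  have hpg : IsPGroup 2 (Subgroup.zpowers g) :=
    IsPGroup.of_card (n := k) (by rw [Nat.card_zpowers, hk])
  obtain ⟨Q, hQ⟩ := hpg.exists_le_sylow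
  obtain ⟨c, hc⟩ := MulAction.exists_smul_eq G Q P
  have hgQ : g ∈ (Q : Subgroup G) := hQ (Subgroup.mem_zpowers g)
  have h1 : MulAut.conj c • g ∈ MulAut.conj c • (Q : Subgroup G) :=
    Subgroup.smul_mem_pointwise_smul _ _ _ hgQ
  rw [MulAut.smul_def, MulAut.conj_apply] at h1
  have hmem : c * g * c⁻¹ ∈ (P : Subgroup G) := by
    rw [← hc, Sylow.coe_subgroup_smul]
    exact h1
  have h := hexp ⟨c * g * c⁻¹, hmem⟩
  have h' : c * g * c⁻¹ * (c * g * c⁻¹) = 1 := congrArg Subtype.val h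
  have h2 : c * (g * g) * c⁻¹ = 1 := by
    rw [← h']
    group
  exact conj_eq_one_iff.mp h2

theorem no_fusion (hsq : ∀ g : G, (∃ k : ℕ, orderOf g = 2 ^ k) → g * g = 1) {t u c : G}
    (ht1 : t ≠ 1) (ht : t * t = 1) (hu : u * u = 1)
    (hct : c * t = t * c) (hcu : c * u * c⁻¹ = t * u) : False := by
  have hn : orderOf c ≠ 0 := (orderOf_pos c).ne'
  obtain ⟨k, m, hm, hkm⟩ := Nat.exists_eq_two_pow_mul_odd hn
  have hw2 : ∃ j, orderOf (c ^ m) = 2 ^ j := by
    have h1 : (c ^ m) ^ (2 ^ k) = 1 := by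
      rw [← pow_mul, mul_comm, ← hkm]
      exact pow_orderOf_eq_one c
    obtain ⟨j, -, hj⟩ := (Nat.dvd_prime_pow Nat.prime_two).mp (orderOf_dvd_of_pow_eq_one h1)
    exact ⟨j, hj⟩
  have hww := hsq _ hw2
  have hconj : ∀ j : ℕ, c ^ j * u * (c ^ j)⁻¹ = t ^ j * u := by
    intro j
    induction j with
    | zero => simp
    | succ j ih =>
      have hctj : c * t ^ j = t ^ j * c := Commute.pow_right (show Commute c t from hct) j
      calc c ^ (j + 1) * u * (c ^ (j + 1))⁻¹ = c * (c ^ j * u * (c ^ j)⁻¹) * c⁻¹ := by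
            rw [pow_succ']
            group
        _ = c * (t ^ j * u) * c⁻¹ := by rw [ih]
        _ = (c * t ^ j) * u * c⁻¹ := by group
        _ = t ^ j * (c * u * c⁻¹) := by
            rw [hctj]
            group
        _ = t ^ (j + 1) * u := by
            rw [hcu, pow_succ]
            group
  have htm : t ^ m = t := by
    obtain ⟨i, hi⟩ := hm
    rw [hi, pow_succ, pow_mul, sq, ht, one_pow, one_mul]
  have hwu := hconj m
  rw [htm] at hwu
  obtain ⟨w, hw⟩ : ∃ w, w = c ^ m := ⟨_, rfl⟩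
  rw [← hw] at hwu hww
  have hzz : (w * u) * (w * u) = t := by
    have hwinv : w⁻¹ = w := inv_eq_of_mul_eq_one_left hww
    rw [hwinv] at hwu
    calc (w * u) * (w * u) = (w * u * w) * u := by group
      _ = t * u * u := by rw [hwu]
      _ = t := by rw [mul_assoc, hu, mul_one]
  have hz4 : (w * u) ^ (2 ^ 2) = 1 := by
    have h1 : (w * u) ^ (2 ^ 2) = ((w * u) * (w * u)) * ((w * u) * (w * u)) := by
      have e : (2 : ℕ) ^ 2 = 2 * 2 := by norm_num
      rw [e, pow_mul, sq, sq]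
    rw [h1, hzz, ht]
  have hz2 : ∃ j, orderOf (w * u) = 2 ^ j := by
    obtain ⟨j, -, hj⟩ := (Nat.dvd_prime_pow Nat.prime_two).mp (orderOf_dvd_of_pow_eq_one hz4)
    exact ⟨j, hj⟩
  exact ht1 (hzz.symm.trans (hsq _ hz2))

theorem rank_principal_pos (M : Ideal AlgInt) [M.IsPrime] (p : ℕ) (hp : p.Prime) :
    1 ≤ blockRank p (principalBlock M G) :=
  Nat.one_le_iff_ne_zero.mpr (blockRank_ne_zero p hp
    (χ := ⟨fun _ => 1, isIrrCharacter_one⟩) (sameBlock_refl (M := M) _))

theorem klein_rank {M : Ideal AlgInt} (hM : IsPModular 2 M) (P : Sylow 2 G) (hP : Nat.card P = 4)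
    (hexp : ∀ x : P, x * x = 1)
    (hone : ∀ s t : G, orderOf s = 2 → orderOf t = 2 → IsConj s t) :
    blockRank 2 (principalBlock M G) = 3 := by
  classical
  haveI : Fact (Nat.Prime 2) := ⟨Nat.prime_two⟩
  haveI := hM.2.1.isPrime
  haveI : Fintype P := Fintype.ofFinite _
  have hsq := sq_one_of_two_elt P hexp
  have ha : (Nat.card G).factorization 2 = 2 := by
    have h := P.card_eq_multiplicity
    rw [hP] at h
    have h' : 2 ^ 2 = 2 ^ (Nat.card G).factorization 2 := by
      rw [← h]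
      norm_num
    exact (Nat.pow_right_injective (le_refl 2) h').symm
  obtain ⟨t', ht'⟩ : ∃ t' : P, t' ≠ 1 := by
    haveI : Nontrivial P := by
      rw [← Finite.one_lt_card_iff_nontrivial, hP]
      norm_num
    exact exists_ne 1
  obtain ⟨u', hu'⟩ : ∃ u' : P, u' ∉ ({1, t'} : Finset P) := by
    by_contra hcon
    simp only [not_exists, not_not] at hcon
    have h1 : (Finset.univ : Finset P) ⊆ {1, t'} := fun z _ => hcon z
    have h2 := Finset.card_le_card h1
    have h3 : ({1, t'} : Finset P).card ≤ 2 := Finset.card_le_two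
    rw [Finset.card_univ, ← Nat.card_eq_fintype_card, hP] at h2
    omega
  simp only [Finset.mem_insert, Finset.mem_singleton, not_or] at hu'
  obtain ⟨hu1, hut⟩ := hu'
  have hinv : ∀ z : P, z⁻¹ = z := fun z => inv_eq_of_mul_eq_one_left (hexp z)
  have hcomm : ∀ a b : P, a * b = b * a := fun a b => by
    have h := hinv (a * b)
    rw [mul_inv_rev, hinv, hinv] at h
    exact h.symm
  obtain ⟨t, htdef⟩ : ∃ t : G, t = (t' : G) := ⟨_, rfl⟩
  obtain ⟨u, hudef⟩ : ∃ u : G, u = (u' : G) := ⟨_, rfl⟩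
  have ht1 : t ≠ 1 := by
    rw [htdef]
    exact fun h => ht' (Subtype.ext h)
  have hu1' : u ≠ 1 := by
    rw [hudef]
    exact fun h => hu1 (Subtype.ext h)
  have hut' : u ≠ t := by
    rw [hudef, htdef]
    exact fun h => hut (Subtype.ext h)
  have htt : t * t = 1 := by
    rw [htdef]
    exact congrArg Subtype.val (hexp t')
  have huu : u * u = 1 := by
    rw [hudef]
    exact congrArg Subtype.val (hexp u')
  have htu : t * u = u * t := by
    rw [htdef, hudef]
    exact congrArg Subtype.val (hcomm t' u')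
  have hto : orderOf t = 2 := orderOf_eq_prime (by rw [sq]; exact htt) ht1
  have hXG : ∀ x ∈ ({1, t} : Finset G), ∃ k : ℕ, orderOf x = 2 ^ k := by
    intro x hx
    simp only [Finset.mem_insert, Finset.mem_singleton] at hx
    rcases hx with rfl | rfl
    · exact ⟨0, by simp⟩
    · exact ⟨1, by rw [hto, pow_one]⟩
  have hXGrep : ∀ g : G, (∃ k : ℕ, orderOf g = 2 ^ k) →
      ∃! x, x ∈ ({1, t} : Finset G) ∧ IsConj g x := by
    intro g hg
    by_cases hg1 : g = 1
    · refine ⟨1, ⟨by simp, by rw [hg1]⟩, ?_⟩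
      rintro y ⟨-, hy⟩
      rw [hg1] at hy
      exact isConj_one_left.mp hy.symm
    · have hgo : orderOf g = 2 := orderOf_eq_prime (by rw [sq]; exact hsq g hg) hg1
      refine ⟨t, ⟨by simp, hone g t hgo hto⟩, ?_⟩
      rintro y ⟨hy, hc⟩
      simp only [Finset.mem_insert, Finset.mem_singleton] at hy
      rcases hy with rfl | rfl
      · exact absurd (isConj_one_left.mp hc) hg1
      · rfl
  have hkG := card_principal_eq_four hM ha
  have hcG := card_eq_rank_add hM (principal_isBlock M) ({1, t} : Finset G) hXG hXGrep (by simp)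
  have herase : ({1, t} : Finset G).erase 1 = {t} := by
    ext z
    simp only [Finset.mem_erase, Finset.mem_insert, Finset.mem_singleton]
    constructor
    · rintro ⟨h1, h2 | h2⟩
      · exact absurd h2 h1
      · exact h2
    · rintro rfl
      exact ⟨ht1, Or.inr rfl⟩
  rw [hkG, herase, Finset.sum_singleton, finsum_principal hM t ⟨1, by rw [hto, pow_one]⟩] at hcG
  haveI : Fintype ↥(Subgroup.centralizer ({t} : Set G)) := Fintype.ofFinite _
  have hPC : (P : Subgroup G) ≤ Subgroup.centralizer ({t} : Set G) := by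
    intro z hz
    rw [Subgroup.mem_centralizer_singleton_iff, htdef]
    exact congrArg Subtype.val (hcomm ⟨z, hz⟩ t')
  have haC : (Nat.card ↥(Subgroup.centralizer ({t} : Set G))).factorization 2 = 2 := by
    have h1 : Nat.card ↥(Subgroup.centralizer ({t} : Set G)) ∣ Nat.card G :=
      Subgroup.card_subgroup_dvd_card _
    have h2 : 2 ^ 2 ∣ Nat.card ↥(Subgroup.centralizer ({t} : Set G)) := by
      have h := Subgroup.card_dvd_of_le hPC
      have hP' : Nat.card ↥(P : Subgroup G) = 4 := hP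
      rw [hP'] at h
      exact h
    have h3 := (Nat.factorization_le_iff_dvd Nat.card_pos.ne' Nat.card_pos.ne').mpr h1 2
    have h4 := (Nat.Prime.pow_dvd_iff_le_factorization Nat.prime_two Nat.card_pos.ne').mp h2
    omega
  have hkC := card_principal_eq_four (G := ↥(Subgroup.centralizer ({t} : Set G))) hM haC
  obtain ⟨XC, h1XC, hXC, hXCrep⟩ :=
    exists_reps 2 (1 : ↥(Subgroup.centralizer ({t} : Set G))) ⟨0, by simp⟩
  have hcC := card_eq_rank_add hM (principal_isBlock M) XC hXC hXCrep h1XC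
  rw [hkC] at hcC
  haveI : ∀ z : ↥(Subgroup.centralizer ({t} : Set G)),
      Fintype ↥(Subgroup.centralizer ({z} : Set ↥(Subgroup.centralizer ({t} : Set G)))) :=
    fun _ => Fintype.ofFinite _
  have hsum3 := Finset.card_nsmul_le_sum (XC.erase 1)
    (fun z => ∑ᶠ b ∈ {b : Set (IrrCharacter
        ↥(Subgroup.centralizer ({z} : Set ↥(Subgroup.centralizer ({t} : Set G))))) |
        IsInducedBlock M (Subgroup.centralizer ({z} : Set ↥(Subgroup.centralizer ({t} : Set G))))
          b (principalBlock M ↥(Subgroup.centralizer ({t} : Set G)))}, blockRank 2 b) 1 (by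
      intro z hz
      rw [finsum_principal hM z (hXC z (Finset.mem_of_mem_erase hz))]
      exact rank_principal_pos M 2 Nat.prime_two)
  have hcard3 : 3 ≤ (XC.erase 1).card := by
    obtain ⟨tC, htC⟩ : ∃ tC : ↥(Subgroup.centralizer ({t} : Set G)), (tC : G) = t :=
      ⟨⟨t, self_mem_centralizer t⟩, rfl⟩
    obtain ⟨uC, huC⟩ : ∃ uC : ↥(Subgroup.centralizer ({t} : Set G)), (uC : G) = u :=
      ⟨⟨u, by rw [hudef]; exact hPC u'.2⟩, rfl⟩
    have h2elt : ∀ a : ↥(Subgroup.centralizer ({t} : Set G)), (a : G) * a = 1 →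
        ∃ k : ℕ, orderOf a = 2 ^ k := by
      intro a ha2
      have h1 : a ^ 2 ^ 1 = 1 := by
        rw [pow_one, sq]
        exact Subtype.ext ha2
      obtain ⟨j, -, hj⟩ := (Nat.dvd_prime_pow Nat.prime_two).mp (orderOf_dvd_of_pow_eq_one h1)
      exact ⟨j, hj⟩
    have hvv : ((tC * uC : ↥(Subgroup.centralizer ({t} : Set G))) : G) * (tC * uC :
        ↥(Subgroup.centralizer ({t} : Set G))) = 1 := by
      push_cast
      rw [htC, huC]
      calc t * u * (t * u) = t * (u * t) * u := by group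
        _ = t * (t * u) * u := by rw [htu]
        _ = (t * t) * (u * u) := by group
        _ = 1 := by rw [htt, huu, one_mul]
    obtain ⟨rt, ⟨hrt, hct⟩, -⟩ := hXCrep tC (h2elt tC (by rw [htC]; exact htt))
    obtain ⟨ru, ⟨hru, hcu⟩, -⟩ := hXCrep uC (h2elt uC (by rw [huC]; exact huu))
    obtain ⟨rv, ⟨hrv, hcv⟩, -⟩ := hXCrep (tC * uC) (h2elt _ hvv)
    have hcent : ∀ z : ↥(Subgroup.centralizer ({t} : Set G)), IsConj tC z → z = tC := by
      intro z hz
      obtain ⟨c, hc⟩ := isConj_iff.mp hz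
      have hcc : (c : G) * t = t * c := Subgroup.mem_centralizer_singleton_iff.mp c.2
      rw [← hc]
      apply Subtype.ext
      push_cast
      rw [htC, hcc, mul_inv_cancel_right]
    have htC1 : tC ≠ 1 := fun h => ht1 (by rw [← htC, h]; rfl)
    have huC1 : uC ≠ 1 := fun h => hu1' (by rw [← huC, h]; rfl)
    have hvC1 : tC * uC ≠ 1 := by
      intro h
      have h1 : t * u = 1 := by
        have := congrArg Subtype.val h
        push_cast at this
        rw [htC, huC] at this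
        exact this
      apply hut'
      calc u = (t * t) * u := by rw [htt, one_mul]
        _ = t * (t * u) := by group
        _ = t := by rw [h1, mul_one]
    have hne1 : ∀ a r : ↥(Subgroup.centralizer ({t} : Set G)), a ≠ 1 → IsConj a r → r ≠ 1 := by
      intro a r ha hc h
      rw [h] at hc
      exact ha (isConj_one_left.mp hc)
    have h12 : rt ≠ ru := by
      intro h
      have h1 : IsConj tC uC := hct.trans (h ▸ hcu.symm)
      have h2 := hcent _ h1
      exact hut' (by rw [← huC, h2, htC])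
    have h13 : rt ≠ rv := by
      intro h
      have h1 : IsConj tC (tC * uC) := hct.trans (h ▸ hcv.symm)
      have h2 := hcent _ h1
      exact huC1 (mul_eq_left.mp h2)
    have h23 : ru ≠ rv := by
      intro h
      have h1 : IsConj uC (tC * uC) := hcu.trans (h ▸ hcv.symm)
      obtain ⟨c, hc⟩ := isConj_iff.mp h1
      have hcc : (c : G) * t = t * c := Subgroup.mem_centralizer_singleton_iff.mp c.2
      have hc' : (c : G) * u * (c : G)⁻¹ = t * u := by
        have := congrArg Subtype.val hc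
        push_cast at this
        rw [htC, huC] at this
        exact this
      exact no_fusion hsq ht1 htt huu hcc hc'
    have hsub : ({rt, ru, rv} : Finset ↥(Subgroup.centralizer ({t} : Set G))) ⊆ XC.erase 1 := by
      intro z hz
      simp only [Finset.mem_insert, Finset.mem_singleton] at hz
      rcases hz with rfl | rfl | rfl
      · exact Finset.mem_erase.mpr ⟨hne1 _ _ htC1 hct, hrt⟩
      · exact Finset.mem_erase.mpr ⟨hne1 _ _ huC1 hcu, hru⟩
      · exact Finset.mem_erase.mpr ⟨hne1 _ _ hvC1 hcv, hrv⟩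
    have h3 : ({rt, ru, rv} : Finset ↥(Subgroup.centralizer ({t} : Set G))).card = 3 :=
      Finset.card_eq_three.mpr ⟨rt, ru, rv, h12, h13, h23, rfl⟩
    rw [← h3]
    exact Finset.card_le_card hsub
  have hposC := rank_principal_pos (G := ↥(Subgroup.centralizer ({t} : Set G))) M 2 Nat.prime_two
  simp only [smul_eq_mul, mul_one] at hsum3
  omega

end Cfsg.Agent.Lib.Helper7.BKlein2
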