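import Mathlib
import Cfsg.Prelude.Def_Blocks
import Cfsg.Agent.Lib.Helper2.BlockReg3
import Cfsg.Agent.Lib.Helper2.BlockLam
import Cfsg.Agent.Lib.Helper7.Brauer11
import Cfsg.Agent.Lib.Helper7.Brauer12
import Cfsg.Agent.Lib.Helper7.BPair2
import Cfsg.Agent.Lib.Helper7.BCount1
import Cfsg.Agent.Lib.Helper7.BSpan1
import Cfsg.Agent.Lib.Helper7.BFeit1
import Cfsg.Agent.Lib.Helper7.BRank1
import Cfsg.Agent.Lib.Helper7.BRank2
import Cfsg.Agent.Lib.Helper7.BRank3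
import Cfsg.Agent.Lib.Helper7.BRank4
import Cfsg.Agent.Lib.Helper7.BRank5
import Cfsg.Agent.S4733
import Cfsg.Agent.S0936
import Cfsg.Agent.Lib.Helper7.BDef1
import Cfsg.Agent.Lib.Helper7.BDef2
import Cfsg.Agent.Lib.Helper7.CharBurnside
import Cfsg.Agent.Lib.Helper2.BlockOrth
import Cfsg.Agent.Lib.Helper7.BKlein1
import Cfsg.Agent.Lib.Helper7.BKlein2
import Cfsg.Agent.Lib.Helper2.BlockSM3
import Cfsg.Agent.Lib.Helper7.BPair1
import Cfsg.Agent.Lib.Helper7.BSub1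
import Cfsg.Agent.Lib.Helper2.BlockSM7

set_option autoImplicit false
set_option linter.unusedSectionVars false
set_option linter.unusedVariables false
set_option linter.style.haveILetI false

/-! The principal 2-block for Klein four Sylow 2-subgroups with one class of involutions. -/

namespace Cfsg.Agent.Lib.Helper7.BKlein3

open Cfsg Cfsg.Agent.Lib.Helper7.CharIrr Cfsg.Agent.Lib.Helper7.CharOrth
  Cfsg.Agent.Lib.Helper7.CharIntegral Cfsg.Agent.Lib.Helper7.CharMore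
  Cfsg.Agent.Lib.Helper7.CharClassAlg Cfsg.Agent.Lib.Helper7.CharComplete
  Cfsg.Agent.Lib.Helper7.CharDeg Cfsg.Agent.Lib.Helper7.CharGalois
  Cfsg.Agent.Lib.Helper7.CharClassAlg2 Cfsg.Agent.Lib.Helper7.CharInd
  Cfsg.Agent.Lib.Helper7.CharBasic Cfsg.Agent.Lib.Helper7.CharGen Cfsg.Agent.Lib.Helper7.CharRes
  Cfsg.Agent.Lib.Helper7.Brauer11 Cfsg.Agent.Lib.Helper7.Brauer12
  Cfsg.Agent.Lib.Helper2.LocRing Cfsg.Agent.Lib.Helper2.BlockLam
  Cfsg.Agent.Lib.Helper2.BlockZ Cfsg.Agent.Lib.Helper2.BlockDef Cfsg.Agent.Lib.Helper2.BlockCong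
  Cfsg.Agent.Lib.Helper2.BlockHt Cfsg.Agent.Lib.Helper2.BlockReg Cfsg.Agent.Lib.Helper2.BlockBr2
  Cfsg.Agent.Lib.Helper2.BlockSub Cfsg.Agent.Lib.Helper2.BlockReg2 Cfsg.Agent.Lib.Helper2.BlockReg3
open scoped ComplexConjugate

variable {G : Type*} [Group G] [Fintype G]

open Cfsg.Agent.Lib.Helper7.BCount1 Cfsg.Agent.Lib.Helper7.BSpan1 Cfsg.Agent.Lib.Helper7.BPair2
  Cfsg.Agent.Lib.Helper7.BRank1 Cfsg.Agent.Lib.Helper7.BFeit1 Cfsg.Agent.Lib.Helper7.BSub1
  Cfsg.Agent.Lib.Helper7.BRank2 Cfsg.Agent.Lib.Helper7.BRank4 Cfsg.Agent.Lib.Helper2.BlockSM3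
  Cfsg.Agent.Lib.Helper2.BlockSM4 Cfsg.Agent.Lib.Helper2.BlockSM5 Cfsg.Agent.Lib.Helper2.BlockSM7
  Cfsg.Agent.Lib.Helper7.BRank5 Cfsg.Agent.Lib.Helper7.BDef1 Cfsg.Agent.Lib.Helper7.BRank3
  Cfsg.Agent.Lib.Helper7.BDef2 Cfsg.Agent.Lib.Helper7.CharBurnside Cfsg.Agent.Lib.Helper2.BlockOrth
  Cfsg.Agent.Lib.Helper7.BKlein1 Cfsg.Agent.Lib.Helper7.BKlein2

/-- integer arithmetic behind the signs -/
theorem signs {a b c m d₂ d₃ d₄ : ℤ} (E1 : (1 + a * a + b * b + c * c) * m = 4)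
    (E2 : 1 + d₂ * a + d₃ * b + d₄ * c = 0) (p₂ : 0 < d₂) (p₃ : 0 < d₃) (p₄ : 0 < d₄)
    (m₂ : (4 : ℤ) ∣ d₂ - a) (m₃ : (4 : ℤ) ∣ d₃ - b) (m₄ : (4 : ℤ) ∣ d₄ - c) :
    (a = 1 ∨ a = -1) ∧ (b = 1 ∨ b = -1) ∧ (c = 1 ∨ c = -1) ∧ ¬ (a = 1 ∧ b = 1 ∧ c = 1) ∧
      ¬ (a = -1 ∧ b = -1 ∧ c = -1) := by
  have hs : 0 < 1 + a * a + b * b + c * c := by
    nlinarith [mul_self_nonneg a, mul_self_nonneg b, mul_self_nonneg c]
  have hm : 0 < m := (mul_pos_iff_of_pos_left hs).mp (by rw [E1]; norm_num)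
  have hle : 1 + a * a + b * b + c * c ≤ 4 := by
    rw [← E1]
    exact le_mul_of_one_le_right hs.le hm
  have ha1 : a ≤ 1 := by nlinarith [mul_self_nonneg b, mul_self_nonneg c]
  have ha2 : -1 ≤ a := by nlinarith [mul_self_nonneg b, mul_self_nonneg c]
  have hb1 : b ≤ 1 := by nlinarith [mul_self_nonneg a, mul_self_nonneg c]
  have hb2 : -1 ≤ b := by nlinarith [mul_self_nonneg a, mul_self_nonneg c]
  have hc1 : c ≤ 1 := by nlinarith [mul_self_nonneg a, mul_self_nonneg b]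
  have hc2 : -1 ≤ c := by nlinarith [mul_self_nonneg a, mul_self_nonneg b]
  interval_cases a <;> interval_cases b <;> interval_cases c <;> omega

/-- values at an involution are integers -/
theorem invol_int {χ : G → ℂ} (hχ : IsCharacter G χ) {t : G} (ht : orderOf t = 2) :
    ∃ n : ℤ, χ t = n := by
  apply rational_of_pow_invariant hχ
  intro k hk
  have h2 : 2 ∣ Nat.card G := by
    rw [← ht]
    exact orderOf_dvd_natCard t
  have hodd : Odd k := by
    rw [← Nat.not_even_iff_odd]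
    intro he
    have h3 : 2 ∣ Nat.gcd k (Nat.card G) := Nat.dvd_gcd (even_iff_two_dvd.mp he) h2
    rw [hk] at h3
    norm_num at h3
  obtain ⟨i, hi⟩ := hodd
  have htt : t ^ 2 = 1 := by
    rw [← ht]
    exact pow_orderOf_eq_one t
  rw [hi, pow_succ, pow_mul, htt, one_pow, one_mul]

/-- the congruence modulo four between degree and the value at an involution -/
theorem mod_four (P : Sylow 2 G) (hP : Nat.card P = 4) (hexp : ∀ x : P, x * x = 1)
    (hone : ∀ s t : G, orderOf s = 2 → orderOf t = 2 → IsConj s t) {t : G} (ht : orderOf t = 2)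
    (χ : IrrCharacter G) {v : ℤ} (hv : (χ : G → ℂ) t = v) :
    (4 : ℤ) ∣ (charDegree (χ : G → ℂ) : ℤ) - v := by
  classical
  haveI : Fintype (P : Subgroup G) := Fintype.ofFinite _
  have hχch := IsIrrCharacter.isCharacter χ.2
  have hχc := IsIrrCharacter.isClassFunction χ.2
  obtain ⟨n, hn⟩ := classInner_gen_int (isGen_restrict (P : Subgroup G)
    (isGen_of_isCharacter hχch))
    (IsIrrCharacter.isCharacter (isIrrCharacter_one (G := (P : Subgroup G))))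
  unfold classInner at hn
  simp only [map_one, mul_one] at hn
  have hP' : Nat.card ↥(P : Subgroup G) = 4 := hP
  rw [hP', ← Finset.add_sum_erase Finset.univ _ (Finset.mem_univ (1 : (P : Subgroup G)))] at hn
  have hconst : ∀ z ∈ (Finset.univ : Finset (P : Subgroup G)).erase 1,
      (χ : G → ℂ) (z : G) = (v : ℂ) := by
    intro z hz
    have hz1 : z ≠ 1 := (Finset.mem_erase.mp hz).1
    have hz1' : (z : G) ≠ 1 := fun h => hz1 (Subtype.ext h)
    have hzz : (z : G) ^ 2 = 1 := by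
      rw [sq]
      exact congrArg Subtype.val (hexp z)
    have hzo : orderOf (z : G) = 2 := orderOf_eq_prime hzz hz1'
    obtain ⟨c, hc⟩ := isConj_iff.mp (hone t z ht hzo)
    rw [← hc, hχc, hv]
  rw [Finset.sum_congr rfl hconst, Finset.sum_const, Finset.card_erase_of_mem (Finset.mem_univ _),
    Finset.card_univ, ← Nat.card_eq_fintype_card, hP'] at hn
  simp only [OneMemClass.coe_one] at hn
  rw [← charDegree_cast hχch] at hn
  have h1 : ((charDegree (χ : G → ℂ) : ℤ) : ℂ) + 3 * (v : ℂ) = ((4 * n : ℤ) : ℂ) := by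
    push_cast
    rw [← hn]
    norm_num
    ring
  have h2 : (charDegree (χ : G → ℂ) : ℤ) + 3 * v = 4 * n := by exact_mod_cast h1
  exact ⟨n - v, by linarith⟩

theorem perm243 {α : Type*} {x a b c d : α} :
    (x = a ∨ x = b ∨ x = c ∨ x = d) ↔ (x = a ∨ x = b ∨ x = d ∨ x = c) := by tauto

theorem perm342 {α : Type*} {x a b c d : α} :
    (x = a ∨ x = b ∨ x = c ∨ x = d) ↔ (x = a ∨ x = c ∨ x = d ∨ x = b) := by tauto

theorem perm432 {α : Type*} {x a b c d : α} :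
    (x = a ∨ x = b ∨ x = c ∨ x = d) ↔ (x = a ∨ x = d ∨ x = c ∨ x = b) := by tauto

set_option maxHeartbeats 1600000 in
theorem klein_block {M : Ideal AlgInt} (hM : IsPModular 2 M) (P : Sylow 2 G) (hP : Nat.card P = 4)
    (hexp : ∀ x : P, x * x = 1)
    (hone : ∀ s t : G, orderOf s = 2 → orderOf t = 2 → IsConj s t) :
    ∃ ζ₂ ζ₃ ζ₄ : IrrCharacter G, ∃ ε : ℤ, (ε = 1 ∨ ε = -1) ∧ (ζ₂ : G → ℂ) ≠ (fun _ => 1) ∧
      (ζ₃ : G → ℂ) ≠ (fun _ => 1) ∧ ζ₂ ≠ ζ₃ ∧ ζ₂ ≠ ζ₄ ∧ ζ₃ ≠ ζ₄ ∧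
      principalBlock M G = {χ : IrrCharacter G | (χ : G → ℂ) = (fun _ => 1) ∨ χ = ζ₂ ∨ χ = ζ₃ ∨
        χ = ζ₄} ∧
      (∀ z : G, orderOf z = 2 → (ζ₂ : G → ℂ) z = 1 ∧ (ζ₃ : G → ℂ) z = (ε : ℂ) ∧
        (ζ₄ : G → ℂ) z = -1) ∧
      (4 : ℤ) ∣ (charDegree (ζ₂ : G → ℂ) : ℤ) - 1 ∧ (4 : ℤ) ∣ (charDegree (ζ₃ : G → ℂ) : ℤ) - ε ∧
      (4 : ℤ) ∣ (charDegree (ζ₄ : G → ℂ) : ℤ) + 1 ∧
      ∀ y : G, Odd (orderOf y) →
        1 + (ζ₂ : G → ℂ) y + (ε : ℂ) * (ζ₃ : G → ℂ) y - (ζ₄ : G → ℂ) y = 0 := by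
  classical
  haveI : Fact (Nat.Prime 2) := ⟨Nat.prime_two⟩
  haveI := hM.2.1.isPrime
  haveI : Fintype P := Fintype.ofFinite _
  haveI := Fintype.ofFinite (IrrCharacter G)
  have hsq := sq_one_of_two_elt P hexp
  have ha : (Nat.card G).factorization 2 = 2 := by
    have h := P.card_eq_multiplicity
    rw [hP] at h
    have h' : 2 ^ 2 = 2 ^ (Nat.card G).factorization 2 := by
      rw [← h]
      norm_num
    exact (Nat.pow_right_injective (le_refl 2) h').symm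
  obtain ⟨t', ht'⟩ : ∃ t' : P, t' ≠ 1 := by
    haveI : Nontrivial P := by
      rw [← Finite.one_lt_card_iff_nontrivial, hP]
      norm_num
    exact exists_ne 1
  have hinv : ∀ z : P, z⁻¹ = z := fun z => inv_eq_of_mul_eq_one_left (hexp z)
  have hcomm : ∀ a b : P, a * b = b * a := fun a b => by
    have h := hinv (a * b)
    rw [mul_inv_rev, hinv, hinv] at h
    exact h.symm
  obtain ⟨t, htdef⟩ : ∃ t : G, t = (t' : G) := ⟨_, rfl⟩
  have ht1 : t ≠ 1 := by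
    rw [htdef]
    exact fun h => ht' (Subtype.ext h)
  have htt : t * t = 1 := by
    rw [htdef]
    exact congrArg Subtype.val (hexp t')
  have hto : orderOf t = 2 := orderOf_eq_prime (by rw [sq]; exact htt) ht1
  have ht2 : ∃ k : ℕ, orderOf t = 2 ^ k := ⟨1, by rw [hto, pow_one]⟩
  have hXG : ∀ x ∈ ({1, t} : Finset G), ∃ k : ℕ, orderOf x = 2 ^ k := by
    intro x hx
    simp only [Finset.mem_insert, Finset.mem_singleton] at hx
    rcases hx with rfl | rfl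
    · exact ⟨0, by simp⟩
    · exact ht2
  have hXGrep : ∀ g : G, (∃ k : ℕ, orderOf g = 2 ^ k) →
      ∃! x, x ∈ ({1, t} : Finset G) ∧ IsConj g x := by
    intro g hg
    by_cases hg1 : g = 1
    · refine ⟨1, ⟨by simp, by rw [hg1]⟩, ?_⟩
      rintro y ⟨-, hy⟩
      rw [hg1] at hy
      exact isConj_one_left.mp hy.symm
    · have hgo : orderOf g = 2 := orderOf_eq_prime (by rw [sq]; exact hsq g hg) hg1
      refine ⟨t, ⟨by simp, hone g t hgo hto⟩, ?_⟩
      rintro y ⟨hy, hc⟩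
      simp only [Finset.mem_insert, Finset.mem_singleton] at hy
      rcases hy with rfl | rfl
      · exact absurd (isConj_one_left.mp hc) hg1
      · rfl
  have hkG := card_principal_eq_four hM ha
  have hcG := card_eq_rank_add hM (principal_isBlock M) ({1, t} : Finset G) hXG hXGrep (by simp)
  have herase : ({1, t} : Finset G).erase 1 = {t} := by
    ext z
    simp only [Finset.mem_erase, Finset.mem_insert, Finset.mem_singleton]
    constructor
    · rintro ⟨h1, h2 | h2⟩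
      · exact absurd h2 h1
      · exact h2
    · rintro rfl
      exact ⟨ht1, Or.inr rfl⟩
  rw [hkG, herase, Finset.sum_singleton, finsum_principal hM t ht2,
    klein_rank hM P hP hexp hone] at hcG
  have hlC : blockRank 2 (principalBlock M ↥(Subgroup.centralizer ({t} : Set G))) = 1 := by omega
  haveI : ∀ x : G, Fintype (Subgroup.centralizer ({x} : Set G)) := fun x => Fintype.ofFinite _
  haveI := Fintype.ofFinite (IrrCharacter ↥(Subgroup.centralizer ({t} : Set G)))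
  have hHt : ∀ g : G, g ∈ Subgroup.centralizer ({t} : Set G) ↔ g * t = t * g :=
    fun g => Subgroup.mem_centralizer_singleton_iff
  have hPC : (P : Subgroup G) ≤ Subgroup.centralizer ({t} : Set G) := by
    intro z hz
    rw [Subgroup.mem_centralizer_singleton_iff, htdef]
    exact congrArg Subtype.val (hcomm ⟨z, hz⟩ t')
  have haC : (Nat.card ↥(Subgroup.centralizer ({t} : Set G))).factorization 2 = 2 := by
    have h1 : Nat.card ↥(Subgroup.centralizer ({t} : Set G)) ∣ Nat.card G :=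
      Subgroup.card_subgroup_dvd_card _
    have h2 : 2 ^ 2 ∣ Nat.card ↥(Subgroup.centralizer ({t} : Set G)) := by
      have h := Subgroup.card_dvd_of_le hPC
      have hP' : Nat.card ↥(P : Subgroup G) = 4 := hP
      rw [hP'] at h
      exact h
    have h3 := (Nat.factorization_le_iff_dvd Nat.card_pos.ne' Nat.card_pos.ne').mpr h1 2
    have h4 := (Nat.Prime.pow_dvd_iff_le_factorization Nat.prime_two Nat.card_pos.ne').mp h2
    omega
  obtain ⟨S, hSdef⟩ : ∃ S, S = Finset.univ.filter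
      (fun χ : IrrCharacter G => χ ∈ principalBlock M G) := ⟨_, rfl⟩
  have hS : ∀ χ, χ ∈ S ↔ χ ∈ principalBlock M G := fun χ => by rw [hSdef]; simp
  have hcardS : S.card = 4 := by
    have hBS : principalBlock M G = ↑S := by
      ext χ
      simp [hS]
    rw [hBS, Nat.card_coe_set_eq, Set.ncard_coe_finset] at hkG
    exact hkG
  obtain ⟨τ, hτ⟩ : ∃ τ : IrrCharacter G, (τ : G → ℂ) = fun _ => 1 :=
    ⟨⟨fun _ => 1, isIrrCharacter_one⟩, rfl⟩
  have hτB : τ ∈ principalBlock M G := by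
    unfold principalBlock
    rw [← hτ]
    exact sameBlock_refl (M := M) _
  obtain ⟨σ, hσ⟩ : ∃ σ : IrrCharacter ↥(Subgroup.centralizer ({t} : Set G)),
      (σ : ↥(Subgroup.centralizer ({t} : Set G)) → ℂ) = fun _ => 1 :=
    ⟨⟨fun _ => 1, isIrrCharacter_one⟩, rfl⟩
  have hσB : σ ∈ principalBlock M ↥(Subgroup.centralizer ({t} : Set G)) := by
    unfold principalBlock
    rw [← hσ]
    exact sameBlock_refl (M := M) _
  have hσ1 : pReg 2 (σ : ↥(Subgroup.centralizer ({t} : Set G)) → ℂ) 1 = 1 := by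
    unfold pReg
    rw [if_neg (by rw [orderOf_one]; norm_num), hσ]
  have hval : ∀ χ ∈ principalBlock M G,
      pReg 2 (th (Subgroup.centralizer ({t} : Set G)) t (χ : G → ℂ)) =
        ((χ : G → ℂ) t) • pReg 2 (σ : ↥(Subgroup.centralizer ({t} : Set G)) → ℂ) := by
    intro χ hχ
    have hχc := IsIrrCharacter.isClassFunction χ.2
    have hthc := th_isClass (Subgroup.centralizer ({t} : Set G)) t hHt hχc
    have hdec := eq_sum_blockPart hM hthc
    have hdec' : pReg 2 (th (Subgroup.centralizer ({t} : Set G)) t (χ : G → ℂ)) =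
        Lam (Subgroup.centralizer ({t} : Set G)) t 2
          (principalBlock M ↥(Subgroup.centralizer ({t} : Set G))) (χ : G → ℂ) := by
      conv_lhs => rw [hdec, pReg_sum]
      rw [Finset.sum_eq_single (principalBlock M ↥(Subgroup.centralizer ({t} : Set G)))]
      · rfl
      · intro b' hb' hneq
        obtain ⟨ξ, -, rfl⟩ := Finset.mem_image.mp hb'
        obtain ⟨B', hB'⟩ := exists_induced_centralizer hM t ht2
          (b := blockOf M (ξ : ↥(Subgroup.centralizer ({t} : Set G)) → ℂ)) ⟨ξ, rfl⟩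
        have hχB' : χ ∉ B' := by
          intro h
          apply hneq
          have e : principalBlock M G = B' :=
            block_eq_of_mem (principal_isBlock M) hB'.2.1 hχ h
          rw [← e] at hB'
          exact (Cfsg.Agent.S0936.result 2 M hM _ _ ⟨_, hB'⟩).mp hB'
        exact Lam_eq_zero _ t hHt hM ht2 hB' hχB'
      · intro h
        exfalso
        apply h
        refine Finset.mem_image.mpr ⟨σ, Finset.mem_univ _, ?_⟩
        rw [hσ]
        rfl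
    have hmemL := Lam_mem (Subgroup.centralizer ({t} : Set G)) t hHt 2
      (principalBlock M ↥(Subgroup.centralizer ({t} : Set G))) hχc
    obtain ⟨V, hV⟩ : ∃ V, V = Submodule.span ℂ
        ((fun χ : IrrCharacter ↥(Subgroup.centralizer ({t} : Set G)) =>
          pRegularPart 2 (χ : ↥(Subgroup.centralizer ({t} : Set G)) → ℂ)) ''
          principalBlock M ↥(Subgroup.centralizer ({t} : Set G))) := ⟨_, rfl⟩
    have hfin : Module.finrank ℂ V = 1 := by
      rw [hV]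
      exact hlC
    have hσV : pReg 2 (σ : ↥(Subgroup.centralizer ({t} : Set G)) → ℂ) ∈ V := by
      rw [hV]
      exact Submodule.subset_span ⟨σ, hσB, pRegularPart_eq_pReg 2 _⟩
    have hσ0 : (⟨pReg 2 (σ : ↥(Subgroup.centralizer ({t} : Set G)) → ℂ), hσV⟩ : V) ≠ 0 := by
      intro h
      have h1 := congrArg Subtype.val h
      have h2 := congrFun h1 1
      simp only [hσ1] at h2
      exact one_ne_zero h2
    rw [← hV] at hmemL
    obtain ⟨c, hc⟩ := (finrank_eq_one_iff_of_nonzero' _ hσ0).mp hfin ⟨_, hmemL⟩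
    have hc' : c • pReg 2 (σ : ↥(Subgroup.centralizer ({t} : Set G)) → ℂ) =
        Lam (Subgroup.centralizer ({t} : Set G)) t 2
          (principalBlock M ↥(Subgroup.centralizer ({t} : Set G))) (χ : G → ℂ) :=
      congrArg Subtype.val hc
    have h1 := congrFun (hdec'.trans hc'.symm) 1
    rw [Pi.smul_apply, hσ1, smul_eq_mul, mul_one] at h1
    have h2 : pReg 2 (th (Subgroup.centralizer ({t} : Set G)) t (χ : G → ℂ)) 1 =
        (χ : G → ℂ) t := by
      unfold pReg th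
      rw [if_neg (by rw [orderOf_one]; norm_num)]
      simp
    rw [hdec', ← hc', ← h1, h2]
  choose v hv using fun χ : IrrCharacter G => invol_int (IsIrrCharacter.isCharacter χ.2) hto
  have hmod := fun χ : IrrCharacter G => mod_four P hP hexp hone hto χ (hv χ)
  obtain ⟨N, hN⟩ : ∃ N, N = classInner (pReg 2 (σ : ↥(Subgroup.centralizer ({t} : Set G)) → ℂ))
      (pReg 2 (σ : ↥(Subgroup.centralizer ({t} : Set G)) → ℂ)) := ⟨_, rfl⟩
  obtain ⟨m, hm⟩ : ∃ m : ℤ, 4 * N = m := by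
    have hgen := isGen_pow_pReg 2 Nat.prime_two σ
    have hσd : charDegree (σ : ↥(Subgroup.centralizer ({t} : Set G)) → ℂ) = 1 :=
      charDegree_of_eq (by rw [hσ]; simp)
    rw [haC, hσd] at hgen
    obtain ⟨m, hm⟩ := classInner_gen_int hgen (IsIrrCharacter.isCharacter σ.2)
    refine ⟨m, ?_⟩
    rw [← hm, classInner_smul_left, hN, classInner_pReg_pReg]
    norm_num
  have hsec := sum_secNorm (Subgroup.centralizer ({t} : Set G)) t hHt hM ht2
    (principal_isBlock M) S hS (fun b hb => exists_induced_centralizer hM t ht2 hb)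
  rw [finsum_principal hM t ht2, hlC] at hsec
  have hsec' : ∑ χ ∈ S, ((v χ * v χ : ℤ) : ℂ) * N = 1 := by
    rw [← Nat.cast_one (R := ℂ), ← hsec]
    apply Finset.sum_congr rfl
    intro χ hχ
    rw [← classInner_pReg_pReg, hval χ ((hS χ).mp hχ), classInner_smul_left,
      classInner_smul_right, ← hN, hv χ, map_intCast]
    push_cast
    ring
  have horth : ∀ y : G, ¬ 2 ∣ orderOf y → ∑ χ ∈ S, (v χ : ℂ) * (χ : G → ℂ) y = 0 := by
    intro y hy
    have h1 := weak_orth hM (principalBlock M G) (block_closed (principal_isBlock M)) y t hy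
      (by rw [hto])
    rw [← hSdef] at h1
    rw [← h1]
    apply Finset.sum_congr rfl
    intro χ _
    rw [hv χ, map_intCast, mul_comm]
  have hτS : τ ∈ S := (hS τ).mpr hτB
  have hcard3 : (S.erase τ).card = 3 := by
    rw [Finset.card_erase_of_mem hτS, hcardS]
  obtain ⟨χ₂, χ₃, χ₄, h23, h24, h34, hS3⟩ := Finset.card_eq_three.mp hcard3
  have hsumS : ∀ f : IrrCharacter G → ℂ, ∑ χ ∈ S, f χ = f τ + (f χ₂ + (f χ₃ + f χ₄)) := by
    intro f
    rw [← Finset.add_sum_erase S f hτS, hS3, Finset.sum_insert (by simp [h23, h24]),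
      Finset.sum_insert (by simp [h34]), Finset.sum_singleton]
  have hmemS : ∀ χ, χ ∈ principalBlock M G ↔ χ = τ ∨ χ = χ₂ ∨ χ = χ₃ ∨ χ = χ₄ := by
    intro χ
    rw [← hS, ← Finset.insert_erase hτS, hS3]
    simp
  have hne : ∀ χ ∈ S.erase τ, χ ≠ τ := fun χ hχ => (Finset.mem_erase.mp hχ).1
  have hn2 : χ₂ ≠ τ := hne _ (by rw [hS3]; simp)
  have hn3 : χ₃ ≠ τ := hne _ (by rw [hS3]; simp)
  have hn4 : χ₄ ≠ τ := hne _ (by rw [hS3]; simp)
  have hvτ : v τ = 1 := by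
    have h : (1 : ℂ) = (v τ : ℂ) := by
      have h' := hv τ
      rw [hτ] at h'
      exact h'
    exact_mod_cast h.symm
  have hdτ : charDegree (τ : G → ℂ) = 1 := charDegree_of_eq (by rw [hτ]; simp)
  have E1 : (1 + v χ₂ * v χ₂ + v χ₃ * v χ₃ + v χ₄ * v χ₄) * m = 4 := by
    rw [hsumS, hvτ] at hsec'
    have h : (((1 + v χ₂ * v χ₂ + v χ₃ * v χ₃ + v χ₄ * v χ₄) * m : ℤ) : ℂ) = ((4 : ℤ) : ℂ) := by
      push_cast
      rw [← hm]
      push_cast at hsec'
      linear_combination 4 * hsec'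
    exact_mod_cast h
  have hO : ∀ y : G, ¬ 2 ∣ orderOf y → 1 + (v χ₂ : ℂ) * (χ₂ : G → ℂ) y +
      (v χ₃ : ℂ) * (χ₃ : G → ℂ) y + (v χ₄ : ℂ) * (χ₄ : G → ℂ) y = 0 := by
    intro y hy
    have h := horth y hy
    rw [hsumS, hvτ, hτ] at h
    push_cast at h
    linear_combination h
  have E2 : 1 + (charDegree (χ₂ : G → ℂ) : ℤ) * v χ₂ + (charDegree (χ₃ : G → ℂ) : ℤ) * v χ₃ +
      (charDegree (χ₄ : G → ℂ) : ℤ) * v χ₄ = 0 := by
    have h := hO 1 (by rw [orderOf_one]; norm_num)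
    rw [← charDegree_cast (IsIrrCharacter.isCharacter χ₂.2),
      ← charDegree_cast (IsIrrCharacter.isCharacter χ₃.2),
      ← charDegree_cast (IsIrrCharacter.isCharacter χ₄.2)] at h
    have h' : ((1 + (charDegree (χ₂ : G → ℂ) : ℤ) * v χ₂ + (charDegree (χ₃ : G → ℂ) : ℤ) * v χ₃ +
      (charDegree (χ₄ : G → ℂ) : ℤ) * v χ₄ : ℤ) : ℂ) = ((0 : ℤ) : ℂ) := by
      push_cast
      linear_combination h
    exact_mod_cast h'
  obtain ⟨hA, hB', hC, hnot1, hnot2⟩ := signs E1 E2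
    (by exact_mod_cast charDegree_pos χ₂.2) (by exact_mod_cast charDegree_pos χ₃.2)
    (by exact_mod_cast charDegree_pos χ₄.2) (hmod χ₂) (hmod χ₃) (hmod χ₄)
  have hinvol : ∀ (χ : IrrCharacter G) (z : G), orderOf z = 2 → (χ : G → ℂ) z = (v χ : ℂ) := by
    intro χ z hz
    obtain ⟨c, hc⟩ := isConj_iff.mp (hone t z hto hz)
    rw [← hc, IsIrrCharacter.isClassFunction χ.2, hv χ]
  have fin : ∀ ζ₂ ζ₃ ζ₄ : IrrCharacter G,
      (∀ χ, χ ∈ principalBlock M G ↔ χ = τ ∨ χ = ζ₂ ∨ χ = ζ₃ ∨ χ = ζ₄) → ζ₂ ≠ τ → ζ₃ ≠ τ →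
      ζ₂ ≠ ζ₃ → ζ₂ ≠ ζ₄ → ζ₃ ≠ ζ₄ → v ζ₂ = 1 → v ζ₄ = -1 → (v ζ₃ = 1 ∨ v ζ₃ = -1) →
      (∀ y : G, ¬ 2 ∣ orderOf y → 1 + (v ζ₂ : ℂ) * (ζ₂ : G → ℂ) y +
        (v ζ₃ : ℂ) * (ζ₃ : G → ℂ) y + (v ζ₄ : ℂ) * (ζ₄ : G → ℂ) y = 0) →
      ∃ ζ₂ ζ₃ ζ₄ : IrrCharacter G, ∃ ε : ℤ, (ε = 1 ∨ ε = -1) ∧ (ζ₂ : G → ℂ) ≠ (fun _ => 1) ∧
      (ζ₃ : G → ℂ) ≠ (fun _ => 1) ∧ ζ₂ ≠ ζ₃ ∧ ζ₂ ≠ ζ₄ ∧ ζ₃ ≠ ζ₄ ∧
      principalBlock M G = {χ : IrrCharacter G | (χ : G → ℂ) = (fun _ => 1) ∨ χ = ζ₂ ∨ χ = ζ₃ ∨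
        χ = ζ₄} ∧
      (∀ z : G, orderOf z = 2 → (ζ₂ : G → ℂ) z = 1 ∧ (ζ₃ : G → ℂ) z = (ε : ℂ) ∧
        (ζ₄ : G → ℂ) z = -1) ∧
      (4 : ℤ) ∣ (charDegree (ζ₂ : G → ℂ) : ℤ) - 1 ∧ (4 : ℤ) ∣ (charDegree (ζ₃ : G → ℂ) : ℤ) - ε ∧
      (4 : ℤ) ∣ (charDegree (ζ₄ : G → ℂ) : ℤ) + 1 ∧
      ∀ y : G, Odd (orderOf y) →
        1 + (ζ₂ : G → ℂ) y + (ε : ℂ) * (ζ₃ : G → ℂ) y - (ζ₄ : G → ℂ) y = 0 := by
    intro ζ₂ ζ₃ ζ₄ hp n2 n3 e23 e24 e34 v2 v4 v3 ho
    refine ⟨ζ₂, ζ₃, ζ₄, v ζ₃, v3, fun h => n2 (Subtype.ext (h.trans hτ.symm)),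
      fun h => n3 (Subtype.ext (h.trans hτ.symm)), e23, e24, e34, ?_, ?_, ?_, hmod ζ₃, ?_, ?_⟩
    · ext χ
      rw [hp]
      simp only [Set.mem_ofPred_eq]
      constructor
      · rintro (h | h)
        · left
          rw [h, hτ]
        · right
          exact h
      · rintro (h | h)
        · left
          exact Subtype.ext (h.trans hτ.symm)
        · right
          exact h
    · intro z hz
      refine ⟨?_, hinvol ζ₃ z hz, ?_⟩
      · rw [hinvol ζ₂ z hz, v2]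
        simp
      · rw [hinvol ζ₄ z hz, v4]
        simp
    · have h := hmod ζ₂
      rw [v2] at h
      exact h
    · have h := hmod ζ₄
      rw [v4, sub_neg_eq_add] at h
      exact h
    · intro y hy
      have h := ho y (fun h2 => (Nat.not_even_iff_odd.mpr hy) (even_iff_two_dvd.mpr h2))
      rw [v2, v4] at h
      push_cast at h
      linear_combination h
  rcases hA with ha' | ha' <;> rcases hB' with hb' | hb' <;> rcases hC with hc' | hc'
  · exact absurd ⟨ha', hb', hc'⟩ hnot1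
  · exact fin χ₂ χ₃ χ₄ hmemS hn2 hn3 h23 h24 h34 ha' hc' (Or.inl hb') hO
  · exact fin χ₂ χ₄ χ₃ (fun χ => (hmemS χ).trans perm243) hn2 hn4 h24 h23 h34.symm ha' hb'
      (Or.inl hc') (fun y hy => by linear_combination hO y hy)
  · exact fin χ₂ χ₃ χ₄ hmemS hn2 hn3 h23 h24 h34 ha' hc' (Or.inr hb') hO
  · exact fin χ₃ χ₄ χ₂ (fun χ => (hmemS χ).trans perm342) hn3 hn4 h34 h23.symm h24.symm hb' ha'
      (Or.inl hc') (fun y hy => by linear_combination hO y hy)
  · exact fin χ₃ χ₄ χ₂ (fun χ => (hmemS χ).trans perm342) hn3 hn4 h34 h23.symm h24.symm hb' ha'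
      (Or.inr hc') (fun y hy => by linear_combination hO y hy)
  · exact fin χ₄ χ₃ χ₂ (fun χ => (hmemS χ).trans perm432) hn4 hn3 h34.symm h24.symm h23.symm hc' ha'
      (Or.inr hb') (fun y hy => by linear_combination hO y hy)
  · exact absurd ⟨ha', hb', hc'⟩ hnot2

end Cfsg.Agent.Lib.Helper7.BKlein3
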