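import Mathlib
import Cfsg.Prelude.Def_Characters
import Cfsg.Agent.Lib.Helper7.All1

set_option autoImplicit false
set_option linter.style.haveILetI false
set_option linter.unusedSectionVars false
set_option linter.unusedVariables false

namespace Cfsg.Agent.Lib.Helper7.CharFrob

open Module Representation Cfsg
open Cfsg.Agent.Lib.Helper7.CharBasic Cfsg.Agent.Lib.Helper7.CharIrr Cfsg.Agent.Lib.Helper7.CharDecomp Cfsg.Agent.Lib.Helper7.CharComplete Cfsg.Agent.Lib.Helper7.CharOrth Cfsg.Agent.Lib.Helper7.CharInd Cfsg.Agent.Lib.Helper7.CharIntegral Cfsg.Agent.Lib.Helper7.CharBurnside Cfsg.Agent.Lib.Helper7.CharLinear Cfsg.Agent.Lib.Helper7.CharEquiv Cfsg.Agent.Lib.Helper7.CharMore Cfsg.Agent.Lib.Helper7.CharCount Cfsg.Agent.Lib.Helper7.CharMisc Cfsg.Agent.Lib.Helper7.CharMisc2 Cfsg.Agent.Lib.Helper7.CharNormal Cfsg.Agent.Lib.Helper7.CharOdd Cfsg.Agent.Lib.Helper7.CharClifford Cfsg.Agent.Lib.Helper7.CharProd Cfsg.Agent.Lib.Helper7.CharPerm Cfsg.Agent.Lib.Helper7.CharClassAlg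 Cfsg.Agent.Lib.Helper7.CharClassAlg2 Cfsg.Agent.Lib.Helper7.CharCentral Cfsg.Agent.Lib.Helper7.CharNormal2 Cfsg.Agent.Lib.Helper7.CharCliffordCorr
open scoped ComplexConjugate

variable {G : Type*} [Group G]

variable {G : Type*} [Group G]

theorem mem_of_conjFun_eq [Finite G] (N : Subgroup G) [hN : N.Normal]
    (hC : ∀ n ∈ N, n ≠ 1 → Subgroup.centralizer ({n} : Set G) ≤ N)
    {φ : N → ℂ} (hφ : IsIrrCharacter N φ) (hφ1 : φ ≠ fun _ => 1) (g : G)
    (hg : conjFun N φ g = φ) : g ∈ N := by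
  classical
  haveI := Fintype.ofFinite N
  by_contra hgN
  have key := card_fixed_classes_eq_card_fixed_irr (MulAut.conjNormal g : N ≃* N)
  have h1 : Subsingleton {C : ConjClasses N //
      ConjClasses.map (MulAut.conjNormal g : N ≃* N).toMonoidHom C = C} := by
    have hall : ∀ C : {C : ConjClasses N //
      ConjClasses.map (MulAut.conjNormal g : N ≃* N).toMonoidHom C = C}, C.1 = ConjClasses.mk 1 := by
      rintro ⟨C, hCC⟩
      obtain ⟨n, rfl⟩ := ConjClasses.exists_rep C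
      simp only
      by_cases hn : n = 1
      · rw [hn]
      exfalso
      have hCC' : ConjClasses.mk ((MulAut.conjNormal g : N ≃* N) n) = ConjClasses.mk n := hCC
      rw [ConjClasses.mk_eq_mk_iff_isConj, isConj_iff] at hCC'
      replace hCC := hCC'
      obtain ⟨m, hm⟩ := hCC
      have hm' : (m : G) * (g * n * g⁻¹) * (m : G)⁻¹ = n := by
        have := congrArg (Subtype.val) hm
        simpa using this
      have hmem : (m : G) * g ∈ Subgroup.centralizer ({(n : G)} : Set G) := by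
        rw [Subgroup.mem_centralizer_singleton_iff]
        calc (m : G) * g * n = ((m : G) * (g * n * g⁻¹) * (m : G)⁻¹) * (m * g) := by group
          _ = n * (m * g) := by rw [hm']
      have h2 := hC n n.2 (by simpa using hn) hmem
      exact hgN ((Subgroup.mul_mem_cancel_left N m.2).mp h2)
    constructor
    intro a b
    apply Subtype.ext
    rw [hall a, hall b]
  have h2 : Nat.card {C : ConjClasses N //
      ConjClasses.map (MulAut.conjNormal g : N ≃* N).toMonoidHom C = C} ≤ 1 :=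
    Finite.card_le_one_iff_subsingleton.mpr h1
  rw [key] at h2
  have h3 := Finite.card_le_one_iff_subsingleton.mp h2
  have e1 : {χ : IrrCharacter N // (χ : N → ℂ) ∘ (MulAut.conjNormal g : N ≃* N) = (χ : N → ℂ)} :=
    ⟨⟨fun _ => 1, isIrrCharacter_one⟩, rfl⟩
  have e2 : {χ : IrrCharacter N // (χ : N → ℂ) ∘ (MulAut.conjNormal g : N ≃* N) = (χ : N → ℂ)} :=
    ⟨⟨φ, hφ⟩, by
      funext n
      have := congrFun hg n
      rw [conjFun_apply] at this
      simp only [Function.comp]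
      rw [← this]
      congr 1⟩
  have h4 : (⟨⟨fun _ => 1, isIrrCharacter_one⟩, rfl⟩ : {χ : IrrCharacter N // (χ : N → ℂ) ∘ (MulAut.conjNormal g : N ≃* N) = (χ : N → ℂ)}) = ⟨⟨φ, hφ⟩, by
      funext n
      have := congrFun hg n
      rw [conjFun_apply] at this
      simp only [Function.comp]
      rw [← this]
      congr 1⟩ := h3.elim _ _
  have h5 := congrArg (fun x => (x.1 : N → ℂ)) h4
  exact hφ1 h5.symm

theorem indFun_irr_of_frob [Fintype G] (N : Subgroup G) [hN : N.Normal]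
    (hC : ∀ n ∈ N, n ≠ 1 → Subgroup.centralizer ({n} : Set G) ≤ N)
    {φ : N → ℂ} (hφ : IsIrrCharacter N φ) (hφ1 : φ ≠ fun _ => 1) :
    IsIrrCharacter G (indFun N φ) := by
  classical
  apply isIrrCharacter_of_norm_one (isCharacter_indFun N φ (IsIrrCharacter.isCharacter hφ))
  have h1 := card_mul_norm_indFun N φ hφ
  have h2 : Nat.card {g : G // ∀ h : N, φ ⟨g * h * g⁻¹, hN.conj_mem h h.2 g⟩ = φ h} = Nat.card N := by
    apply Nat.card_congr
    apply Equiv.subtypeEquivRight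
    intro g
    constructor
    · intro h
      exact mem_of_conjFun_eq N hC hφ hφ1 g (funext h)
    · intro hg h
      have := IsIrrCharacter.isClassFunction hφ h ⟨g, hg⟩
      rw [← this]
      congr 1
  rw [h2] at h1
  have h3 : (Nat.card N : ℂ) ≠ 0 := card_ne_zero
  exact mul_left_cancel₀ h3 (h1.trans (mul_one _).symm)

theorem exists_nontrivial_constituent [Fintype G] {χ : G → ℂ} (hχ : IsCharacter G χ)
    (hker : ∃ n, χ n ≠ χ 1) :
    ∃ φ : G → ℂ, IsIrrCharacter G φ ∧ φ ≠ (fun _ => 1) ∧ classInner χ φ ≠ 0 := by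
  classical
  haveI := Fintype.ofFinite (IrrCharacter G)
  by_contra hcon
  push Not at hcon
  obtain ⟨m, hm1, hm2⟩ := exists_mult hχ
  obtain ⟨n, hn⟩ := hker
  apply hn
  set T : IrrCharacter G := ⟨fun _ => 1, isIrrCharacter_one⟩ with hT
  have h1 : χ = (m T : ℂ) • (T : G → ℂ) := by
    rw [hm2]
    apply Finset.sum_eq_single T
    · intro ψ _ hψ
      have h2 := hcon ψ ψ.2 (fun h => hψ (Subtype.ext h))
      rw [hm1] at h2
      rw [h2, zero_smul]
    · intro h; exact absurd (Finset.mem_univ _) h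
  rw [h1]
  simp [hT]

theorem exists_induced_of_frob [Fintype G] (N : Subgroup G) [hN : N.Normal]
    (hC : ∀ n ∈ N, n ≠ 1 → Subgroup.centralizer ({n} : Set G) ≤ N)
    (χ : G → ℂ) (hχ : IsIrrCharacter G χ) (hker : ∃ n ∈ N, χ n ≠ χ 1) :
    ∃ φ : N → ℂ, IsIrrCharacter N φ ∧ φ ≠ (fun _ => 1) ∧ χ = indFun N φ := by
  classical
  haveI := Fintype.ofFinite N
  obtain ⟨n, hn, hn1⟩ := hker
  obtain ⟨φ, hφ, hφ1, hc⟩ := exists_nontrivial_constituent
    (isCharacter_restrict N (IsIrrCharacter.isCharacter hχ)) ⟨⟨n, hn⟩, hn1⟩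
  refine ⟨φ, hφ, hφ1, ?_⟩
  have hirr := indFun_irr_of_frob N hC hφ hφ1
  by_contra hne
  have h1 := classInner_irr hirr hχ
  rw [if_neg (fun h => hne h.symm), frobenius_reciprocity _ _ _ (IsIrrCharacter.isClassFunction hχ)] at h1
  apply hc
  rw [← classInner_conj_symm, h1, map_zero]

theorem frob_centralizer [Finite G] (K H : Subgroup G) [hK : K.Normal] (hKH' : K ⊔ H = ⊤)
    (hfpf : ∀ h ∈ H, h ≠ 1 → ∀ k ∈ K, h * k = k * h → k = 1) :
    ∀ n ∈ K, n ≠ 1 → Subgroup.centralizer ({n} : Set G) ≤ K := by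
  classical
  intro n hn hn1 g hg
  have hgtop : g ∈ K ⊔ H := by rw [hKH']; trivial
  rw [← SetLike.mem_coe, Subgroup.normal_mul, Set.mem_mul] at hgtop
  obtain ⟨k', hk', h, hh, rfl⟩ := hgtop
  by_cases h1 : h = 1
  · rw [h1, mul_one]; exact hk'
  exfalso
  -- the map u ↦ u⁻¹ * (h u h⁻¹) on K is injective hence surjective
  let f : K → K := fun u => ⟨(u : G)⁻¹ * (h * u * h⁻¹), K.mul_mem (K.inv_mem u.2) (hK.conj_mem u u.2 h)⟩
  have hinj : Function.Injective f := by
    intro u v huv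
    have h2 : (u : G)⁻¹ * (h * u * h⁻¹) = (v : G)⁻¹ * (h * v * h⁻¹) := congrArg Subtype.val huv
    have h3 : h * ((u : G) * (v : G)⁻¹) = ((u : G) * (v : G)⁻¹) * h := by
      have : (v : G) * (u : G)⁻¹ * (h * u * h⁻¹) = h * v * h⁻¹ := by
        rw [mul_assoc, h2]; group
      calc h * ((u : G) * (v : G)⁻¹) = (u * (v:G)⁻¹) * ((v : G) * (u : G)⁻¹ * (h * u * h⁻¹)) * (h * (v:G)⁻¹) := by group
        _ = (u * (v:G)⁻¹) * (h * v * h⁻¹) * (h * (v:G)⁻¹) := by rw [this]
        _ = _ := by group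
    have h4 := hfpf h hh h1 _ (K.mul_mem u.2 (K.inv_mem v.2)) h3
    apply Subtype.ext
    exact mul_inv_eq_one.mp h4
  have hsurj : Function.Surjective f := Finite.surjective_of_injective hinj
  obtain ⟨u, hu⟩ := hsurj ⟨k', hk'⟩
  have hu' : (u : G)⁻¹ * (h * u * h⁻¹) = k' := congrArg Subtype.val hu
  rw [Subgroup.mem_centralizer_singleton_iff] at hg
  have h5 : h * ((u : G) * n * (u : G)⁻¹) = ((u : G) * n * (u : G)⁻¹) * h := by
    have e1 : k' * h = (u : G)⁻¹ * h * u := by rw [← hu']; group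
    rw [e1] at hg
    calc h * ((u : G) * n * (u : G)⁻¹) = u * ((u : G)⁻¹ * h * u * n) * (u : G)⁻¹ := by group
      _ = u * (n * ((u : G)⁻¹ * h * u)) * (u : G)⁻¹ := by rw [hg]
      _ = _ := by group
  have h6 := hfpf h hh h1 _ (hK.conj_mem n hn u) h5
  apply hn1
  have : n = (u : G)⁻¹ * ((u : G) * n * (u : G)⁻¹) * u := by group
  rw [this, h6]; group

end Cfsg.Agent.Lib.Helper7.CharFrob
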