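import Mathlib
import Cfsg.Prelude.Def_Characters
import Cfsg.Agent.Lib.Helper7.All1

set_option autoImplicit false
set_option linter.style.haveILetI false
set_option linter.unusedSectionVars false
set_option linter.unusedVariables false
set_option linter.unusedSimpArgs false

namespace Cfsg.Agent.Lib.Helper7.Glaub0

open Module Representation Cfsg
open Cfsg.Agent.Lib.Helper7.CharBasic Cfsg.Agent.Lib.Helper7.CharIrr Cfsg.Agent.Lib.Helper7.CharDecomp Cfsg.Agent.Lib.Helper7.CharComplete Cfsg.Agent.Lib.Helper7.CharOrth Cfsg.Agent.Lib.Helper7.CharInd Cfsg.Agent.Lib.Helper7.CharIntegral Cfsg.Agent.Lib.Helper7.CharBurnside Cfsg.Agent.Lib.Helper7.CharLinear Cfsg.Agent.Lib.Helper7.CharEquiv Cfsg.Agent.Lib.Helper7.CharMore Cfsg.Agent.Lib.Helper7.CharCount Cfsg.Agent.Lib.Helper7.CharMisc Cfsg.Agent.Lib.Helper7.CharMisc2 Cfsg.Agent.Lib.Helper7.CharNormal Cfsg.Agent.Lib.Helper7.CharOdd Cfsg.Agent.Lib.Helper7.CharClifford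 Cfsg.Agent.Lib.Helper7.CharProd Cfsg.Agent.Lib.Helper7.CharPerm Cfsg.Agent.Lib.Helper7.CharClassAlg Cfsg.Agent.Lib.Helper7.CharClassAlg2 Cfsg.Agent.Lib.Helper7.CharCentral Cfsg.Agent.Lib.Helper7.CharNormal2 Cfsg.Agent.Lib.Helper7.CharCliffordCorr
open scoped ComplexConjugate

variable {Γ : Type*} [Group Γ]

theorem pow_eq_self_of_modEq {x : Γ} {n e : ℕ} (hx : x ^ n = 1) (he : e ≡ 1 [MOD n]) : x ^ e = x := by
  have h1 : e ≡ 1 [MOD orderOf x] := he.of_dvd (orderOf_dvd_of_pow_eq_one hx)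
  have := pow_eq_pow_iff_modEq.mpr h1
  rwa [pow_one] at this

theorem pow_eq_one_of_modEq {x : Γ} {n e : ℕ} (hx : x ^ n = 1) (he : e ≡ 0 [MOD n]) : x ^ e = 1 := by
  have h1 : e ≡ 0 [MOD orderOf x] := he.of_dvd (orderOf_dvd_of_pow_eq_one hx)
  have := pow_eq_pow_iff_modEq.mpr h1
  rwa [pow_zero] at this

theorem pow_eq_pow_of_modEq {x : Γ} {n e k : ℕ} (hx : x ^ n = 1) (he : e ≡ k [MOD n]) :
    x ^ e = x ^ k :=
  pow_eq_pow_iff_modEq.mpr (he.of_dvd (orderOf_dvd_of_pow_eq_one hx))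

theorem pow_card_mem [Finite Γ] (G : Subgroup Γ) {g : Γ} (hg : g ∈ G) : g ^ Nat.card G = 1 := by
  have : (⟨g, hg⟩ : G) ^ Nat.card G = 1 := pow_card_eq_one'
  have h2 := congrArg Subtype.val this
  rwa [Subgroup.coe_pow, Subgroup.coe_one] at h2

section
variable [Finite Γ] (G C : Subgroup Γ) (s : Γ)
  (hcop : (Nat.card G).Coprime (orderOf s))
  (hC : ∀ y, y ∈ C ↔ y ∈ G ∧ y * s = s * y)

include hcop hC in
theorem exists_exp : ∃ e : ℕ, s ^ e = s ∧ ∀ c ∈ C, (c * s) ^ e = s := by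
  obtain ⟨e, he0, he1⟩ := Nat.chineseRemainder hcop 0 1
  have hs : s ^ e = s := pow_eq_self_of_modEq (pow_orderOf_eq_one s) he1
  refine ⟨e, hs, ?_⟩
  intro c hc
  have h1 : Commute c s := ((hC c).mp hc).2
  rw [h1.mul_pow, hs, pow_eq_one_of_modEq (pow_card_mem G ((hC c).mp hc).1) he0, one_mul]

include hcop hC in
theorem comm_of_conj {h c c' : Γ} (hc : c ∈ C) (hc' : c' ∈ C)
    (heq : h * (c * s) * h⁻¹ = c' * s) : h * s = s * h := by
  obtain ⟨e, _, he⟩ := exists_exp G C s hcop hC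
  have h1 : (h * (c * s) * h⁻¹) ^ e = (c' * s) ^ e := by rw [heq]
  rw [conj_pow, he c hc, he c' hc'] at h1
  calc h * s = h * s * h⁻¹ * h := by group
    _ = s * h := by rw [h1]

end

section
variable [Fintype Γ] (G C : Subgroup Γ) [Fintype G] [Fintype C] (s : Γ)
  (hs : ∀ g ∈ G, s * g * s⁻¹ ∈ G)
  (hcop : (Nat.card G).Coprime (orderOf s))
  (hC : ∀ y, y ∈ C ↔ y ∈ G ∧ y * s = s * y)

/-- the map `(g, c) ↦ g c s g⁻¹ s⁻¹`. -/
def fib (hs : ∀ g ∈ G, s * g * s⁻¹ ∈ G) (hC : ∀ y, y ∈ C ↔ y ∈ G ∧ y * s = s * y) (a : G × C) : G :=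
  ⟨(a.1 : Γ) * (a.2 : Γ) * s * (a.1 : Γ)⁻¹ * s⁻¹, by
    have h1 : (a.1 : Γ) * (a.2 : Γ) * s * (a.1 : Γ)⁻¹ * s⁻¹ =
        (a.1 : Γ) * (a.2 : Γ) * (s * (a.1 : Γ)⁻¹ * s⁻¹) := by group
    rw [h1]
    exact G.mul_mem (G.mul_mem a.1.2 ((hC _).mp a.2.2).1) (hs _ (G.inv_mem a.1.2))⟩

include hcop in
theorem card_fib [DecidableEq G] (a : G × C) :
    (Finset.univ.filter (fun a' : G × C => fib G C s hs hC a' = fib G C s hs hC a)).card =
      Fintype.card C := by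
  classical
  let j : C → G × C := fun h => (a.1 * ⟨(h : Γ)⁻¹, G.inv_mem ((hC _).mp h.2).1⟩, h * a.2 * h⁻¹)
  have hj : Function.Injective j := by
    intro h h' hh
    have h1 := congrArg (fun x : G × C => ((x.1 : G) : Γ)) hh
    simp only [j, Subgroup.coe_mul] at h1
    have h2 : (h : Γ)⁻¹ = (h' : Γ)⁻¹ := mul_left_cancel h1
    exact Subtype.ext (inv_injective h2)
  have himg : Finset.univ.filter (fun a' : G × C => fib G C s hs hC a' = fib G C s hs hC a) =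
      Finset.univ.image j := by
    ext a'
    simp only [Finset.mem_filter, Finset.mem_univ, true_and, Finset.mem_image]
    constructor
    · intro h
      have h1 : (a'.1 : Γ) * (a'.2 : Γ) * s * (a'.1 : Γ)⁻¹ * s⁻¹ =
          (a.1 : Γ) * (a.2 : Γ) * s * (a.1 : Γ)⁻¹ * s⁻¹ := congrArg Subtype.val h
      have h2 : ((a'.1 : Γ)⁻¹ * (a.1 : Γ)) * ((a.2 : Γ) * s) * ((a'.1 : Γ)⁻¹ * (a.1 : Γ))⁻¹ =
          (a'.2 : Γ) * s := by
        have h3 : (a'.1 : Γ) * (a'.2 : Γ) * s * (a'.1 : Γ)⁻¹ =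
          (a.1 : Γ) * (a.2 : Γ) * s * (a.1 : Γ)⁻¹ := mul_right_cancel h1
        calc ((a'.1 : Γ)⁻¹ * (a.1 : Γ)) * ((a.2 : Γ) * s) * ((a'.1 : Γ)⁻¹ * (a.1 : Γ))⁻¹
            = (a'.1 : Γ)⁻¹ * ((a.1 : Γ) * (a.2 : Γ) * s * (a.1 : Γ)⁻¹) * (a'.1 : Γ) := by group
          _ = (a'.2 : Γ) * s := by rw [← h3]; group
      have h4 := comm_of_conj G C s hcop hC a.2.2 a'.2.2 h2
      have h5 : (a'.1 : Γ)⁻¹ * (a.1 : Γ) ∈ C :=
        (hC _).mpr ⟨G.mul_mem (G.inv_mem a'.1.2) a.1.2, h4⟩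
      refine ⟨⟨_, h5⟩, ?_⟩
      apply Prod.ext
      · apply Subtype.ext
        simp only [j, Subgroup.coe_mul]
        group
      · apply Subtype.ext
        simp only [j, Subgroup.coe_mul, Subgroup.coe_inv]
        have h6 : ((a'.1 : Γ)⁻¹ * (a.1 : Γ)) * (a.2 : Γ) * ((a'.1 : Γ)⁻¹ * (a.1 : Γ))⁻¹ * s =
            (a'.2 : Γ) * s := by
          rw [← h2]
          have h7 : ((a'.1 : Γ)⁻¹ * (a.1 : Γ))⁻¹ * s = s * ((a'.1 : Γ)⁻¹ * (a.1 : Γ))⁻¹ := by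
            have := h4
            calc ((a'.1 : Γ)⁻¹ * (a.1 : Γ))⁻¹ * s
                = ((a'.1 : Γ)⁻¹ * (a.1 : Γ))⁻¹ * (s * ((a'.1 : Γ)⁻¹ * (a.1 : Γ))) *
                  ((a'.1 : Γ)⁻¹ * (a.1 : Γ))⁻¹ := by group
              _ = s * ((a'.1 : Γ)⁻¹ * (a.1 : Γ))⁻¹ := by rw [← this]; group
          rw [mul_assoc _ _ s, h7]
          simp only [mul_assoc]
        exact mul_right_cancel h6
    · rintro ⟨h, rfl⟩
      apply Subtype.ext
      have h1 : (h : Γ) * s = s * h := ((hC _).mp h.2).2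
      have h2 : (h : Γ)⁻¹ * s = s * (h : Γ)⁻¹ := by
        calc (h : Γ)⁻¹ * s = (h : Γ)⁻¹ * (s * h) * (h : Γ)⁻¹ := by group
          _ = s * (h : Γ)⁻¹ := by rw [← h1]; group
      simp only [fib, j, Subgroup.coe_mul, Subgroup.coe_inv]
      calc (a.1 : Γ) * (h : Γ)⁻¹ * ((h : Γ) * (a.2 : Γ) * (h : Γ)⁻¹) * s * ((a.1 : Γ) * (h : Γ)⁻¹)⁻¹ * s⁻¹
          = (a.1 : Γ) * (a.2 : Γ) * ((h : Γ)⁻¹ * s) * (h : Γ) * (a.1 : Γ)⁻¹ * s⁻¹ := by group
        _ = (a.1 : Γ) * (a.2 : Γ) * s * (a.1 : Γ)⁻¹ * s⁻¹ := by rw [h2]; group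
  rw [himg, Finset.card_image_of_injective _ hj, Finset.card_univ]

include hcop in
theorem fib_surjective : Function.Surjective (fib G C s hs hC) := by
  classical
  have h1 := Finset.card_eq_sum_card_image (fib G C s hs hC) (Finset.univ : Finset (G × C))
  have h2 : ∑ b ∈ (Finset.univ : Finset (G × C)).image (fib G C s hs hC),
      (Finset.univ.filter (fun a' : G × C => fib G C s hs hC a' = b)).card =
      ∑ b ∈ (Finset.univ : Finset (G × C)).image (fib G C s hs hC), Fintype.card C := by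
    apply Finset.sum_congr rfl
    intro b hb
    obtain ⟨a, _, rfl⟩ := Finset.mem_image.mp hb
    exact card_fib G C s hs hcop hC a
  rw [h2, Finset.sum_const, Finset.card_univ, Fintype.card_prod, smul_eq_mul] at h1
  have h3 : ((Finset.univ : Finset (G × C)).image (fib G C s hs hC)).card = Fintype.card G :=
    (Nat.eq_of_mul_eq_mul_right Fintype.card_pos h1).symm
  have h4 := Finset.eq_univ_of_card _ h3
  intro y
  have : y ∈ (Finset.univ : Finset (G × C)).image (fib G C s hs hC) := by rw [h4]; exact Finset.mem_univ _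
  obtain ⟨a, _, ha⟩ := Finset.mem_image.mp this
  exact ⟨a, ha⟩

include hs hcop hC in
theorem exists_conj {y : Γ} (hy : y ∈ G) : ∃ g ∈ G, ∃ c ∈ C, y * s = g * (c * s) * g⁻¹ := by
  obtain ⟨a, ha⟩ := fib_surjective G C s hs hcop hC ⟨y, hy⟩
  refine ⟨a.1, a.1.2, a.2, a.2.2, ?_⟩
  have h1 : (a.1 : Γ) * (a.2 : Γ) * s * (a.1 : Γ)⁻¹ * s⁻¹ = y := congrArg Subtype.val ha
  rw [← h1]; group

include hs hcop hC in
theorem sum_coset (F : Γ → ℂ) (hF : ∀ g ∈ G, ∀ x, F (g * x * g⁻¹) = F x) :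
    (Nat.card C : ℂ) * ∑ y : G, F ((y : Γ) * s) = (Nat.card G : ℂ) * ∑ c : C, F ((c : Γ) * s) := by
  classical
  have h1 := Finset.sum_comp (s := (Finset.univ : Finset (G × C))) (fun y : G => F ((y : Γ) * s))
    (fib G C s hs hC)
  have h2 : (Finset.univ : Finset (G × C)).image (fib G C s hs hC) = Finset.univ := by
    ext y
    simp only [Finset.mem_image, Finset.mem_univ, true_and, iff_true]
    exact fib_surjective G C s hs hcop hC y
  rw [h2] at h1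
  have h3 : ∀ b : G, (Finset.univ.filter (fun a' : G × C => fib G C s hs hC a' = b)).card =
      Fintype.card C := by
    intro b
    obtain ⟨a, rfl⟩ := fib_surjective G C s hs hcop hC b
    exact card_fib G C s hs hcop hC a
  simp only [h3, nsmul_eq_mul] at h1
  rw [← Finset.mul_sum, Fintype.sum_prod_type] at h1
  have h4 : ∀ (g : G) (c : C), F (((fib G C s hs hC (g, c) : G) : Γ) * s) = F ((c : Γ) * s) := by
    intro g c
    rw [← hF g g.2 ((c : Γ) * s)]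
    congr 1
    simp only [fib]
    group
  simp only [h4, Finset.sum_const, Finset.card_univ, nsmul_eq_mul] at h1
  rw [Nat.card_eq_fintype_card, Nat.card_eq_fintype_card, ← h1]

end

section
variable [Finite Γ] (G C : Subgroup Γ) (s : Γ)
  (hs : ∀ g ∈ G, s * g * s⁻¹ ∈ G)
  (hcop : (Nat.card G).Coprime (orderOf s))
  (hC : ∀ y, y ∈ C ↔ y ∈ G ∧ y * s = s * y)

include hs hcop hC in
/-- elements of `C` conjugate in `G` are conjugate in `C`. -/
theorem conj_in_C {c c' g : Γ} (hc : c ∈ C) (hc' : c' ∈ C) (hg : g ∈ G) (h : g * c * g⁻¹ = c') :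
    ∃ k ∈ C, k * c * k⁻¹ = c' := by
  classical
  haveI := Fintype.ofFinite Γ
  have hcs : c * s = s * c := ((hC c).mp hc).2
  have hcs' : c' * s = s * c' := ((hC c').mp hc').2
  have hcs'' : c' * s⁻¹ = s⁻¹ * c' := by
    calc c' * s⁻¹ = s⁻¹ * (s * c') * s⁻¹ := by group
      _ = s⁻¹ * c' := by rw [← hcs']; group
  let G₁ : Subgroup Γ := G ⊓ Subgroup.centralizer {c'}
  let C₁ : Subgroup Γ := C ⊓ Subgroup.centralizer {c'}
  have hmem : ∀ y, y ∈ Subgroup.centralizer ({c'} : Set Γ) ↔ c' * y = y * c' := by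
    intro y; rw [Subgroup.mem_centralizer_singleton_iff]; exact eq_comm
  have hC₁ : ∀ y, y ∈ C₁ ↔ y ∈ G₁ ∧ y * s = s * y := by
    intro y
    simp only [C₁, G₁, Subgroup.mem_inf, hC y]
    tauto
  have hs₁ : ∀ y ∈ G₁, s * y * s⁻¹ ∈ G₁ := by
    intro y hy
    refine ⟨hs y hy.1, (hmem _).mpr ?_⟩
    have h1 := (hmem y).mp hy.2
    calc c' * (s * y * s⁻¹) = (c' * s) * y * s⁻¹ := by group
      _ = s * (c' * y) * s⁻¹ := by rw [hcs']; group
      _ = s * y * (c' * s⁻¹) := by rw [h1]; group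
      _ = s * y * s⁻¹ * c' := by rw [hcs'']; group
  have hcop₁ : (Nat.card G₁).Coprime (orderOf s) :=
    Nat.Coprime.coprime_dvd_left (Subgroup.card_dvd_of_le inf_le_left) hcop
  have hy : g * s * g⁻¹ * s⁻¹ ∈ G₁ := by
    refine ⟨?_, (hmem _).mpr ?_⟩
    · have : g * s * g⁻¹ * s⁻¹ = g * (s * g⁻¹ * s⁻¹) := by group
      rw [this]; exact G.mul_mem hg (hs _ (G.inv_mem hg))
    · have h1 : c' * (g * s * g⁻¹) = (g * s * g⁻¹) * c' := by
        rw [← h]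
        calc g * c * g⁻¹ * (g * s * g⁻¹) = g * (c * s) * g⁻¹ := by group
          _ = g * s * g⁻¹ * (g * c * g⁻¹) := by rw [hcs]; group
      calc c' * (g * s * g⁻¹ * s⁻¹) = (c' * (g * s * g⁻¹)) * s⁻¹ := by group
        _ = g * s * g⁻¹ * (c' * s⁻¹) := by rw [h1]; group
        _ = g * s * g⁻¹ * s⁻¹ * c' := by rw [hcs'']; group
  obtain ⟨k, hk, c₁, hc₁, heq⟩ := exists_conj G₁ C₁ s hs₁ hcop₁ hC₁ hy
  obtain ⟨e, he, he'⟩ := exists_exp G₁ C₁ s hcop₁ hC₁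
  have h1 : g * s * g⁻¹ = k * (c₁ * s) * k⁻¹ := by rw [← heq]; group
  have h2 : (g * s * g⁻¹) ^ e = (k * (c₁ * s) * k⁻¹) ^ e := by rw [h1]
  rw [conj_pow, conj_pow, he, he' c₁ hc₁] at h2
  have h3 : (k⁻¹ * g) * s = s * (k⁻¹ * g) := by
    calc (k⁻¹ * g) * s = k⁻¹ * (g * s * g⁻¹) * g := by group
      _ = s * (k⁻¹ * g) := by rw [h2]; group
  refine ⟨k⁻¹ * g, (hC _).mpr ⟨G.mul_mem (G.inv_mem hk.1) hg, h3⟩, ?_⟩
  have h4 := (hmem k).mp hk.2
  calc k⁻¹ * g * c * (k⁻¹ * g)⁻¹ = k⁻¹ * (g * c * g⁻¹) * k := by group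
    _ = k⁻¹ * (c' * k) := by rw [h]; group
    _ = c' := by rw [h4]; group

end

end Cfsg.Agent.Lib.Helper7.Glaub0
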