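import Mathlib
import Cfsg.Prelude.Def_Characters
import Cfsg.Prelude.Def_CharExt
import Cfsg.Agent.Lib.Helper7.All1
import Cfsg.Agent.Lib.Helper7.CharKer
import Cfsg.Agent.Lib.Helper7.CharRes
import Cfsg.Agent.Lib.Helper7.CharGen
import Cfsg.Agent.Lib.Helper7.GalC
import Cfsg.Agent.Lib.Helper7.CharGalois
import Cfsg.Agent.Lib.Helper7.Transfer1
import Cfsg.Agent.Lib.Helper7.ProjExt1
import Cfsg.Agent.Lib.Helper7.ProjExt2
import Cfsg.Agent.Lib.Helper7.ProjExt4
import Cfsg.Agent.Lib.Helper7.CharGallagher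
import Cfsg.Agent.Lib.Helper7.CharGallagher2
import Cfsg.Agent.Lib.Helper7.ProjExt5
import Cfsg.Agent.Lib.Helper7.CharZeros
import Cfsg.Agent.Lib.Helper7.CosetZero
import Cfsg.Agent.Lib.Helper7.Glaub0

set_option autoImplicit false
set_option linter.style.haveILetI false
set_option linter.unusedSectionVars false
set_option linter.unusedVariables false
set_option linter.unusedSimpArgs false

namespace Cfsg.Agent.Lib.Helper7.Glaub1

open Module Representation Cfsg
open Cfsg.Agent.Lib.Helper7.CharBasic Cfsg.Agent.Lib.Helper7.CharIrr Cfsg.Agent.Lib.Helper7.CharDecomp Cfsg.Agent.Lib.Helper7.CharComplete Cfsg.Agent.Lib.Helper7.CharOrth Cfsg.Agent.Lib.Helper7.CharInd Cfsg.Agent.Lib.Helper7.CharIntegral Cfsg.Agent.Lib.Helper7.CharBurnside Cfsg.Agent.Lib.Helper7.CharLinear Cfsg.Agent.Lib.Helper7.CharEquiv Cfsg.Agent.Lib.Helper7.CharMore Cfsg.Agent.Lib.Helper7.CharCount Cfsg.Agent.Lib.Helper7.CharMisc Cfsg.Agent.Lib.Helper7.CharMisc2 Cfsg.Agent.Lib.Helper7.CharNormal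 Cfsg.Agent.Lib.Helper7.CharOdd Cfsg.Agent.Lib.Helper7.CharClifford Cfsg.Agent.Lib.Helper7.CharProd Cfsg.Agent.Lib.Helper7.CharPerm Cfsg.Agent.Lib.Helper7.CharClassAlg Cfsg.Agent.Lib.Helper7.CharClassAlg2 Cfsg.Agent.Lib.Helper7.CharCentral Cfsg.Agent.Lib.Helper7.CharNormal2 Cfsg.Agent.Lib.Helper7.CharCliffordCorr Cfsg.Agent.Lib.Helper7.CharKer Cfsg.Agent.Lib.Helper7.CharRes Cfsg.Agent.Lib.Helper7.CharGen Cfsg.Agent.Lib.Helper7.GalC Cfsg.Agent.Lib.Helper7.CharGalois Cfsg.Agent.Lib.Helper7.Transfer1 Cfsg.Agent.Lib.Helper7.ProjExt1 Cfsg.Agent.Lib.Helper7.ProjExt2 Cfsg.Agent.Lib.Helper7.ProjExt4 Cfsg.Agent.Lib.Helper7.CharGallagher Cfsg.Agent.Lib.Helper7.CharGallagher2 Cfsg.Agent.Lib.Helper7.ProjExt5 Cfsg.Agent.Lib.Helper7.CharZeros Cfsg.Agent.Lib.Helper7.CosetZero Cfsg.Agent.Lib.Helper7.Glaub0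
open scoped ComplexConjugate

variable {G : Type*} [Group G]

theorem detChar_map [Finite G] (σ : ℂ →+* ℂ) {χ : G → ℂ} (hχ : IsCharacter G χ) :
    detChar (fun g => σ (χ g)) = fun g => σ (detChar χ g) := by
  obtain ⟨n, ρ, rfl⟩ := hχ
  let ρ' : Representation ℂ G (Fin n → ℂ) :=
    { toFun := fun g => Matrix.toLin' ((LinearMap.toMatrix' (ρ g)).map σ)
      map_one' := by
        rw [map_one]
        have : LinearMap.toMatrix' (1 : (Fin n → ℂ) →ₗ[ℂ] (Fin n → ℂ)) = 1 :=
          LinearMap.toMatrix'_one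
        rw [this, Matrix.map_one σ (map_zero σ) (map_one σ), Matrix.toLin'_one]
        rfl
      map_mul' := by
        intro g h
        rw [map_mul, LinearMap.toMatrix'_mul, Matrix.map_mul, Matrix.toLin'_mul]
        rfl }
  have h1 : ρ'.character = fun g => σ (ρ.character g) := by
    funext g
    change LinearMap.trace ℂ _ (Matrix.toLin' ((LinearMap.toMatrix' (ρ g)).map σ)) = _
    rw [Matrix.trace_toLin'_eq]
    have h1 : ρ.character g = Matrix.trace (LinearMap.toMatrix' (ρ g)) := by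
      rw [← Matrix.trace_toLin'_eq, Matrix.toLin'_toMatrix']
      rfl
    rw [h1]
    simp only [Matrix.trace, Matrix.diag, Matrix.map_apply, map_sum]
  rw [← h1, detChar_eq ρ', detChar_eq ρ]
  funext g
  change LinearMap.det (Matrix.toLin' ((LinearMap.toMatrix' (ρ g)).map σ)) = σ (LinearMap.det (ρ g))
  rw [LinearMap.det_toLin', ← LinearMap.det_toMatrix' (ρ g), RingHom.map_det]
  rfl

theorem detOrder_map [Finite G] (σ : ℂ →+* ℂ) {χ : G → ℂ} (hχ : IsCharacter G χ) :
    detOrder (fun g => σ (χ g)) = detOrder χ := by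
  unfold detOrder
  rw [detChar_map σ hχ]
  let F : (G → ℂ) →* (G → ℂ) :=
    { toFun := fun f g => σ (f g)
      map_one' := by funext g; simp
      map_mul' := by intro a b; funext g; simp }
  exact orderOf_injective F (fun a b h => by funext g; exact σ.injective (congrFun h g)) (detChar χ)

theorem detOrder_pow [Finite G] {χ : G → ℂ} (hχ : IsCharacter G χ) {k : ℕ}
    (hk : k.Coprime (Nat.card G)) : detOrder (fun g => χ (g ^ k)) = detOrder χ := by
  obtain ⟨σ, hσ⟩ := exists_aut_of_pow_char (G := G) hk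
  have h1 : (fun g => χ (g ^ k)) = fun g => (σ : ℂ →+* ℂ) (χ g) := by
    funext g; exact (hσ χ hχ g).symm
  rw [h1, detOrder_map _ hχ]

theorem detOrder_dvd_card [Finite G] {χ : G → ℂ} (hχ : IsCharacter G χ) :
    detOrder χ ∣ Nat.card G := by
  obtain ⟨l, hl⟩ := exists_detHom_of_isCharacter hχ
  unfold detOrder
  rw [hl, orderOf_homToFun]
  exact orderOf_hom_dvd_card l

theorem pow_invariant [Finite G] (N : Subgroup G) [hN : N.Normal]
    (hcop : (Nat.card N).Coprime N.index)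
    {ψ : G → ℂ} (hψ : IsIrrCharacter G ψ) (hres : IsIrrCharacter N (fun g : N => ψ g))
    (hdet : (N.index).Coprime (detOrder ψ)) {k : ℕ} (hk : k.Coprime (Nat.card G))
    (hk1 : k ≡ 1 [MOD Nat.card N]) (x : G) : ψ (x ^ k) = ψ x := by
  have hψc := IsIrrCharacter.isCharacter hψ
  obtain ⟨d, _, hd⟩ := irr_one_pos hψ
  have hd' : (fun g : N => ψ g) 1 = d := hd
  have hc2 : Nat.Coprime N.index (detOrder (fun g : N => ψ g) * d) := by
    apply Nat.Coprime.mul_right
    · exact (Nat.Coprime.coprime_dvd_left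
        (detOrder_dvd_card (IsIrrCharacter.isCharacter hres)) hcop).symm
    · exact (Nat.Coprime.coprime_dvd_left (irr_degree_dvd_card hres hd') hcop).symm
  obtain ⟨χ, _, huniq⟩ := canonical_ext N (fun g : N => ψ g) hres
    (fun g n => IsCharacter.isClassFunction hψc n g) d hd' hc2
  have h1 := huniq ψ hψ (fun _ => rfl) hdet
  have h2 := huniq (fun x => ψ (x ^ k)) (isIrrCharacter_pow_coprime hψ hk)
    (fun n => by
      change ψ ((n : G) ^ k) = ψ n
      rw [pow_eq_self_of_modEq (pow_card_mem N n.2) hk1])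
    (by rw [detOrder_pow hψc hk]; exact hdet)
  have h3 := congrFun (h2.trans h1.symm) x
  exact h3

theorem isCharacter_partialInner {A B : Type*} [Group A] [Group B] [Fintype A] [Fintype B]
    {Φ : A × B → ℂ} (hΦ : IsCharacter (A × B) Φ) {β : A → ℂ} (hβ : IsIrrCharacter A β) :
    IsCharacter B (fun t => classInner (fun a => Φ (a, t)) β) := by
  have hθ := IsCharacter.isClassFunction hΦ
  apply isCharacter_of_classInner_nat
  · intro a b
    simp only [classInner]
    congr 1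
    apply Finset.sum_congr rfl
    intro x _
    have := hθ (x, a) (1, b)
    simp only [Prod.mk_mul_mk, one_mul, Prod.inv_mk, inv_one, mul_one] at this
    rw [this]
  · intro l hl
    have h5 : classInner (fun h => classInner (fun g => Φ (g, h)) β) l =
        classInner Φ (fun x : A × B => β x.1 * l x.2) := by
      simp only [classInner, Nat.card_prod, Fintype.sum_prod_type, map_mul, Nat.cast_mul, mul_inv]
      rw [Finset.sum_comm]
      simp only [Finset.mul_sum, Finset.sum_mul]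
      apply Finset.sum_congr rfl
      intro x _
      apply Finset.sum_congr rfl
      intro y _
      ring
    rw [h5]
    exact classInner_isCharacter_nat hΦ
      (isCharacter_prod (IsIrrCharacter.isCharacter hβ) (IsIrrCharacter.isCharacter hl))

theorem sum_pow_prime_pow {R : Type*} [CommRing R] {p : ℕ} (hp : p.Prime) (a : ℕ) {ι : Type*}
    (s : Finset ι) (x : ι → R) :
    ∃ r : R, (∑ i ∈ s, x i) ^ p ^ a = ∑ i ∈ s, x i ^ p ^ a + p * r := by
  classical
  induction s using Finset.induction_on with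
  | empty => exact ⟨0, by simp [hp.ne_zero]⟩
  | insert i s hi ih =>
    obtain ⟨r, hr⟩ := ih
    obtain ⟨r', hr'⟩ := exists_add_pow_prime_pow_eq hp (x i) (∑ i ∈ s, x i) a
    refine ⟨r + x i * (∑ i ∈ s, x i) * r', ?_⟩
    rw [Finset.sum_insert hi, Finset.sum_insert hi, hr', hr]
    ring

theorem int_dvd_of_isIntegral_div {z : ℤ} {p : ℕ} (hp : p ≠ 0) {r : ℂ} (hr : IsIntegral ℤ r)
    (h : (z : ℂ) = p * r) : (p : ℤ) ∣ z := by
  have hp' : (p : ℂ) ≠ 0 := Nat.cast_ne_zero.mpr hp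
  have h1 : r = (((z : ℚ) / (p : ℚ) : ℚ) : ℂ) := by
    push_cast
    rw [h]; field_simp
  rw [h1] at hr
  have h2 : IsIntegral ℤ ((z : ℚ) / (p : ℚ)) :=
    (isIntegral_algebraMap_iff (algebraMap ℚ ℂ).injective).mp hr
  obtain ⟨n, hn⟩ := IsIntegrallyClosed.isIntegral_iff.mp h2
  refine ⟨n, ?_⟩
  have hp'' : (p : ℚ) ≠ 0 := Nat.cast_ne_zero.mpr hp
  have h3 : (z : ℚ) = p * n := by
    have : ((n : ℤ) : ℚ) = (z : ℚ) / p := by simpa using hn
    rw [this]; field_simp
  exact_mod_cast h3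

/-- `χ(t)^(p^a) = χ(1) + p r` for `t` of order dividing `p^a`. -/
theorem char_pow_pElement [Finite G] {f : G → ℂ} (hf : IsCharacter G f) {p a : ℕ} (hp : p.Prime)
    {t : G} (ht : t ^ p ^ a = 1) : ∃ r : ℂ, IsIntegral ℤ r ∧ f t ^ p ^ a = f 1 + p * r := by
  obtain ⟨m, ρ, rfl⟩ := hf
  obtain ⟨b, μ, h1, h2⟩ := exists_eigenbasis_rep ρ t
  have hμ : ∀ i, μ i ^ p ^ a = 1 := by
    intro i
    obtain ⟨c, hc⟩ := orderOf_dvd_of_pow_eq_one ht
    rw [hc, pow_mul, h2, one_pow]
  have hint : ∀ i, IsIntegral ℤ (μ i) := fun i =>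
    IsIntegral.of_pow (pow_pos hp.pos a) (by rw [hμ i]; exact isIntegral_one)
  let x : Fin (finrank ℂ (Fin m → ℂ)) → integralClosure ℤ ℂ := fun i => ⟨μ i, hint i⟩
  obtain ⟨r, hr⟩ := sum_pow_prime_pow hp a Finset.univ x
  refine ⟨r, r.2, ?_⟩
  have h3 := congrArg (fun y : integralClosure ℤ ℂ => (y : ℂ)) hr
  simp only [x] at h3
  push_cast at h3
  rw [char_eq_sum ρ t b μ h1, h3]
  congr 1
  simp only [hμ, Finset.sum_const, Finset.card_univ, Fintype.card_fin, nsmul_eq_mul, mul_one]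
  rw [Representation.char_one]

theorem int_congr_of_pElement [Finite G] {f : G → ℂ} (hf : IsCharacter G f) {p a : ℕ}
    (hp : p.Prime) {t : G} (ht : t ^ p ^ a = 1) {n : ℤ} {m : ℕ} (hn : f t = n) (hm : f 1 = m) :
    (m : ℤ) ≡ n [ZMOD p] := by
  haveI := Fact.mk hp
  obtain ⟨r, hr, h⟩ := char_pow_pElement hf hp ht
  rw [hn, hm] at h
  have h1 : (((n ^ p ^ a - m : ℤ)) : ℂ) = p * r := by
    push_cast; rw [h]; ring
  have h2 := int_dvd_of_isIntegral_div hp.ne_zero hr h1
  have h3 : (n : ℤ) ^ p ^ a ≡ n [ZMOD p] := by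
    rw [← ZMod.intCast_eq_intCast_iff]
    push_cast
    exact ZMod.pow_card_pow _
  have h4 : (m : ℤ) ≡ n ^ p ^ a [ZMOD p] := (Int.modEq_iff_dvd).mpr h2
  exact h4.trans h3

end Cfsg.Agent.Lib.Helper7.Glaub1
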