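import Mathlib
import Cfsg.Prelude.Def_Characters
import Cfsg.Prelude.Def_CharExt
import Cfsg.Agent.Lib.Helper7.All1
import Cfsg.Agent.Lib.Helper7.CharKer
import Cfsg.Agent.Lib.Helper7.CharRes
import Cfsg.Agent.Lib.Helper7.CharGen
import Cfsg.Agent.Lib.Helper7.GalC
import Cfsg.Agent.Lib.Helper7.CharGalois
import Cfsg.Agent.Lib.Helper7.Transfer1
import Cfsg.Agent.Lib.Helper7.ProjExt1
import Cfsg.Agent.Lib.Helper7.ProjExt2
import Cfsg.Agent.Lib.Helper7.ProjExt4
import Cfsg.Agent.Lib.Helper7.CharGallagher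
import Cfsg.Agent.Lib.Helper7.CharGallagher2
import Cfsg.Agent.Lib.Helper7.ProjExt5
import Cfsg.Agent.Lib.Helper7.CharZeros
import Cfsg.Agent.Lib.Helper7.CosetZero
import Cfsg.Agent.Lib.Helper7.Glaub0
import Cfsg.Agent.Lib.Helper7.Glaub1

set_option autoImplicit false
set_option linter.style.haveILetI false
set_option linter.unusedSectionVars false
set_option linter.unusedVariables false
set_option linter.unusedSimpArgs false

namespace Cfsg.Agent.Lib.Helper7.Glaub2

open Module Representation Cfsg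
open Cfsg.Agent.Lib.Helper7.CharBasic Cfsg.Agent.Lib.Helper7.CharIrr Cfsg.Agent.Lib.Helper7.CharDecomp Cfsg.Agent.Lib.Helper7.CharComplete Cfsg.Agent.Lib.Helper7.CharOrth Cfsg.Agent.Lib.Helper7.CharInd Cfsg.Agent.Lib.Helper7.CharIntegral Cfsg.Agent.Lib.Helper7.CharBurnside Cfsg.Agent.Lib.Helper7.CharLinear Cfsg.Agent.Lib.Helper7.CharEquiv Cfsg.Agent.Lib.Helper7.CharMore Cfsg.Agent.Lib.Helper7.CharCount Cfsg.Agent.Lib.Helper7.CharMisc Cfsg.Agent.Lib.Helper7.CharMisc2 Cfsg.Agent.Lib.Helper7.CharNormal Cfsg.Agent.Lib.Helper7.CharOdd Cfsg.Agent.Lib.Helper7.CharClifford Cfsg.Agent.Lib.Helper7.CharProd Cfsg.Agent.Lib.Helper7.CharPerm Cfsg.Agent.Lib.Helper7.CharClassAlg Cfsg.Agent.Lib.Helper7.CharClassAlg2 Cfsg.Agent.Lib.Helper7.CharCentral Cfsg.Agent.Lib.Helper7.CharNormal2 Cfsg.Agent.Lib.Helper7.CharCliffordCorr Cfsg.Agent.Lib.Helper7.CharKer Cfsg.Agent.Lib.Helper7.CharRes Cfsg.Agent.Lib.Helper7.CharGen Cfsg.Agent.Lib.Helper7.GalC Cfsg.Agent.Lib.Helper7.CharGalois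 Cfsg.Agent.Lib.Helper7.Transfer1 Cfsg.Agent.Lib.Helper7.ProjExt1 Cfsg.Agent.Lib.Helper7.ProjExt2 Cfsg.Agent.Lib.Helper7.ProjExt4 Cfsg.Agent.Lib.Helper7.CharGallagher Cfsg.Agent.Lib.Helper7.CharGallagher2 Cfsg.Agent.Lib.Helper7.ProjExt5 Cfsg.Agent.Lib.Helper7.CharZeros Cfsg.Agent.Lib.Helper7.CosetZero Cfsg.Agent.Lib.Helper7.Glaub0 Cfsg.Agent.Lib.Helper7.Glaub1
open scoped ComplexConjugate

section Avg
variable {G : Type*} [Group G] [Fintype G] (N : Subgroup G) [hN : N.Normal] [Fintype N]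

theorem cosetAvg_self {χ : G → ℂ} (hχ : IsIrrCharacter G χ)
    (hirr : IsIrrCharacter N (fun n : N => χ n)) :
    cosetAvg N (χ * fun g => conj (χ g)) = fun _ => 1 := by
  classical
  have hχc := IsIrrCharacter.isCharacter hχ
  obtain ⟨g1, g2, _⟩ := gallagher N hχ hirr
  have hcf : IsClassFunction G (cosetAvg N (χ * fun g => conj (χ g))) :=
    isClassFunction_cosetAvg N
      (IsCharacter.isClassFunction (isCharacter_mul hχc (isCharacter_conj hχc)))
  have h1 : cosetAvg N (χ * fun g => conj (χ g)) - (fun _ => 1) = 0 := by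
    apply eq_zero_of_classInner_eq_zero
    · intro g c
      simp only [Pi.sub_apply, hcf g c]
    · intro γ hγ
      rw [classInner_sub_left, classInner_cosetAvg N _ hγ,
        classInner_irr (isIrrCharacter_one (G := G)) hγ]
      by_cases hk : ∀ n ∈ N, γ n = γ 1
      · rw [if_pos hk]
        have h2 : classInner (χ * fun g => conj (χ g)) γ = classInner χ (γ * χ) := by
          unfold classInner
          congr 1
          refine Finset.sum_congr rfl fun g _ => ?_
          simp only [Pi.mul_apply, map_mul]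
          ring
        rw [h2, classInner_irr hχ (g1 γ hγ hk)]
        by_cases h3 : (fun _ => 1) = γ
        · rw [if_pos h3, if_pos, sub_self]
          rw [← h3]
          funext g
          simp
        · rw [if_neg h3, if_neg, sub_self]
          intro h4
          apply h3
          apply g2 (fun _ => 1) γ isIrrCharacter_one (fun _ _ => rfl) hγ hk
          rw [← h4]
          funext g
          simp
      · rw [if_neg hk, if_neg, sub_self]
        intro h3
        apply hk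
        intro n _
        rw [← h3]
  exact sub_eq_zero.mp h1

theorem cosetAvg_ne {χ χ' : G → ℂ} (hχ : IsCharacter G χ) (hχ' : IsCharacter G χ')
    (hirr : IsIrrCharacter N (fun n : N => χ n)) (hirr' : IsIrrCharacter N (fun n : N => χ' n))
    (hne : (fun n : N => χ n) ≠ (fun n : N => χ' n)) :
    cosetAvg N (χ * fun g => conj (χ' g)) = 0 := by
  classical
  apply eq_zero_of_isCharacter_of_degree_zero
    (isCharacter_cosetAvg N (isCharacter_mul hχ (isCharacter_conj hχ')))
  have h1 := classInner_irr hirr hirr'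
  rw [if_neg hne] at h1
  unfold cosetAvg
  unfold classInner at h1
  simpa using h1

end Avg

section Core
variable {Γ : Type*} [Group Γ] [Fintype Γ] (G C : Subgroup Γ) [hG : G.Normal] [Fintype G] [Fintype C]
  (s : Γ) (hgen : G ⊔ Subgroup.zpowers s = ⊤) (hcop : (Nat.card G).Coprime (orderOf s))
  (hC : ∀ y, y ∈ C ↔ y ∈ G ∧ y * s = s * y)

include hgen in
theorem index_dvd : G.index ∣ orderOf s := by
  have h1 : (⊤ : Subgroup (Γ ⧸ G)) = Subgroup.zpowers (QuotientGroup.mk' G s) := by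
    rw [← MonoidHom.map_zpowers, ← Subgroup.map_top_of_surjective (QuotientGroup.mk' G)
      (QuotientGroup.mk'_surjective G), ← hgen, Subgroup.map_sup, QuotientGroup.map_mk'_self,
      bot_sup_eq]
  rw [Subgroup.index_eq_card, ← Subgroup.card_top, h1, Nat.card_zpowers]
  exact orderOf_map_dvd _ s

theorem pow_orderOf_of_mem_zpowers {t : Γ} (ht : t ∈ Subgroup.zpowers s) : t ^ orderOf s = 1 := by
  obtain ⟨i, rfl⟩ := Subgroup.mem_zpowers_iff.mp ht
  rw [← zpow_natCast, ← zpow_mul, mul_comm, zpow_mul, zpow_natCast, pow_orderOf_eq_one, one_zpow]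

include hC in
theorem commute_of_mem {c t : Γ} (hc : c ∈ C) (ht : t ∈ Subgroup.zpowers s) : Commute c t := by
  obtain ⟨i, rfl⟩ := Subgroup.mem_zpowers_iff.mp ht
  exact Commute.zpow_right ((hC c).mp hc).2 i

variable {ψ : Γ → ℂ} (hψ : IsIrrCharacter Γ ψ) (hres : IsIrrCharacter G (fun g : G => ψ g))
  (hdet : (detOrder ψ).Coprime (orderOf s))

include hgen hcop hC hψ hres hdet in
theorem psi_mul_pow {c t : Γ} (hc : c ∈ C) (ht : t ∈ Subgroup.zpowers s) {k : ℕ}
    (hk : k.Coprime (orderOf s)) : ψ (c * t ^ k) = ψ (c * t) := by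
  obtain ⟨k', h1, h2⟩ := Nat.chineseRemainder hcop 1 k
  have hidx := index_dvd G s hgen
  have hk'1 : k'.Coprime (Nat.card G) := by
    rw [Nat.Coprime, h1.gcd_eq]; simp
  have hk'2 : k'.Coprime (orderOf s) := by
    rw [Nat.Coprime, h2.gcd_eq]; exact hk
  have hk' : k'.Coprime (Nat.card Γ) := by
    rw [← G.card_mul_index]
    exact Nat.Coprime.mul_right hk'1 (Nat.Coprime.coprime_dvd_right hidx hk'2)
  have hcomm : Commute c t := commute_of_mem G C s hC hc ht
  have h3 : (c * t) ^ k' = c * t ^ k := by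
    rw [hcomm.mul_pow, pow_eq_self_of_modEq (pow_card_mem G ((hC c).mp hc).1) h1,
      pow_eq_pow_of_modEq (pow_orderOf_of_mem_zpowers s ht) h2]
  rw [← h3]
  exact pow_invariant G (Nat.Coprime.coprime_dvd_right hidx hcop) hψ hres
    (Nat.Coprime.coprime_dvd_left hidx hdet.symm) hk' h1 _

include hC hψ in
theorem isCharacter_f {β : C → ℂ} (hβ : IsIrrCharacter C β) :
    IsCharacter (Subgroup.zpowers s)
      (fun t => classInner (fun c : C => ψ ((c : Γ) * (t : Γ))) β) := by
  classical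
  haveI := Fintype.ofFinite (Subgroup.zpowers s)
  let μ : C × Subgroup.zpowers s →* Γ :=
    MonoidHom.noncommCoprod C.subtype (Subgroup.zpowers s).subtype
      (fun c t => commute_of_mem G C s hC c.2 t.2)
  have h1 : IsCharacter (C × Subgroup.zpowers s) (fun x => ψ (μ x)) :=
    isCharacter_comp μ (IsIrrCharacter.isCharacter hψ)
  exact isCharacter_partialInner h1 hβ

include hgen hcop hC hψ hres hdet in
theorem exists_int {β : C → ℂ} (hβ : IsIrrCharacter C β) {t : Γ} (ht : t ∈ Subgroup.zpowers s) :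
    ∃ n : ℤ, classInner (fun c : C => ψ ((c : Γ) * t)) β = n := by
  have h1 := isCharacter_f G C s hC hψ hβ
  refine rational_of_pow_invariant h1 ⟨t, ht⟩ ?_
  intro k hk
  rw [Nat.card_zpowers] at hk
  simp only [Subgroup.coe_pow]
  congr 1
  funext c
  exact psi_mul_pow G C s hgen hcop hC hψ hres hdet c.2 ht hk

include hcop hC in
theorem inner_eq_cosetAvg {φ φ' : Γ → ℂ} (hφ : IsClassFunction Γ φ) (hφ' : IsClassFunction Γ φ') :
    classInner (fun c : C => φ ((c : Γ) * s)) (fun c : C => φ' ((c : Γ) * s)) =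
      cosetAvg G (φ * fun x => conj (φ' x)) s := by
  have h1 := sum_coset G C s (fun g hg => hG.conj_mem g hg s) hcop hC
    (fun x => φ x * conj (φ' x)) (fun g _ x => by rw [hφ x g, hφ' x g])
  unfold classInner cosetAvg
  simp only [Pi.mul_apply]
  have hC0 : (Nat.card C : ℂ) ≠ 0 := Nat.cast_ne_zero.mpr Nat.card_pos.ne'
  have hG0 : (Nat.card G : ℂ) ≠ 0 := Nat.cast_ne_zero.mpr Nat.card_pos.ne'
  field_simp
  rw [mul_comm, ← h1, mul_comm]

include hC in
theorem isClassFunction_shift {φ : Γ → ℂ} (hφ : IsClassFunction Γ φ) :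
    IsClassFunction C (fun c : C => φ ((c : Γ) * s)) := by
  intro c h
  have h1 : (h : Γ) * s = s * h := ((hC _).mp h.2).2
  have h2 : (h : Γ)⁻¹ * s = s * (h : Γ)⁻¹ := by
    calc (h : Γ)⁻¹ * s = (h : Γ)⁻¹ * (s * h) * (h : Γ)⁻¹ := by group
      _ = s * (h : Γ)⁻¹ := by rw [← h1]; group
  change φ (((h * c * h⁻¹ : C) : Γ) * s) = φ ((c : Γ) * s)
  rw [← hφ ((c : Γ) * s) h]
  congr 1
  simp only [Subgroup.coe_mul, Subgroup.coe_inv]
  rw [mul_assoc _ _ s, h2]
  group

include hgen hcop hC hψ hres hdet in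
/-- The cyclic Glauberman correspondent. -/
theorem exists_corr : ∃ β : C → ℂ, IsIrrCharacter C β ∧ ∃ ε : ℤ, (ε = 1 ∨ ε = -1) ∧
    ∀ c : C, ψ ((c : Γ) * s) = (ε : ℂ) * β c := by
  have hcf := IsCharacter.isClassFunction (IsIrrCharacter.isCharacter hψ)
  have h1 : IsGeneralizedCharacter C (fun c : C => ψ ((c : Γ) * s)) :=
    isGen_of_int (isClassFunction_shift G C s hC hcf)
      (fun β hβ => exists_int G C s hgen hcop hC hψ hres hdet hβ (Subgroup.mem_zpowers s))
  have h2 : classInner (fun c : C => ψ ((c : Γ) * s)) (fun c : C => ψ ((c : Γ) * s)) = 1 := by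
    rw [inner_eq_cosetAvg G C s hcop hC hcf hcf, cosetAvg_self G hψ hres]
  rcases gen_norm_one h1 h2 with h | h
  · exact ⟨_, h, 1, Or.inl rfl, fun c => by simp⟩
  · exact ⟨_, h, -1, Or.inr rfl, fun c => by simp⟩

include hC hψ in
theorem constituent {β : C → ℂ} (hβ : IsIrrCharacter C β) {ε : ℤ} (hε : ε = 1 ∨ ε = -1)
    (h : ∀ c : C, ψ ((c : Γ) * s) = (ε : ℂ) * β c) :
    classInner (fun c : C => ψ (c : Γ)) β ≠ 0 := by
  classical
  intro h0
  have h1 := isCharacter_f G C s hC hψ hβ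
  have h2 := eq_zero_of_isCharacter_of_degree_zero h1 (by simpa using h0)
  have h3 := congrFun h2 ⟨s, Subgroup.mem_zpowers s⟩
  simp only [Pi.zero_apply] at h3
  have h4 : (fun c : C => ψ ((c : Γ) * s)) = (ε : ℂ) • β := by
    funext c; simp [h c]
  rw [h4, classInner_smul_left, classInner_irr hβ hβ, if_pos rfl] at h3
  rcases hε with rfl | rfl <;> simp at h3

include hgen hcop hC hψ hres hdet in
theorem congr_mod {p a : ℕ} (hp : p.Prime) (hs : orderOf s = p ^ a) {β : C → ℂ}
    (hβ : IsIrrCharacter C β) : ∃ (m : ℕ) (n : ℤ), classInner (fun c : C => ψ (c : Γ)) β = m ∧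
      classInner (fun c : C => ψ ((c : Γ) * s)) β = n ∧ (m : ℤ) ≡ n [ZMOD p] := by
  have h1 := isCharacter_f G C s hC hψ hβ
  obtain ⟨m, hm⟩ := irr_one_eq_natCast h1
  obtain ⟨n, hn⟩ := exists_int G C s hgen hcop hC hψ hres hdet hβ (Subgroup.mem_zpowers s)
  refine ⟨m, n, by simpa using hm, hn, ?_⟩
  refine int_congr_of_pElement h1 (a := a) hp (t := ⟨s, Subgroup.mem_zpowers s⟩) ?_ hn hm
  apply Subtype.ext
  rw [Subgroup.coe_pow, ← hs]
  exact pow_orderOf_eq_one s

end Core

end Cfsg.Agent.Lib.Helper7.Glaub2
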