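import Mathlib
import Cfsg.Prelude.Def_Characters
import Cfsg.Prelude.Def_CharExt
import Cfsg.Agent.Lib.Helper7.All1
import Cfsg.Agent.Lib.Helper7.CharKer
import Cfsg.Agent.Lib.Helper7.CharRes
import Cfsg.Agent.Lib.Helper7.CharGen
import Cfsg.Agent.Lib.Helper7.GalC
import Cfsg.Agent.Lib.Helper7.CharGalois
import Cfsg.Agent.Lib.Helper7.Transfer1
import Cfsg.Agent.Lib.Helper7.ProjExt1
import Cfsg.Agent.Lib.Helper7.ProjExt2
import Cfsg.Agent.Lib.Helper7.ProjExt4
import Cfsg.Agent.Lib.Helper7.CharGallagher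
import Cfsg.Agent.Lib.Helper7.CharGallagher2
import Cfsg.Agent.Lib.Helper7.ProjExt5
import Cfsg.Agent.Lib.Helper7.CharZeros
import Cfsg.Agent.Lib.Helper7.CosetZero
import Cfsg.Agent.Lib.Helper7.CharCenter
import Cfsg.Agent.Lib.Helper7.Glaub0
import Cfsg.Agent.Lib.Helper7.Glaub1
import Cfsg.Agent.Lib.Helper7.Glaub2

set_option autoImplicit false
set_option linter.style.haveILetI false
set_option linter.unusedSectionVars false
set_option linter.unusedVariables false
set_option linter.unusedSimpArgs false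

namespace Cfsg.Agent.Lib.Helper7.Glaub3

open Module Representation Cfsg
open Cfsg.Agent.Lib.Helper7.CharBasic Cfsg.Agent.Lib.Helper7.CharIrr Cfsg.Agent.Lib.Helper7.CharDecomp Cfsg.Agent.Lib.Helper7.CharComplete Cfsg.Agent.Lib.Helper7.CharOrth Cfsg.Agent.Lib.Helper7.CharInd Cfsg.Agent.Lib.Helper7.CharIntegral Cfsg.Agent.Lib.Helper7.CharBurnside Cfsg.Agent.Lib.Helper7.CharLinear Cfsg.Agent.Lib.Helper7.CharEquiv Cfsg.Agent.Lib.Helper7.CharMore Cfsg.Agent.Lib.Helper7.CharCount Cfsg.Agent.Lib.Helper7.CharMisc Cfsg.Agent.Lib.Helper7.CharMisc2 Cfsg.Agent.Lib.Helper7.CharNormal Cfsg.Agent.Lib.Helper7.CharOdd Cfsg.Agent.Lib.Helper7.CharClifford Cfsg.Agent.Lib.Helper7.CharProd Cfsg.Agent.Lib.Helper7.CharPerm Cfsg.Agent.Lib.Helper7.CharClassAlg Cfsg.Agent.Lib.Helper7.CharClassAlg2 Cfsg.Agent.Lib.Helper7.CharCentral Cfsg.Agent.Lib.Helper7.CharNormal2 Cfsg.Agent.Lib.Helper7.CharCliffordCorr Cfsg.Agent.Lib.Helper7.CharKer Cfsg.Agent.Lib.Helper7.CharRes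 Cfsg.Agent.Lib.Helper7.CharGen Cfsg.Agent.Lib.Helper7.GalC Cfsg.Agent.Lib.Helper7.CharGalois Cfsg.Agent.Lib.Helper7.Transfer1 Cfsg.Agent.Lib.Helper7.ProjExt1 Cfsg.Agent.Lib.Helper7.ProjExt2 Cfsg.Agent.Lib.Helper7.ProjExt4 Cfsg.Agent.Lib.Helper7.CharGallagher Cfsg.Agent.Lib.Helper7.CharGallagher2 Cfsg.Agent.Lib.Helper7.ProjExt5 Cfsg.Agent.Lib.Helper7.CharZeros Cfsg.Agent.Lib.Helper7.CosetZero Cfsg.Agent.Lib.Helper7.CharCenter Cfsg.Agent.Lib.Helper7.Glaub0 Cfsg.Agent.Lib.Helper7.Glaub1 Cfsg.Agent.Lib.Helper7.Glaub2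
open scoped ComplexConjugate

/-- `θ` is invariant under conjugation by `x`. -/
def InvBy {Γ : Type*} [Group Γ] (H : Subgroup Γ) (θ : H → ℂ) (x : Γ) : Prop :=
  ∀ g g' : H, (g' : Γ) = x * g * x⁻¹ → θ g' = θ g

section Core
variable {Γ : Type*} [Group Γ] [Fintype Γ] (G C : Subgroup Γ) [hG : G.Normal] [Fintype G] [Fintype C]
  (s : Γ) (hgen : G ⊔ Subgroup.zpowers s = ⊤) (hcop : (Nat.card G).Coprime (orderOf s))
  (hC : ∀ y, y ∈ C ↔ y ∈ G ∧ y * s = s * y)

include hgen hcop in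
theorem exists_canonical {χ : G → ℂ} (hχ : IsIrrCharacter G χ) (hinv : InvBy G χ s) :
    ∃ ψ : Γ → ℂ, IsIrrCharacter Γ ψ ∧ (∀ g : G, ψ g = χ g) ∧
      (detOrder ψ).Coprime (orderOf s) := by
  have hidx := index_dvd G s hgen
  have h1 : inertia G χ = ⊤ := by
    rw [eq_top_iff, ← hgen, sup_le_iff]
    refine ⟨le_inertia G (IsIrrCharacter.isClassFunction hχ), ?_⟩
    rw [Subgroup.zpowers_le, mem_inertia]
    intro h
    exact hinv h _ rfl
  obtain ⟨d, _, hd⟩ := irr_one_pos hχ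
  have hc2 : Nat.Coprime G.index (detOrder χ * d) := by
    apply Nat.Coprime.coprime_dvd_left hidx
    apply Nat.Coprime.mul_right
    · exact (Nat.Coprime.coprime_dvd_left
        (detOrder_dvd_card (IsIrrCharacter.isCharacter hχ)) hcop).symm
    · exact (Nat.Coprime.coprime_dvd_left (irr_degree_dvd_card hχ hd) hcop).symm
  obtain ⟨ψ, ⟨h2, h3, h4⟩, _⟩ := canonical_ext G χ hχ
    (fun g n => (mem_inertia G χ g).mp (h1 ▸ Subgroup.mem_top g) n) d hd hc2
  refine ⟨ψ, h2, h3, ?_⟩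
  rw [h4]
  exact Nat.Coprime.coprime_dvd_left (detOrder_dvd_card (IsIrrCharacter.isCharacter hχ)) hcop

include hcop hC in
theorem corr_inj {ψ ψ' : Γ → ℂ} (hψ : IsIrrCharacter Γ ψ) (hψ' : IsIrrCharacter Γ ψ')
    (hres : IsIrrCharacter G (fun g : G => ψ g)) (hres' : IsIrrCharacter G (fun g : G => ψ' g))
    {β : C → ℂ} (hβ : IsIrrCharacter C β) {ε ε' : ℤ} (hε : ε = 1 ∨ ε = -1) (hε' : ε' = 1 ∨ ε' = -1)
    (h : ∀ c : C, ψ ((c : Γ) * s) = (ε : ℂ) * β c) (h' : ∀ c : C, ψ' ((c : Γ) * s) = (ε' : ℂ) * β c) :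
    (fun g : G => ψ g) = (fun g : G => ψ' g) := by
  classical
  by_contra hne
  have hc := IsIrrCharacter.isCharacter hψ
  have hc' := IsIrrCharacter.isCharacter hψ'
  have h1 := inner_eq_cosetAvg G C s hcop hC (IsCharacter.isClassFunction hc)
    (IsCharacter.isClassFunction hc')
  rw [cosetAvg_ne G hc hc' hres hres' hne] at h1
  have h4 : (fun c : C => ψ ((c : Γ) * s)) = (ε : ℂ) • β := by
    funext c; simp [h c]
  have h5 : (fun c : C => ψ' ((c : Γ) * s)) = (ε' : ℂ) • β := by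
    funext c; simp [h' c]
  rw [h4, h5, classInner_smul_left, classInner_smul_right, classInner_irr hβ hβ, if_pos rfl] at h1
  rcases hε with rfl | rfl <;> rcases hε' with rfl | rfl <;> simp at h1

include hcop hC in
theorem card_conjClasses_le : Nat.card (ConjClasses C) ≤
    Nat.card {K : ConjClasses G //
      ConjClasses.map (MulAut.conjNormal s : G ≃* G).toMonoidHom K = K} := by
  have hCG : C ≤ G := fun y hy => ((hC y).mp hy).1
  have hfix : ∀ K : ConjClasses C, ConjClasses.map (MulAut.conjNormal s : G ≃* G).toMonoidHom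
      (ConjClasses.map (Subgroup.inclusion hCG) K) = ConjClasses.map (Subgroup.inclusion hCG) K := by
    intro K
    induction K using Quotient.inductionOn with
    | h c =>
      change ConjClasses.mk ((MulAut.conjNormal s : G ≃* G) (Subgroup.inclusion hCG c)) =
        ConjClasses.mk (Subgroup.inclusion hCG c)
      congr 1
      apply Subtype.ext
      rw [MulAut.conjNormal_apply]
      change s * (c : Γ) * s⁻¹ = c
      rw [← ((hC _).mp c.2).2]; group
  apply Nat.card_le_card_of_injective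
    (fun K : ConjClasses C => (⟨ConjClasses.map (Subgroup.inclusion hCG) K, hfix K⟩ :
      {K : ConjClasses G // ConjClasses.map (MulAut.conjNormal s : G ≃* G).toMonoidHom K = K}))
  intro K K' hKK
  have h1 : ConjClasses.map (Subgroup.inclusion hCG) K = ConjClasses.map (Subgroup.inclusion hCG) K' :=
    congrArg Subtype.val hKK
  induction K using Quotient.inductionOn with
  | h c =>
    induction K' using Quotient.inductionOn with
    | h c' =>
      have h2 : ConjClasses.mk (Subgroup.inclusion hCG c) = ConjClasses.mk (Subgroup.inclusion hCG c') :=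
        h1
      rw [ConjClasses.mk_eq_mk_iff_isConj, isConj_iff] at h2
      obtain ⟨g, hg⟩ := h2
      have h3 : (g : Γ) * c * (g : Γ)⁻¹ = c' := congrArg Subtype.val hg
      obtain ⟨k, hk, hk2⟩ := conj_in_C G C s (fun g hg => hG.conj_mem g hg s) hcop hC c.2 c'.2 g.2 h3
      change ConjClasses.mk c = ConjClasses.mk c'
      rw [ConjClasses.mk_eq_mk_iff_isConj, isConj_iff]
      exact ⟨⟨k, hk⟩, Subtype.ext hk2⟩

include hgen hcop hC in
theorem corr_surj {β : C → ℂ} (hβ : IsIrrCharacter C β) :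
    ∃ ψ : Γ → ℂ, IsIrrCharacter Γ ψ ∧ IsIrrCharacter G (fun g : G => ψ g) ∧
      (detOrder ψ).Coprime (orderOf s) ∧ ∃ ε : ℤ, (ε = 1 ∨ ε = -1) ∧
      ∀ c : C, ψ ((c : Γ) * s) = (ε : ℂ) * β c := by
  classical
  have key : ∀ χ : {χ : IrrCharacter G // (χ : G → ℂ) ∘ (MulAut.conjNormal s : G ≃* G) = χ},
      ∃ b : IrrCharacter C, ∃ ψ : Γ → ℂ, IsIrrCharacter Γ ψ ∧ (∀ g : G, ψ g = (χ.1 : G → ℂ) g) ∧
      (detOrder ψ).Coprime (orderOf s) ∧ ∃ ε : ℤ, (ε = 1 ∨ ε = -1) ∧
      ∀ c : C, ψ ((c : Γ) * s) = (ε : ℂ) * (b : C → ℂ) c := by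
    intro χ
    have hinv : InvBy G (χ.1 : G → ℂ) s := by
      intro g g' hgg
      have h1 := congrFun χ.2 g
      rw [← h1]
      simp only [Function.comp]
      refine congrArg (χ.1 : G → ℂ) (Subtype.ext ?_)
      rw [hgg, MulAut.conjNormal_apply]
    obtain ⟨ψ, h1, h2, h3⟩ := exists_canonical G s hgen hcop χ.1.2 hinv
    have hres : IsIrrCharacter G (fun g : G => ψ g) := by
      have : (fun g : G => ψ g) = (χ.1 : G → ℂ) := funext h2
      rw [this]; exact χ.1.2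
    obtain ⟨b, hb, ε, hε, h4⟩ := exists_corr G C s hgen hcop hC h1 hres h3
    exact ⟨⟨b, hb⟩, ψ, h1, h2, h3, ε, hε, h4⟩
  choose f hf using key
  have hinj : Function.Injective f := by
    intro χ χ' hff
    obtain ⟨ψ, h1, h2, h3, ε, hε, h4⟩ := hf χ
    obtain ⟨ψ', h1', h2', h3', ε', hε', h4'⟩ := hf χ'
    rw [hff] at h4
    have hres : IsIrrCharacter G (fun g : G => ψ g) := by
      have : (fun g : G => ψ g) = (χ.1 : G → ℂ) := funext h2
      rw [this]; exact χ.1.2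
    have hres' : IsIrrCharacter G (fun g : G => ψ' g) := by
      have : (fun g : G => ψ' g) = (χ'.1 : G → ℂ) := funext h2'
      rw [this]; exact χ'.1.2
    have h5 := corr_inj G C s hcop hC h1 h1' hres hres' (f χ').2 hε hε' h4 h4'
    apply Subtype.ext
    apply Subtype.ext
    funext g
    rw [← h2 g, ← h2' g]
    exact congrFun h5 g
  haveI : Finite (IrrCharacter C) := inferInstance
  have hcard : Nat.card (IrrCharacter C) ≤
      Nat.card {χ : IrrCharacter G // (χ : G → ℂ) ∘ (MulAut.conjNormal s : G ≃* G) = χ} := by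
    rw [card_irr, ← card_fixed_classes_eq_card_fixed_irr]
    exact card_conjClasses_le G C s hcop hC
  have hbij := hinj.bijective_of_nat_card_le hcard
  obtain ⟨χ, hχ⟩ := hbij.2 ⟨β, hβ⟩
  obtain ⟨ψ, h1, h2, h3, ε, hε, h4⟩ := hf χ
  rw [hχ] at h4
  have hres : IsIrrCharacter G (fun g : G => ψ g) := by
    have : (fun g : G => ψ g) = (χ.1 : G → ℂ) := funext h2
    rw [this]; exact χ.1.2
  exact ⟨ψ, h1, hres, h3, ε, hε, h4⟩

end Core

end Cfsg.Agent.Lib.Helper7.Glaub3
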