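import Mathlib
import Cfsg.Prelude.Def_Characters
import Cfsg.Prelude.Def_CharExt
import Cfsg.Agent.Lib.Helper7.All1
import Cfsg.Agent.Lib.Helper7.CharKer
import Cfsg.Agent.Lib.Helper7.CharRes
import Cfsg.Agent.Lib.Helper7.CharGen
import Cfsg.Agent.Lib.Helper7.GalC
import Cfsg.Agent.Lib.Helper7.CharGalois
import Cfsg.Agent.Lib.Helper7.Transfer1
import Cfsg.Agent.Lib.Helper7.ProjExt1
import Cfsg.Agent.Lib.Helper7.ProjExt2
import Cfsg.Agent.Lib.Helper7.ProjExt4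
import Cfsg.Agent.Lib.Helper7.CharGallagher
import Cfsg.Agent.Lib.Helper7.CharGallagher2
import Cfsg.Agent.Lib.Helper7.ProjExt5
import Cfsg.Agent.Lib.Helper7.CharZeros
import Cfsg.Agent.Lib.Helper7.CosetZero
import Cfsg.Agent.Lib.Helper7.CharCenter
import Cfsg.Agent.Lib.Helper7.Glaub0
import Cfsg.Agent.Lib.Helper7.Glaub1
import Cfsg.Agent.Lib.Helper7.Glaub2
import Cfsg.Agent.Lib.Helper7.Glaub3

set_option autoImplicit false
set_option linter.style.haveILetI false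
set_option linter.unusedSectionVars false
set_option linter.unusedVariables false
set_option linter.unusedSimpArgs false

namespace Cfsg.Agent.Lib.Helper7.Glaub4

open Module Representation Cfsg
open Cfsg.Agent.Lib.Helper7.CharBasic Cfsg.Agent.Lib.Helper7.CharIrr Cfsg.Agent.Lib.Helper7.CharDecomp Cfsg.Agent.Lib.Helper7.CharComplete Cfsg.Agent.Lib.Helper7.CharOrth Cfsg.Agent.Lib.Helper7.CharInd Cfsg.Agent.Lib.Helper7.CharIntegral Cfsg.Agent.Lib.Helper7.CharBurnside Cfsg.Agent.Lib.Helper7.CharLinear Cfsg.Agent.Lib.Helper7.CharEquiv Cfsg.Agent.Lib.Helper7.CharMore Cfsg.Agent.Lib.Helper7.CharCount Cfsg.Agent.Lib.Helper7.CharMisc Cfsg.Agent.Lib.Helper7.CharMisc2 Cfsg.Agent.Lib.Helper7.CharNormal Cfsg.Agent.Lib.Helper7.CharOdd Cfsg.Agent.Lib.Helper7.CharClifford Cfsg.Agent.Lib.Helper7.CharProd Cfsg.Agent.Lib.Helper7.CharPerm Cfsg.Agent.Lib.Helper7.CharClassAlg Cfsg.Agent.Lib.Helper7.CharClassAlg2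 Cfsg.Agent.Lib.Helper7.CharCentral Cfsg.Agent.Lib.Helper7.CharNormal2 Cfsg.Agent.Lib.Helper7.CharCliffordCorr Cfsg.Agent.Lib.Helper7.CharKer Cfsg.Agent.Lib.Helper7.CharRes Cfsg.Agent.Lib.Helper7.CharGen Cfsg.Agent.Lib.Helper7.GalC Cfsg.Agent.Lib.Helper7.CharGalois Cfsg.Agent.Lib.Helper7.Transfer1 Cfsg.Agent.Lib.Helper7.ProjExt1 Cfsg.Agent.Lib.Helper7.ProjExt2 Cfsg.Agent.Lib.Helper7.ProjExt4 Cfsg.Agent.Lib.Helper7.CharGallagher Cfsg.Agent.Lib.Helper7.CharGallagher2 Cfsg.Agent.Lib.Helper7.ProjExt5 Cfsg.Agent.Lib.Helper7.CharZeros Cfsg.Agent.Lib.Helper7.CosetZero Cfsg.Agent.Lib.Helper7.CharCenter Cfsg.Agent.Lib.Helper7.Glaub0 Cfsg.Agent.Lib.Helper7.Glaub1 Cfsg.Agent.Lib.Helper7.Glaub2 Cfsg.Agent.Lib.Helper7.Glaub3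
open scoped ComplexConjugate

/-- `β` has multiplicity prime to `p` in the restriction of `χ`. -/
def Rel {Γ : Type*} [Group Γ] (p : ℕ) {H K : Subgroup Γ} [Fintype K] (hKH : K ≤ H) (χ : H → ℂ)
    (β : K → ℂ) : Prop :=
  ∃ m : ℕ, classInner (fun c : K => χ ⟨c, hKH c.2⟩) β = m ∧ ¬ p ∣ m

/-- the package of statements making up the correspondence for `(H, K)` w.r.t. a set `X` of
operators. -/
structure Pack {Γ : Type*} [Group Γ] (p : ℕ) (H K : Subgroup Γ) [Fintype K] (hKH : K ≤ H)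
    (X : Set Γ) : Prop where
  ex : ∀ χ : H → ℂ, IsIrrCharacter H χ → (∀ x ∈ X, InvBy H χ x) →
    ∃ β : K → ℂ, IsIrrCharacter K β ∧ ∃ ε : ℤ, (ε = 1 ∨ ε = -1) ∧
      ∀ β' : K → ℂ, IsIrrCharacter K β' → ∃ m : ℕ,
        classInner (fun c : K => χ ⟨c, hKH c.2⟩) β' = m ∧
          ((β' = β → (m : ℤ) ≡ ε [ZMOD p]) ∧ (β' ≠ β → (m : ℤ) ≡ 0 [ZMOD p]))
  inj : ∀ χ χ' : H → ℂ, IsIrrCharacter H χ → IsIrrCharacter H χ' → (∀ x ∈ X, InvBy H χ x) →
    (∀ x ∈ X, InvBy H χ' x) → ∀ β : K → ℂ, IsIrrCharacter K β → Rel p hKH χ β → Rel p hKH χ' β →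
      χ = χ'
  surj : ∀ β : K → ℂ, IsIrrCharacter K β → ∃ χ : H → ℂ, IsIrrCharacter H χ ∧
    (∀ x ∈ X, InvBy H χ x) ∧ Rel p hKH χ β

theorem not_dvd_of_modEq_unit {p : ℕ} (hp : p.Prime) {m : ℕ} {ε : ℤ} (hε : ε = 1 ∨ ε = -1)
    (h : (m : ℤ) ≡ ε [ZMOD p]) : ¬ p ∣ m := by
  intro hd
  have h1 : (p : ℤ) ∣ m := by exact_mod_cast hd
  have h2 : (p : ℤ) ∣ ε := by
    have := (Int.modEq_iff_dvd.mp h)
    have h3 : ε = (ε - m) + m := by ring
    rw [h3]; exact dvd_add this h1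
  have h3 : (p : ℤ) ∣ 1 := by
    rcases hε with rfl | rfl
    · exact h2
    · simpa using h2
  have h4 : p ∣ 1 := by exact_mod_cast h3
  exact hp.one_lt.ne' (Nat.dvd_one.mp h4)

theorem dvd_of_modEq_zero {p m : ℕ} (h : (m : ℤ) ≡ 0 [ZMOD p]) : p ∣ m := by
  have := (Int.modEq_zero_iff_dvd.mp h)
  exact_mod_cast this

section Core
variable {Γ : Type*} [Group Γ] [Fintype Γ] (G C : Subgroup Γ) [hG : G.Normal] [Fintype G] [Fintype C]
  (s : Γ) (hgen : G ⊔ Subgroup.zpowers s = ⊤) (hcop : (Nat.card G).Coprime (orderOf s))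
  (hC : ∀ y, y ∈ C ↔ y ∈ G ∧ y * s = s * y)

include hgen hcop hC in
theorem data_of_canonical {p a : ℕ} (hp : p.Prime) (hord : orderOf s = p ^ a)
    {ψ : Γ → ℂ} (hψ : IsIrrCharacter Γ ψ) (hres : IsIrrCharacter G (fun g : G => ψ g))
    (hdet : (detOrder ψ).Coprime (orderOf s)) {β : C → ℂ} (hβ : IsIrrCharacter C β) {ε : ℤ}
    (h : ∀ c : C, ψ ((c : Γ) * s) = (ε : ℂ) * β c) (β' : C → ℂ) (hβ' : IsIrrCharacter C β') :
    ∃ m : ℕ, classInner (fun c : C => ψ (c : Γ)) β' = m ∧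
      ((β' = β → (m : ℤ) ≡ ε [ZMOD p]) ∧ (β' ≠ β → (m : ℤ) ≡ 0 [ZMOD p])) := by
  classical
  obtain ⟨m, n, h1, h2, h3⟩ := congr_mod G C s hgen hcop hC hψ hres hdet hp hord hβ'
  have h4 : (fun c : C => ψ ((c : Γ) * s)) = (ε : ℂ) • β := by
    funext c; simp [h c]
  rw [h4, classInner_smul_left, classInner_irr hβ hβ'] at h2
  refine ⟨m, h1, ?_, ?_⟩
  · intro he
    rw [if_pos he.symm, mul_one] at h2
    have : ε = n := by exact_mod_cast h2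
    rw [this]; exact h3
  · intro hne
    rw [if_neg (Ne.symm hne), mul_zero] at h2
    have : (0 : ℤ) = n := by exact_mod_cast h2
    rw [this]; exact h3

include hgen hcop hC in
theorem pack_normal (hCG : C ≤ G) {p a : ℕ} (hp : p.Prime) (hord : orderOf s = p ^ a) :
    Pack p G C hCG {s} := by
  classical
  have key : ∀ χ : G → ℂ, IsIrrCharacter G χ → (∀ x ∈ ({s} : Set Γ), InvBy G χ x) →
      ∃ ψ : Γ → ℂ, IsIrrCharacter Γ ψ ∧ (∀ g : G, ψ g = χ g) ∧ IsIrrCharacter G (fun g : G => ψ g) ∧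
        (detOrder ψ).Coprime (orderOf s) ∧
        ∃ β : C → ℂ, IsIrrCharacter C β ∧ ∃ ε : ℤ, (ε = 1 ∨ ε = -1) ∧
        (∀ c : C, ψ ((c : Γ) * s) = (ε : ℂ) * β c) ∧
      ∀ β' : C → ℂ, IsIrrCharacter C β' → ∃ m : ℕ,
        classInner (fun c : C => χ ⟨c, hCG c.2⟩) β' = m ∧
          ((β' = β → (m : ℤ) ≡ ε [ZMOD p]) ∧ (β' ≠ β → (m : ℤ) ≡ 0 [ZMOD p])) := by
    intro χ hχ hinv
    obtain ⟨ψ, h1, h2, h3⟩ := exists_canonical G s hgen hcop hχ (hinv s rfl)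
    have hres : IsIrrCharacter G (fun g : G => ψ g) := by
      have : (fun g : G => ψ g) = χ := funext h2
      rw [this]; exact hχ
    obtain ⟨β, hβ, ε, hε, h4⟩ := exists_corr G C s hgen hcop hC h1 hres h3
    refine ⟨ψ, h1, h2, hres, h3, β, hβ, ε, hε, h4, ?_⟩
    intro β' hβ'
    have h5 := data_of_canonical G C s hgen hcop hC hp hord h1 hres h3 hβ h4 β' hβ'
    have h6 : (fun c : C => ψ (c : Γ)) = fun c : C => χ ⟨c, hCG c.2⟩ := by
      funext c; exact h2 ⟨c, hCG c.2⟩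
    rwa [h6] at h5
  refine ⟨?_, ?_, ?_⟩
  · intro χ hχ hinv
    obtain ⟨ψ, _, _, _, _, β, hβ, ε, hε, _, h⟩ := key χ hχ hinv
    exact ⟨β, hβ, ε, hε, h⟩
  · intro χ χ' hχ hχ' hinv hinv' β hβ hr hr'
    obtain ⟨ψ, h1, h2, h3, _, β₁, hβ₁, ε, hε, h4, h5⟩ := key χ hχ hinv
    obtain ⟨ψ', h1', h2', h3', _, β₁', hβ₁', ε', hε', h4', h5'⟩ := key χ' hχ' hinv'
    have e1 : β = β₁ := by
      by_contra hne
      obtain ⟨m, hm, hm2⟩ := hr
      obtain ⟨m', hm', _, hm3⟩ := h5 β hβ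
      rw [hm] at hm'
      have : m = m' := by exact_mod_cast hm'
      exact hm2 (this ▸ dvd_of_modEq_zero (hm3 hne))
    have e2 : β = β₁' := by
      by_contra hne
      obtain ⟨m, hm, hm2⟩ := hr'
      obtain ⟨m', hm', _, hm3⟩ := h5' β hβ
      rw [hm] at hm'
      have : m = m' := by exact_mod_cast hm'
      exact hm2 (this ▸ dvd_of_modEq_zero (hm3 hne))
    subst e1
    subst e2
    have h6 := corr_inj G C s hcop hC h1 h1' h3 h3' hβ hε hε' h4 h4'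
    funext g
    rw [← h2 g, ← h2' g]
    exact congrFun h6 g
  · intro β hβ
    obtain ⟨ψ, h1, h2, h3, ε, hε, h4⟩ := corr_surj G C s hgen hcop hC hβ
    refine ⟨_, h2, ?_, ?_⟩
    · intro x hx g g' hgg
      change ψ g' = ψ g
      rw [hgg]
      exact IsIrrCharacter.isClassFunction h1 g x
    · obtain ⟨m, hm, hm2, _⟩ := data_of_canonical G C s hgen hcop hC hp hord h1 h2 h3 hβ h4 β hβ
      exact ⟨m, hm, not_dvd_of_modEq_unit hp hε (hm2 rfl)⟩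

end Core

end Cfsg.Agent.Lib.Helper7.Glaub4
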