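import Mathlib
import Cfsg.Prelude.Def_Characters
import Cfsg.Prelude.Def_CharExt
import Cfsg.Agent.Lib.Helper7.All1
import Cfsg.Agent.Lib.Helper7.CharKer
import Cfsg.Agent.Lib.Helper7.CharRes
import Cfsg.Agent.Lib.Helper7.CharGen
import Cfsg.Agent.Lib.Helper7.GalC
import Cfsg.Agent.Lib.Helper7.CharGalois
import Cfsg.Agent.Lib.Helper7.Transfer1
import Cfsg.Agent.Lib.Helper7.ProjExt1
import Cfsg.Agent.Lib.Helper7.ProjExt2
import Cfsg.Agent.Lib.Helper7.ProjExt4
import Cfsg.Agent.Lib.Helper7.CharGallagher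
import Cfsg.Agent.Lib.Helper7.CharGallagher2
import Cfsg.Agent.Lib.Helper7.ProjExt5
import Cfsg.Agent.Lib.Helper7.CharZeros
import Cfsg.Agent.Lib.Helper7.CosetZero
import Cfsg.Agent.Lib.Helper7.CharCenter
import Cfsg.Agent.Lib.Helper7.Brauer5
import Cfsg.Agent.Lib.Helper7.Glaub0
import Cfsg.Agent.Lib.Helper7.Glaub1
import Cfsg.Agent.Lib.Helper7.Glaub2
import Cfsg.Agent.Lib.Helper7.Glaub3
import Cfsg.Agent.Lib.Helper7.Glaub4

set_option autoImplicit false
set_option linter.style.haveILetI false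
set_option linter.unusedSectionVars false
set_option linter.unusedVariables false
set_option linter.unusedSimpArgs false

namespace Cfsg.Agent.Lib.Helper7.Glaub5

open Module Representation Cfsg
open Cfsg.Agent.Lib.Helper7.CharBasic Cfsg.Agent.Lib.Helper7.CharIrr Cfsg.Agent.Lib.Helper7.CharDecomp Cfsg.Agent.Lib.Helper7.CharComplete Cfsg.Agent.Lib.Helper7.CharOrth Cfsg.Agent.Lib.Helper7.CharInd Cfsg.Agent.Lib.Helper7.CharIntegral Cfsg.Agent.Lib.Helper7.CharBurnside Cfsg.Agent.Lib.Helper7.CharLinear Cfsg.Agent.Lib.Helper7.CharEquiv Cfsg.Agent.Lib.Helper7.CharMore Cfsg.Agent.Lib.Helper7.CharCount Cfsg.Agent.Lib.Helper7.CharMisc Cfsg.Agent.Lib.Helper7.CharMisc2 Cfsg.Agent.Lib.Helper7.CharNormal Cfsg.Agent.Lib.Helper7.CharOdd Cfsg.Agent.Lib.Helper7.CharClifford Cfsg.Agent.Lib.Helper7.CharProd Cfsg.Agent.Lib.Helper7.CharPerm Cfsg.Agent.Lib.Helper7.CharClassAlg Cfsg.Agent.Lib.Helper7.CharClassAlg2 Cfsg.Agent.Lib.Helper7.CharCentral Cfsg.Agent.Lib.Helper7.CharNormal2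 Cfsg.Agent.Lib.Helper7.CharCliffordCorr Cfsg.Agent.Lib.Helper7.CharKer Cfsg.Agent.Lib.Helper7.CharRes Cfsg.Agent.Lib.Helper7.CharGen Cfsg.Agent.Lib.Helper7.GalC Cfsg.Agent.Lib.Helper7.CharGalois Cfsg.Agent.Lib.Helper7.Transfer1 Cfsg.Agent.Lib.Helper7.ProjExt1 Cfsg.Agent.Lib.Helper7.ProjExt2 Cfsg.Agent.Lib.Helper7.ProjExt4 Cfsg.Agent.Lib.Helper7.CharGallagher Cfsg.Agent.Lib.Helper7.CharGallagher2 Cfsg.Agent.Lib.Helper7.ProjExt5 Cfsg.Agent.Lib.Helper7.CharZeros Cfsg.Agent.Lib.Helper7.CosetZero Cfsg.Agent.Lib.Helper7.CharCenter Cfsg.Agent.Lib.Helper7.Brauer5 Cfsg.Agent.Lib.Helper7.Glaub0 Cfsg.Agent.Lib.Helper7.Glaub1 Cfsg.Agent.Lib.Helper7.Glaub2 Cfsg.Agent.Lib.Helper7.Glaub3 Cfsg.Agent.Lib.Helper7.Glaub4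
open scoped ComplexConjugate

section Transport
variable {Γ : Type*} [Group Γ] [Finite Γ] (p : ℕ) (L H K : Subgroup Γ) [Fintype K]
  [Fintype (K.subgroupOf L)] (hHL : H ≤ L) (hKH : K ≤ H) (x : Γ) (hxL : x ∈ L)

theorem inner_transport (χ : H → ℂ) (β : K → ℂ) :
    classInner (fun c : K.subgroupOf L =>
      (fun g : H.subgroupOf L => χ (Subgroup.subgroupOfEquivOfLe hHL g))
        ⟨c, Subgroup.subgroupOf_mono L hKH c.2⟩)
      (fun c => β (Subgroup.subgroupOfEquivOfLe (hKH.trans hHL) c)) =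
    classInner (fun c : K => χ ⟨c, hKH c.2⟩) β :=
  classInner_comp_equiv (Subgroup.subgroupOfEquivOfLe (hKH.trans hHL))
    (fun c : K => χ ⟨c, hKH c.2⟩) β

theorem rel_transport (χ : H → ℂ) (β : K → ℂ) :
    Glaub4.Rel p (Subgroup.subgroupOf_mono L hKH)
      (fun g : H.subgroupOf L => χ (Subgroup.subgroupOfEquivOfLe hHL g))
      (fun c => β (Subgroup.subgroupOfEquivOfLe (hKH.trans hHL) c)) ↔ Glaub4.Rel p hKH χ β := by
  unfold Glaub4.Rel
  rw [inner_transport L H K hHL hKH χ β]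

theorem inv_transport (χ : H → ℂ) :
    InvBy (H.subgroupOf L) (fun g : H.subgroupOf L => χ (Subgroup.subgroupOfEquivOfLe hHL g))
      (⟨x, hxL⟩ : L) ↔ InvBy H χ x := by
  constructor
  · intro h g g' hgg
    have := h ((Subgroup.subgroupOfEquivOfLe hHL).symm g) ((Subgroup.subgroupOfEquivOfLe hHL).symm g')
      (Subtype.ext hgg)
    simpa using this
  · intro h g g' hgg
    exact h _ _ (congrArg Subtype.val hgg)

include hHL in
theorem pack_transport
    (h : Pack p (H.subgroupOf L) (K.subgroupOf L) (Subgroup.subgroupOf_mono L hKH)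
      {(⟨x, hxL⟩ : L)}) : Pack p H K hKH {x} := by
  classical
  set eH := Subgroup.subgroupOfEquivOfLe hHL with heH
  set eK := Subgroup.subgroupOfEquivOfLe (hKH.trans hHL) with heK
  have hinv0 : ∀ χ : H → ℂ, (∀ y ∈ ({x} : Set Γ), InvBy H χ y) →
      ∀ y ∈ ({(⟨x, hxL⟩ : L)} : Set L), InvBy (H.subgroupOf L) (fun g => χ (eH g)) y := by
    intro χ hχ y hy
    rw [Set.mem_singleton_iff.mp hy]
    exact (inv_transport L H hHL x hxL χ).mpr (hχ x rfl)
  refine ⟨?_, ?_, ?_⟩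
  · intro χ hχ hinv
    obtain ⟨β₀, hβ₀, ε, hε, h1⟩ := h.ex (fun g => χ (eH g)) (isIrrCharacter_comp_equiv eH hχ)
      (hinv0 χ hinv)
    refine ⟨fun c => β₀ (eK.symm c), isIrrCharacter_comp_equiv eK.symm hβ₀, ε, hε, ?_⟩
    intro β' hβ'
    obtain ⟨m, hm, hm1, hm2⟩ := h1 (fun c => β' (eK c)) (isIrrCharacter_comp_equiv eK hβ')
    rw [inner_transport L H K hHL hKH χ β'] at hm
    refine ⟨m, hm, ?_, ?_⟩
    · intro he
      apply hm1
      rw [he]; funext c; simp
    · intro hne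
      apply hm2
      intro he
      apply hne
      funext c
      have := congrFun he (eK.symm c)
      simpa using this
  · intro χ χ' hχ hχ' hinv hinv' β hβ hr hr'
    have h1 := h.inj (fun g => χ (eH g)) (fun g => χ' (eH g)) (isIrrCharacter_comp_equiv eH hχ)
      (isIrrCharacter_comp_equiv eH hχ') (hinv0 χ hinv) (hinv0 χ' hinv') (fun c => β (eK c))
      (isIrrCharacter_comp_equiv eK hβ) ((rel_transport p L H K hHL hKH χ β).mpr hr)
      ((rel_transport p L H K hHL hKH χ' β).mpr hr')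
    funext g
    have := congrFun h1 (eH.symm g)
    simpa using this
  · intro β hβ
    obtain ⟨χ₀, hχ₀, hinv, hr⟩ := h.surj (fun c => β (eK c)) (isIrrCharacter_comp_equiv eK hβ)
    have h1 : χ₀ = fun g => (fun g : H => χ₀ (eH.symm g)) (eH g) := by
      funext g; simp
    refine ⟨fun g => χ₀ (eH.symm g), isIrrCharacter_comp_equiv eH.symm hχ₀, ?_, ?_⟩
    · intro y hy
      rw [Set.mem_singleton_iff.mp hy]
      apply (inv_transport L H hHL x hxL _).mp
      rw [← heH, ← h1]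
      exact hinv _ rfl
    · apply (rel_transport p L H K hHL hKH _ β).mp
      rw [← heH, ← h1]
      exact hr

end Transport

section Cyclic
variable {Γ : Type*} [Group Γ] [Fintype Γ] (B C : Subgroup Γ) [Fintype B] [Fintype C] (x : Γ)

theorem pack_cyclic (hx : ∀ b ∈ B, x * b * x⁻¹ ∈ B) (hcop : (Nat.card B).Coprime (orderOf x))
    (hC : ∀ y, y ∈ C ↔ y ∈ B ∧ y * x = x * y) (hCB : C ≤ B) {p a : ℕ} (hp : p.Prime)
    (hord : orderOf x = p ^ a) : Pack p B C hCB {x} := by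
  classical
  set L : Subgroup Γ := B ⊔ Subgroup.zpowers x with hL
  have hBL : B ≤ L := le_sup_left
  have hxL : x ∈ L := (le_sup_right : Subgroup.zpowers x ≤ L) (Subgroup.mem_zpowers x)
  have hxn : x ∈ Subgroup.normalizer (B : Set Γ) := by
    have := mem_normalizer_of_conj_le B x⁻¹ (by simpa using hx)
    exact (Subgroup.inv_mem_iff _).mp this
  have hLn : L ≤ Subgroup.normalizer (B : Set Γ) :=
    sup_le Subgroup.le_normalizer ((Subgroup.zpowers_le).mpr hxn)
  haveI : (B.subgroupOf L).Normal := Subgroup.normal_subgroupOf_of_le_normalizer hLn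
  haveI : Fintype L := Fintype.ofFinite _
  haveI : Fintype (B.subgroupOf L) := Fintype.ofFinite _
  haveI : Fintype (C.subgroupOf L) := Fintype.ofFinite _
  apply pack_transport p L B C hBL hCB x hxL
  have hord' : orderOf (⟨x, hxL⟩ : L) = orderOf x := Subgroup.orderOf_mk x hxL
  apply pack_normal (B.subgroupOf L) (C.subgroupOf L) (⟨x, hxL⟩ : L) ?_ ?_ ?_ _ hp
    (hord'.trans hord)
  · -- generation
    apply (Subgroup.map_injective L.subtype_injective)
    rw [Subgroup.map_sup, MonoidHom.map_zpowers, Subgroup.subgroupOf_map_subtype,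
      ← MonoidHom.range_eq_map, Subgroup.range_subtype, inf_eq_left.mpr hBL]
    rfl
  · rw [hord', Nat.card_congr (Subgroup.subgroupOfEquivOfLe hBL).toEquiv]
    exact hcop
  · intro y
    rw [Subgroup.mem_subgroupOf, Subgroup.mem_subgroupOf, hC, Subtype.ext_iff]
    rfl

end Cyclic

end Cfsg.Agent.Lib.Helper7.Glaub5
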