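import Mathlib
import Cfsg.Prelude.Def_Characters
import Cfsg.Prelude.Def_CharExt
import Cfsg.Agent.Lib.Helper7.All1
import Cfsg.Agent.Lib.Helper7.CharKer
import Cfsg.Agent.Lib.Helper7.CharRes
import Cfsg.Agent.Lib.Helper7.CharGen
import Cfsg.Agent.Lib.Helper7.GalC
import Cfsg.Agent.Lib.Helper7.CharGalois
import Cfsg.Agent.Lib.Helper7.Transfer1
import Cfsg.Agent.Lib.Helper7.ProjExt1
import Cfsg.Agent.Lib.Helper7.ProjExt2
import Cfsg.Agent.Lib.Helper7.ProjExt4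
import Cfsg.Agent.Lib.Helper7.CharGallagher
import Cfsg.Agent.Lib.Helper7.CharGallagher2
import Cfsg.Agent.Lib.Helper7.ProjExt5
import Cfsg.Agent.Lib.Helper7.CharZeros
import Cfsg.Agent.Lib.Helper7.CosetZero
import Cfsg.Agent.Lib.Helper7.CharCenter
import Cfsg.Agent.Lib.Helper7.Brauer5
import Cfsg.Agent.Lib.Helper7.Glaub0
import Cfsg.Agent.Lib.Helper7.Glaub1
import Cfsg.Agent.Lib.Helper7.Glaub2
import Cfsg.Agent.Lib.Helper7.Glaub3
import Cfsg.Agent.Lib.Helper7.Glaub4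
import Cfsg.Agent.Lib.Helper7.Glaub5

set_option autoImplicit false
set_option linter.style.haveILetI false
set_option linter.unusedSectionVars false
set_option linter.unusedVariables false
set_option linter.unusedSimpArgs false

namespace Cfsg.Agent.Lib.Helper7.Glaub6

open Module Representation Cfsg
open Cfsg.Agent.Lib.Helper7.CharBasic Cfsg.Agent.Lib.Helper7.CharIrr Cfsg.Agent.Lib.Helper7.CharDecomp Cfsg.Agent.Lib.Helper7.CharComplete Cfsg.Agent.Lib.Helper7.CharOrth Cfsg.Agent.Lib.Helper7.CharInd Cfsg.Agent.Lib.Helper7.CharIntegral Cfsg.Agent.Lib.Helper7.CharBurnside Cfsg.Agent.Lib.Helper7.CharLinear Cfsg.Agent.Lib.Helper7.CharEquiv Cfsg.Agent.Lib.Helper7.CharMore Cfsg.Agent.Lib.Helper7.CharCount Cfsg.Agent.Lib.Helper7.CharMisc Cfsg.Agent.Lib.Helper7.CharMisc2 Cfsg.Agent.Lib.Helper7.CharNormal Cfsg.Agent.Lib.Helper7.CharOdd Cfsg.Agent.Lib.Helper7.CharClifford Cfsg.Agent.Lib.Helper7.CharProd Cfsg.Agent.Lib.Helper7.CharPerm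 Cfsg.Agent.Lib.Helper7.CharClassAlg Cfsg.Agent.Lib.Helper7.CharClassAlg2 Cfsg.Agent.Lib.Helper7.CharCentral Cfsg.Agent.Lib.Helper7.CharNormal2 Cfsg.Agent.Lib.Helper7.CharCliffordCorr Cfsg.Agent.Lib.Helper7.CharKer Cfsg.Agent.Lib.Helper7.CharRes Cfsg.Agent.Lib.Helper7.CharGen Cfsg.Agent.Lib.Helper7.GalC Cfsg.Agent.Lib.Helper7.CharGalois Cfsg.Agent.Lib.Helper7.Transfer1 Cfsg.Agent.Lib.Helper7.ProjExt1 Cfsg.Agent.Lib.Helper7.ProjExt2 Cfsg.Agent.Lib.Helper7.ProjExt4 Cfsg.Agent.Lib.Helper7.CharGallagher Cfsg.Agent.Lib.Helper7.CharGallagher2 Cfsg.Agent.Lib.Helper7.ProjExt5 Cfsg.Agent.Lib.Helper7.CharZeros Cfsg.Agent.Lib.Helper7.CosetZero Cfsg.Agent.Lib.Helper7.CharCenter Cfsg.Agent.Lib.Helper7.Brauer5 Cfsg.Agent.Lib.Helper7.Glaub0 Cfsg.Agent.Lib.Helper7.Glaub1 Cfsg.Agent.Lib.Helper7.Glaub2 Cfsg.Agent.Lib.Helper7.Glaub3 Cfsg.Agent.Lib.Helper7.Glaub4 Cfsg.Agent.Lib.Helper7.Glaub5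
open scoped ComplexConjugate

section Basic
variable {Γ : Type*} [Group Γ]

/-- conjugation by a normalizing element. -/
def conjEquiv (H : Subgroup Γ) (x : Γ) (hx : x ∈ Subgroup.normalizer (H : Set Γ)) : H ≃* H where
  toFun b := ⟨x * b * x⁻¹, (Subgroup.mem_normalizer_iff.mp hx b).mp b.2⟩
  invFun b := ⟨x⁻¹ * b * x, by
    have := (Subgroup.mem_normalizer_iff.mp (Subgroup.inv_mem _ hx) b).mp b.2
    simpa using this⟩
  left_inv b := Subtype.ext (by simp [mul_assoc])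
  right_inv b := Subtype.ext (by simp [mul_assoc])
  map_mul' a b := Subtype.ext (by simp [mul_assoc])

theorem invBy_iff (H : Subgroup Γ) (x : Γ) (hx : x ∈ Subgroup.normalizer (H : Set Γ)) (θ : H → ℂ) :
    InvBy H θ x ↔ ∀ b, θ (conjEquiv H x hx b) = θ b := by
  constructor
  · intro h b; exact h b _ rfl
  · intro h g g' hgg
    have : g' = conjEquiv H x hx g := Subtype.ext hgg
    rw [this]; exact h g

theorem inner_conj {H K : Subgroup Γ} [Fintype K] (hKH : K ≤ H) (x : Γ)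
    (hxH : x ∈ Subgroup.normalizer (H : Set Γ)) (hxK : x ∈ Subgroup.normalizer (K : Set Γ))
    (χ : H → ℂ) (β : K → ℂ) :
    classInner (fun c : K => (fun g => χ (conjEquiv H x hxH g)) ⟨c, hKH c.2⟩)
      (fun c => β (conjEquiv K x hxK c)) = classInner (fun c : K => χ ⟨c, hKH c.2⟩) β :=
  classInner_comp_equiv (conjEquiv K x hxK) (fun c : K => χ ⟨c, hKH c.2⟩) β

/-- the subgroup of normalizing elements fixing `θ`. -/
def invSub (H : Subgroup Γ) (θ : H → ℂ) : Subgroup Γ where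
  carrier := {y | ∃ hy : y ∈ Subgroup.normalizer (H : Set Γ), ∀ b, θ (conjEquiv H y hy b) = θ b}
  mul_mem' := by
    rintro a b ⟨ha, ha'⟩ ⟨hb, hb'⟩
    refine ⟨Subgroup.mul_mem _ ha hb, ?_⟩
    intro c
    have : conjEquiv H (a * b) (Subgroup.mul_mem _ ha hb) c =
        conjEquiv H a ha (conjEquiv H b hb c) := Subtype.ext (by simp [conjEquiv, mul_assoc])
    rw [this, ha', hb']
  one_mem' := by
    refine ⟨Subgroup.one_mem _, ?_⟩
    intro c
    have : conjEquiv H 1 (Subgroup.one_mem _) c = c := Subtype.ext (by simp [conjEquiv])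
    rw [this]
  inv_mem' := by
    rintro a ⟨ha, ha'⟩
    refine ⟨Subgroup.inv_mem _ ha, ?_⟩
    intro c
    rw [← ha' (conjEquiv H a⁻¹ (Subgroup.inv_mem _ ha) c)]
    refine congrArg θ (Subtype.ext ?_)
    simp [conjEquiv, mul_assoc]

theorem mem_invSub_iff (H : Subgroup Γ) (θ : H → ℂ) {y : Γ}
    (hy : y ∈ Subgroup.normalizer (H : Set Γ)) : y ∈ invSub H θ ↔ InvBy H θ y := by
  rw [invBy_iff H y hy]
  constructor
  · rintro ⟨_, h⟩; exact h
  · intro h; exact ⟨hy, h⟩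

theorem inv_sup_iff (H T : Subgroup Γ) (x : Γ) (hT : T ≤ Subgroup.normalizer (H : Set Γ))
    (hx : x ∈ Subgroup.normalizer (H : Set Γ)) (θ : H → ℂ) :
    (∀ y ∈ ((T : Set Γ) ∪ {x}), InvBy H θ y) ↔
      (∀ y ∈ ((T ⊔ Subgroup.zpowers x : Subgroup Γ) : Set Γ), InvBy H θ y) := by
  have hle : T ⊔ Subgroup.zpowers x ≤ Subgroup.normalizer (H : Set Γ) :=
    sup_le hT ((Subgroup.zpowers_le).mpr hx)
  constructor
  · intro h
    have h1 : T ⊔ Subgroup.zpowers x ≤ invSub H θ := by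
      apply sup_le
      · intro t ht
        exact (mem_invSub_iff H θ (hT ht)).mpr (h t (Or.inl ht))
      · rw [Subgroup.zpowers_le]
        exact (mem_invSub_iff H θ hx).mpr (h x (Or.inr rfl))
    intro y hy
    exact (mem_invSub_iff H θ (hle hy)).mp (h1 hy)
  · intro h y hy
    rcases hy with hy | hy
    · exact h y ((le_sup_left : T ≤ T ⊔ Subgroup.zpowers x) hy)
    · rw [Set.mem_singleton_iff.mp hy]
      exact h x ((le_sup_right : Subgroup.zpowers x ≤ T ⊔ Subgroup.zpowers x)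
        (Subgroup.mem_zpowers x))

theorem Pack.congr {p : ℕ} {H K : Subgroup Γ} [Fintype K] {hKH : K ≤ H} {X X' : Set Γ}
    (h : ∀ χ : H → ℂ, (∀ x ∈ X, InvBy H χ x) ↔ (∀ x ∈ X', InvBy H χ x))
    (P : Pack p H K hKH X) : Pack p H K hKH X' := by
  refine ⟨?_, ?_, ?_⟩
  · intro χ hχ hinv
    exact P.ex χ hχ ((h χ).mpr hinv)
  · intro χ χ' hχ hχ' hinv hinv'
    exact P.inj χ χ' hχ hχ' ((h χ).mpr hinv) ((h χ').mpr hinv')
  · intro β hβ
    obtain ⟨χ, h1, h2, h3⟩ := P.surj β hβ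
    exact ⟨χ, h1, (h χ).mp h2, h3⟩

theorem inner_trans {G B C : Subgroup Γ} [Fintype B] [Fintype C] (hBG : B ≤ G) (hCB : C ≤ B)
    {χ : G → ℂ} (hχ : IsCharacter G χ) (β : C → ℂ) [Fintype (IrrCharacter B)] :
    classInner (fun c : C => χ ⟨c, (hCB.trans hBG) c.2⟩) β =
      ∑ γ : IrrCharacter B, classInner (fun b : B => χ ⟨b, hBG b.2⟩) γ *
        classInner (fun c : C => (γ : B → ℂ) ⟨c, hCB c.2⟩) β := by
  have hφ : IsClassFunction B (fun b : B => χ ⟨b, hBG b.2⟩) :=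
    IsCharacter.isClassFunction (isCharacter_comp (Subgroup.inclusion hBG) hχ)
  have h1 : (fun c : C => χ ⟨c, (hCB.trans hBG) c.2⟩) =
      ∑ γ : IrrCharacter B, classInner (fun b : B => χ ⟨b, hBG b.2⟩) γ •
        (fun c : C => (γ : B → ℂ) ⟨c, hCB c.2⟩) := by
    funext c
    have := congrFun (classFunction_eq_sum hφ) ⟨c, hCB c.2⟩
    simp only [Finset.sum_apply, Pi.smul_apply, smul_eq_mul] at this ⊢
    exact this
  rw [h1, classInner_sum_left]
  apply Finset.sum_congr rfl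
  intro γ _
  rw [classInner_smul_left]

end Basic

end Cfsg.Agent.Lib.Helper7.Glaub6
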