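import Mathlib
import Cfsg.Prelude.Def_Characters
import Cfsg.Prelude.Def_CharExt
import Cfsg.Agent.Lib.Helper7.All1
import Cfsg.Agent.Lib.Helper7.CharKer
import Cfsg.Agent.Lib.Helper7.CharRes
import Cfsg.Agent.Lib.Helper7.CharGen
import Cfsg.Agent.Lib.Helper7.GalC
import Cfsg.Agent.Lib.Helper7.CharGalois
import Cfsg.Agent.Lib.Helper7.Transfer1
import Cfsg.Agent.Lib.Helper7.ProjExt1
import Cfsg.Agent.Lib.Helper7.ProjExt2
import Cfsg.Agent.Lib.Helper7.ProjExt4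
import Cfsg.Agent.Lib.Helper7.CharGallagher
import Cfsg.Agent.Lib.Helper7.CharGallagher2
import Cfsg.Agent.Lib.Helper7.ProjExt5
import Cfsg.Agent.Lib.Helper7.CharZeros
import Cfsg.Agent.Lib.Helper7.CosetZero
import Cfsg.Agent.Lib.Helper7.CharCenter
import Cfsg.Agent.Lib.Helper7.Brauer5
import Cfsg.Agent.Lib.Helper7.Glaub0
import Cfsg.Agent.Lib.Helper7.Glaub1
import Cfsg.Agent.Lib.Helper7.Glaub2
import Cfsg.Agent.Lib.Helper7.Glaub3
import Cfsg.Agent.Lib.Helper7.Glaub4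
import Cfsg.Agent.Lib.Helper7.Glaub5
import Cfsg.Agent.Lib.Helper7.Glaub6

set_option autoImplicit false
set_option linter.style.haveILetI false
set_option linter.unusedSectionVars false
set_option linter.unusedVariables false
set_option linter.unusedSimpArgs false

namespace Cfsg.Agent.Lib.Helper7.Glaub7

open Module Representation Cfsg
open Cfsg.Agent.Lib.Helper7.CharBasic Cfsg.Agent.Lib.Helper7.CharIrr Cfsg.Agent.Lib.Helper7.CharDecomp Cfsg.Agent.Lib.Helper7.CharComplete Cfsg.Agent.Lib.Helper7.CharOrth Cfsg.Agent.Lib.Helper7.CharInd Cfsg.Agent.Lib.Helper7.CharIntegral Cfsg.Agent.Lib.Helper7.CharBurnside Cfsg.Agent.Lib.Helper7.CharLinear Cfsg.Agent.Lib.Helper7.CharEquiv Cfsg.Agent.Lib.Helper7.CharMore Cfsg.Agent.Lib.Helper7.CharCount Cfsg.Agent.Lib.Helper7.CharMisc Cfsg.Agent.Lib.Helper7.CharMisc2 Cfsg.Agent.Lib.Helper7.CharNormal Cfsg.Agent.Lib.Helper7.CharOdd Cfsg.Agent.Lib.Helper7.CharClifford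 Cfsg.Agent.Lib.Helper7.CharProd Cfsg.Agent.Lib.Helper7.CharPerm Cfsg.Agent.Lib.Helper7.CharClassAlg Cfsg.Agent.Lib.Helper7.CharClassAlg2 Cfsg.Agent.Lib.Helper7.CharCentral Cfsg.Agent.Lib.Helper7.CharNormal2 Cfsg.Agent.Lib.Helper7.CharCliffordCorr Cfsg.Agent.Lib.Helper7.CharKer Cfsg.Agent.Lib.Helper7.CharRes Cfsg.Agent.Lib.Helper7.CharGen Cfsg.Agent.Lib.Helper7.GalC Cfsg.Agent.Lib.Helper7.CharGalois Cfsg.Agent.Lib.Helper7.Transfer1 Cfsg.Agent.Lib.Helper7.ProjExt1 Cfsg.Agent.Lib.Helper7.ProjExt2 Cfsg.Agent.Lib.Helper7.ProjExt4 Cfsg.Agent.Lib.Helper7.CharGallagher Cfsg.Agent.Lib.Helper7.CharGallagher2 Cfsg.Agent.Lib.Helper7.ProjExt5 Cfsg.Agent.Lib.Helper7.CharZeros Cfsg.Agent.Lib.Helper7.CosetZero Cfsg.Agent.Lib.Helper7.CharCenter Cfsg.Agent.Lib.Helper7.Brauer5 Cfsg.Agent.Lib.Helper7.Glaub0 Cfsg.Agent.Lib.Helper7.Glaub1 Cfsg.Agent.Lib.Helper7.Glaub2 Cfsg.Agent.Lib.Helper7.Glaub3 Cfsg.Agent.Lib.Helper7.Glaub4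 Cfsg.Agent.Lib.Helper7.Glaub5 Cfsg.Agent.Lib.Helper7.Glaub6
open scoped ComplexConjugate

section Comp
variable {Γ : Type*} [Group Γ] [Finite Γ] {p : ℕ}

/-- multiplicity data of `χ` relative to `γ`. -/
def Data (p : ℕ) {H K : Subgroup Γ} [Fintype K] (hKH : K ≤ H) (χ : H → ℂ) (γ : K → ℂ) (ε : ℤ) :
    Prop :=
  ∀ γ' : K → ℂ, IsIrrCharacter K γ' → ∃ m : ℕ, classInner (fun c : K => χ ⟨c, hKH c.2⟩) γ' = m ∧
    ((γ' = γ → (m : ℤ) ≡ ε [ZMOD p]) ∧ (γ' ≠ γ → (m : ℤ) ≡ 0 [ZMOD p]))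

theorem Data.rel (hp : p.Prime) {H K : Subgroup Γ} [Fintype K] {hKH : K ≤ H} {χ : H → ℂ}
    {γ : K → ℂ} {ε : ℤ} (hε : ε = 1 ∨ ε = -1) (hγ : IsIrrCharacter K γ) (hd : Data p hKH χ γ ε) :
    Glaub4.Rel p hKH χ γ := by
  obtain ⟨m, hm, h1, _⟩ := hd γ hγ
  exact ⟨m, hm, not_dvd_of_modEq_unit hp hε (h1 rfl)⟩

theorem Data.eq_of_rel {H K : Subgroup Γ} [Fintype K] {hKH : K ≤ H} {χ : H → ℂ}
    {γ γ' : K → ℂ} {ε : ℤ} (hγ' : IsIrrCharacter K γ') (hd : Data p hKH χ γ ε)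
    (hr : Glaub4.Rel p hKH χ γ') : γ' = γ := by
  by_contra hne
  obtain ⟨m, hm, hm2⟩ := hr
  obtain ⟨m', hm', _, hm3⟩ := hd γ' hγ'
  rw [hm] at hm'
  have : m = m' := by exact_mod_cast hm'
  exact hm2 (this ▸ dvd_of_modEq_zero (hm3 hne))

variable {G B C : Subgroup Γ} [Fintype B] [Fintype C] (hBG : B ≤ G) (hCB : C ≤ B)

theorem mult {χ : G → ℂ} (hχ : IsCharacter G χ) {γ : B → ℂ} (hγ : IsIrrCharacter B γ) {ε₁ : ℤ}
    (hd : Data p hBG χ γ ε₁) {β' : C → ℂ} (hβ' : IsIrrCharacter C β') {b : ℕ}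
    (hb : classInner (fun c : C => γ ⟨c, hCB c.2⟩) β' = b) :
    ∃ m : ℕ, classInner (fun c : C => χ ⟨c, (hCB.trans hBG) c.2⟩) β' = m ∧
      (m : ℤ) ≡ ε₁ * b [ZMOD p] := by
  classical
  haveI := Fintype.ofFinite (IrrCharacter B)
  obtain ⟨m, hm⟩ := classInner_isCharacter_nat
    (isCharacter_comp (Subgroup.inclusion (hCB.trans hBG)) hχ) (IsIrrCharacter.isCharacter hβ')
  have hm' : classInner (fun c : C => χ ⟨c, (hCB.trans hBG) c.2⟩) β' = m := hm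
  choose a ha ha1 ha2 using (fun γ' : IrrCharacter B => hd γ' γ'.2)
  have hb0 : ∀ γ' : IrrCharacter B, ∃ n : ℕ,
      classInner (fun c : C => (γ' : B → ℂ) ⟨c, hCB c.2⟩) β' = n := fun γ' =>
    classInner_isCharacter_nat
      (isCharacter_comp (Subgroup.inclusion hCB) (IsIrrCharacter.isCharacter γ'.2))
      (IsIrrCharacter.isCharacter hβ')
  choose b' hb' using hb0
  have h1 := inner_trans hBG hCB hχ β'
  rw [hm'] at h1
  simp only [ha, hb'] at h1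
  have h2 : (m : ℤ) = ∑ γ' : IrrCharacter B, (a γ' : ℤ) * (b' γ' : ℤ) := by exact_mod_cast h1
  refine ⟨m, hm', ?_⟩
  rw [h2]
  have h3 : ∑ γ' : IrrCharacter B, (a γ' : ℤ) * (b' γ' : ℤ) ≡
      ∑ γ' : IrrCharacter B, (if γ' = ⟨γ, hγ⟩ then ε₁ * (b : ℤ) else 0) [ZMOD p] := by
    apply Int.ModEq.sum
    intro γ' _
    split_ifs with h
    · subst h
      have h4 : b' ⟨γ, hγ⟩ = b := by
        have := (hb' ⟨γ, hγ⟩).symm.trans hb
        exact_mod_cast this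
      rw [h4]
      exact (ha1 _ rfl).mul_right _
    · have := ha2 γ' (fun he => h (Subtype.ext he))
      simpa using this.mul_right (b' γ' : ℤ)
  rw [Finset.sum_ite_eq' Finset.univ (⟨γ, hγ⟩ : IrrCharacter B), if_pos (Finset.mem_univ _)] at h3
  exact h3

theorem rel_iff (hp : p.Prime) {χ : G → ℂ} (hχ : IsCharacter G χ) {γ : B → ℂ}
    (hγ : IsIrrCharacter B γ) {ε₁ : ℤ} (hε₁ : ε₁ = 1 ∨ ε₁ = -1)
    (hd : Data p hBG χ γ ε₁) {β' : C → ℂ} (hβ' : IsIrrCharacter C β') :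
    Glaub4.Rel p (hCB.trans hBG) χ β' ↔ Glaub4.Rel p hCB γ β' := by
  obtain ⟨b, hb⟩ := classInner_isCharacter_nat
      (isCharacter_comp (Subgroup.inclusion hCB) (IsIrrCharacter.isCharacter hγ))
      (IsIrrCharacter.isCharacter hβ')
  have hb' : classInner (fun c : C => γ ⟨c, hCB c.2⟩) β' = b := hb
  obtain ⟨m, hm, hmb⟩ := mult hBG hCB hχ hγ hd hβ' hb'
  have key : p ∣ m ↔ p ∣ b := by
    have e1 : (p ∣ m) ↔ ((p : ℤ) ∣ (m : ℤ)) := by
      constructor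
      · intro h; exact_mod_cast h
      · intro h; exact_mod_cast h
    have e2 : (p ∣ b) ↔ ((p : ℤ) ∣ (b : ℤ)) := by
      constructor
      · intro h; exact_mod_cast h
      · intro h; exact_mod_cast h
    rw [e1, e2, ← Int.modEq_zero_iff_dvd, ← Int.modEq_zero_iff_dvd]
    constructor
    · intro h
      have h1 : ε₁ * (b : ℤ) ≡ 0 [ZMOD p] := hmb.symm.trans h
      have h2 := h1.mul_left ε₁
      have h3 : ε₁ * (ε₁ * (b : ℤ)) = b := by
        rcases hε₁ with rfl | rfl <;> ring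
      rw [h3, mul_zero] at h2
      exact h2
    · intro h
      have := h.mul_left ε₁
      rw [mul_zero] at this
      exact hmb.trans this
  constructor
  · rintro ⟨m', hm', hnd⟩
    rw [hm] at hm'
    have : m = m' := by exact_mod_cast hm'
    exact ⟨b, hb', fun h => hnd (this ▸ key.mpr h)⟩
  · rintro ⟨b', hb'', hnd⟩
    rw [hb'] at hb''
    have : b = b' := by exact_mod_cast hb''
    exact ⟨m, hm, fun h => hnd (this ▸ key.mp h)⟩

theorem Pack.comp (hp : p.Prime) (T : Set Γ) (x : Γ)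
    (hxG : x ∈ Subgroup.normalizer (G : Set Γ)) (hxB : x ∈ Subgroup.normalizer (B : Set Γ))
    (hxT : ∀ t ∈ T, x * t * x⁻¹ ∈ T)
    (P1 : Pack p G B hBG T) (P2 : Pack p B C hCB {x}) :
    Pack p G C (hCB.trans hBG) (T ∪ {x}) := by
  classical
  -- factorisation
  have factor : ∀ χ : G → ℂ, IsIrrCharacter G χ → (∀ y ∈ T ∪ {x}, InvBy G χ y) →
      ∃ γ : B → ℂ, IsIrrCharacter B γ ∧ InvBy B γ x ∧ ∃ ε₁ : ℤ, (ε₁ = 1 ∨ ε₁ = -1) ∧
        Data p hBG χ γ ε₁ := by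
    intro χ hχ hinv
    obtain ⟨γ, hγ, ε₁, hε₁, hd⟩ := P1.ex χ hχ (fun y hy => hinv y (Or.inl hy))
    have hd' : Data p hBG χ γ ε₁ := hd
    refine ⟨γ, hγ, ?_, ε₁, hε₁, hd'⟩
    rw [invBy_iff B x hxB]
    have hχx := (invBy_iff G x hxG χ).mp (hinv x (Or.inr rfl))
    have h1 := inner_conj hBG x hxG hxB χ γ
    have h2 : (fun g => χ (conjEquiv G x hxG g)) = χ := funext hχx
    rw [h2] at h1
    have h3 : Glaub4.Rel p hBG χ (fun c => γ (conjEquiv B x hxB c)) := by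
      obtain ⟨m, hm, hnd⟩ := hd'.rel hp hε₁ hγ
      exact ⟨m, h1.trans hm, hnd⟩
    have h4 := hd'.eq_of_rel (isIrrCharacter_comp_equiv (conjEquiv B x hxB) hγ) h3
    exact fun b => congrFun h4 b
  refine ⟨?_, ?_, ?_⟩
  · intro χ hχ hinv
    obtain ⟨γ, hγ, hγx, ε₁, hε₁, hd⟩ := factor χ hχ hinv
    obtain ⟨β, hβ, ε₂, hε₂, hd2⟩ := P2.ex γ hγ (fun y hy => by
      rw [Set.mem_singleton_iff.mp hy]; exact hγx)
    refine ⟨β, hβ, ε₁ * ε₂, ?_, ?_⟩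
    · rcases hε₁ with rfl | rfl <;> rcases hε₂ with rfl | rfl <;> simp
    · intro β' hβ'
      obtain ⟨b, hb, hb1, hb2⟩ := hd2 β' hβ'
      obtain ⟨m, hm, hmb⟩ := mult hBG hCB (IsIrrCharacter.isCharacter hχ) hγ hd hβ' hb
      refine ⟨m, hm, ?_, ?_⟩
      · intro he
        exact hmb.trans ((hb1 he).mul_left ε₁)
      · intro hne
        have := (hb2 hne).mul_left ε₁
        rw [mul_zero] at this
        exact hmb.trans this
  · intro χ χ' hχ hχ' hinv hinv' β hβ hr hr'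
    obtain ⟨γ, hγ, hγx, ε₁, hε₁, hd⟩ := factor χ hχ hinv
    obtain ⟨γ', hγ', hγx', ε₁', hε₁', hd'⟩ := factor χ' hχ' hinv'
    have r1 := (rel_iff hBG hCB hp (IsIrrCharacter.isCharacter hχ) hγ hε₁ hd hβ).mp hr
    have r2 := (rel_iff hBG hCB hp (IsIrrCharacter.isCharacter hχ') hγ' hε₁' hd' hβ).mp hr'
    have e := P2.inj γ γ' hγ hγ' (fun y hy => by rw [Set.mem_singleton_iff.mp hy]; exact hγx)
      (fun y hy => by rw [Set.mem_singleton_iff.mp hy]; exact hγx') β hβ r1 r2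
    subst e
    exact P1.inj χ χ' hχ hχ' (fun y hy => hinv y (Or.inl hy)) (fun y hy => hinv' y (Or.inl hy))
      γ hγ (hd.rel hp hε₁ hγ) (hd'.rel hp hε₁' hγ)
  · intro β hβ
    obtain ⟨γ, hγ, hγx, hr⟩ := P2.surj β hβ
    obtain ⟨χ, hχ, hχT, hr2⟩ := P1.surj γ hγ
    have hγx' := (invBy_iff B x hxB γ).mp (hγx x rfl)
    -- χ is x-invariant
    have hχx : InvBy G χ x := by
      rw [invBy_iff G x hxG]
      have h1 := inner_conj hBG x hxG hxB χ γ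
      have h2 : (fun c => γ (conjEquiv B x hxB c)) = γ := funext hγx'
      rw [h2] at h1
      have h3 : Glaub4.Rel p hBG (fun g => χ (conjEquiv G x hxG g)) γ := by
        obtain ⟨m, hm, hnd⟩ := hr2
        exact ⟨m, h1.trans hm, hnd⟩
      have h4 : ∀ t ∈ T, InvBy G (fun g => χ (conjEquiv G x hxG g)) t := by
        intro t ht g g' hgg
        apply hχT (x * t * x⁻¹) (hxT t ht)
        simp only [conjEquiv, MulEquiv.coe_mk, Equiv.coe_fn_mk, hgg]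
        group
      have h5 := P1.inj _ χ (isIrrCharacter_comp_equiv (conjEquiv G x hxG) hχ) hχ h4 hχT γ hγ h3 hr2
      exact fun b => congrFun h5 b
    have hinv : ∀ y ∈ T ∪ {x}, InvBy G χ y := by
      intro y hy
      rcases hy with hy | hy
      · exact hχT y hy
      · rw [Set.mem_singleton_iff.mp hy]; exact hχx
    refine ⟨χ, hχ, hinv, ?_⟩
    obtain ⟨γ₁, hγ₁, _, ε₁, hε₁, hd⟩ := factor χ hχ hinv
    have e := hd.eq_of_rel hγ hr2
    subst e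
    exact (rel_iff hBG hCB hp (IsIrrCharacter.isCharacter hχ) hγ hε₁ hd hβ).mpr hr

end Comp

end Cfsg.Agent.Lib.Helper7.Glaub7
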