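import Mathlib
import Cfsg.Prelude.Def_Characters
import Cfsg.Prelude.Def_CharExt
import Cfsg.Agent.Lib.Helper7.All1
import Cfsg.Agent.Lib.Helper7.CharKer
import Cfsg.Agent.Lib.Helper7.CharRes
import Cfsg.Agent.Lib.Helper7.CharGen
import Cfsg.Agent.Lib.Helper7.GalC
import Cfsg.Agent.Lib.Helper7.CharGalois
import Cfsg.Agent.Lib.Helper7.Transfer1
import Cfsg.Agent.Lib.Helper7.ProjExt1
import Cfsg.Agent.Lib.Helper7.ProjExt2
import Cfsg.Agent.Lib.Helper7.ProjExt4
import Cfsg.Agent.Lib.Helper7.CharGallagher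
import Cfsg.Agent.Lib.Helper7.CharGallagher2
import Cfsg.Agent.Lib.Helper7.ProjExt5
import Cfsg.Agent.Lib.Helper7.CharZeros
import Cfsg.Agent.Lib.Helper7.CosetZero
import Cfsg.Agent.Lib.Helper7.CharCenter
import Cfsg.Agent.Lib.Helper7.Brauer5
import Cfsg.Agent.Lib.Helper7.Glaub0
import Cfsg.Agent.Lib.Helper7.Glaub1
import Cfsg.Agent.Lib.Helper7.Glaub2
import Cfsg.Agent.Lib.Helper7.Glaub3
import Cfsg.Agent.Lib.Helper7.Glaub4
import Cfsg.Agent.Lib.Helper7.Glaub5
import Cfsg.Agent.Lib.Helper7.Glaub6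
import Cfsg.Agent.Lib.Helper7.Glaub7

set_option autoImplicit false
set_option linter.style.haveILetI false
set_option linter.unusedSectionVars false
set_option linter.unusedVariables false
set_option linter.unusedSimpArgs false

namespace Cfsg.Agent.Lib.Helper7.Glaub8

open Module Representation Cfsg
open Cfsg.Agent.Lib.Helper7.CharBasic Cfsg.Agent.Lib.Helper7.CharIrr Cfsg.Agent.Lib.Helper7.CharDecomp Cfsg.Agent.Lib.Helper7.CharComplete Cfsg.Agent.Lib.Helper7.CharOrth Cfsg.Agent.Lib.Helper7.CharInd Cfsg.Agent.Lib.Helper7.CharIntegral Cfsg.Agent.Lib.Helper7.CharBurnside Cfsg.Agent.Lib.Helper7.CharLinear Cfsg.Agent.Lib.Helper7.CharEquiv Cfsg.Agent.Lib.Helper7.CharMore Cfsg.Agent.Lib.Helper7.CharCount Cfsg.Agent.Lib.Helper7.CharMisc Cfsg.Agent.Lib.Helper7.CharMisc2 Cfsg.Agent.Lib.Helper7.CharNormal Cfsg.Agent.Lib.Helper7.CharOdd Cfsg.Agent.Lib.Helper7.CharClifford Cfsg.Agent.Lib.Helper7.CharProd Cfsg.Agent.Lib.Helper7.CharPerm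 Cfsg.Agent.Lib.Helper7.CharClassAlg Cfsg.Agent.Lib.Helper7.CharClassAlg2 Cfsg.Agent.Lib.Helper7.CharCentral Cfsg.Agent.Lib.Helper7.CharNormal2 Cfsg.Agent.Lib.Helper7.CharCliffordCorr Cfsg.Agent.Lib.Helper7.CharKer Cfsg.Agent.Lib.Helper7.CharRes Cfsg.Agent.Lib.Helper7.CharGen Cfsg.Agent.Lib.Helper7.GalC Cfsg.Agent.Lib.Helper7.CharGalois Cfsg.Agent.Lib.Helper7.Transfer1 Cfsg.Agent.Lib.Helper7.ProjExt1 Cfsg.Agent.Lib.Helper7.ProjExt2 Cfsg.Agent.Lib.Helper7.ProjExt4 Cfsg.Agent.Lib.Helper7.CharGallagher Cfsg.Agent.Lib.Helper7.CharGallagher2 Cfsg.Agent.Lib.Helper7.ProjExt5 Cfsg.Agent.Lib.Helper7.CharZeros Cfsg.Agent.Lib.Helper7.CosetZero Cfsg.Agent.Lib.Helper7.CharCenter Cfsg.Agent.Lib.Helper7.Brauer5 Cfsg.Agent.Lib.Helper7.Glaub0 Cfsg.Agent.Lib.Helper7.Glaub1 Cfsg.Agent.Lib.Helper7.Glaub2 Cfsg.Agent.Lib.Helper7.Glaub3 Cfsg.Agent.Lib.Helper7.Glaub4 Cfsg.Agent.Lib.Helper7.Glaub5 Cfsg.Agent.Lib.Helper7.Glaub6 Cfsg.Agent.Lib.Helper7.Glaub7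
open scoped ComplexConjugate

section
variable {Γ : Type*} [Group Γ]

theorem mem_normalizer_of_conj [Finite Γ] (H : Subgroup Γ) (x : Γ) (hx : ∀ b ∈ H, x * b * x⁻¹ ∈ H) :
    x ∈ Subgroup.normalizer (H : Set Γ) := by
  have := mem_normalizer_of_conj_le H x⁻¹ (by simpa using hx)
  exact (Subgroup.inv_mem_iff _).mp this

theorem exists_maximal_normal [Finite Γ] {p n : ℕ} (hp : p.Prime) (S : Subgroup Γ)
    (hS : Nat.card S = p ^ (n + 1)) :
    ∃ T : Subgroup Γ, T ≤ S ∧ Nat.card T = p ^ n ∧ (∀ s ∈ S, ∀ t ∈ T, s * t * s⁻¹ ∈ T) ∧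
      ∃ x ∈ S, T ⊔ Subgroup.zpowers x = S := by
  haveI := Fact.mk hp
  obtain ⟨T₀, hT₀⟩ := Sylow.exists_subgroup_card_pow_prime (G := S) p (n := n)
    (by rw [hS]; exact pow_dvd_pow p (Nat.le_succ n))
  have hidx : T₀.index = p := by
    have := T₀.card_mul_index
    rw [hT₀, hS, pow_succ] at this
    exact Nat.eq_of_mul_eq_mul_left (pow_pos hp.pos n) this
  haveI : T₀.Normal := Subgroup.normal_of_index_eq_minFac_card
    (by rw [hidx, hS, Nat.pow_minFac (Nat.succ_ne_zero n), hp.minFac_eq])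
  have hcardT : Nat.card (T₀.map S.subtype) = p ^ n := by
    rw [Subgroup.card_map_of_injective S.subtype_injective, hT₀]
  have hTS : T₀.map S.subtype ≤ S := Subgroup.map_subtype_le T₀
  refine ⟨T₀.map S.subtype, hTS, hcardT, ?_, ?_⟩
  · rintro s hs _ ⟨t, ht, rfl⟩
    exact ⟨⟨s, hs⟩ * t * ⟨s, hs⟩⁻¹, ‹T₀.Normal›.conj_mem t ht ⟨s, hs⟩, rfl⟩
  · have hne : T₀ ≠ ⊤ := by
      intro h
      rw [← Subgroup.index_eq_one, hidx] at h
      exact hp.one_lt.ne' h
    obtain ⟨x, hx⟩ := SetLike.exists_not_mem_of_ne_top T₀ hne rfl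
    refine ⟨x, x.2, ?_⟩
    have hU : T₀.map S.subtype ⊔ Subgroup.zpowers (x : Γ) ≤ S :=
      sup_le hTS ((Subgroup.zpowers_le).mpr x.2)
    apply Subgroup.eq_of_le_of_card_ge hU
    obtain ⟨k, hk, hk'⟩ := (Nat.dvd_prime_pow hp).mp (hS ▸ Subgroup.card_dvd_of_le hU)
    have h1 : p ^ n ∣ p ^ k := by
      rw [← hcardT, ← hk']
      exact Subgroup.card_dvd_of_le le_sup_left
    have h2 : n ≤ k := (Nat.pow_dvd_pow_iff_le_right hp.one_lt).mp h1
    have h3 : k ≠ n := by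
      intro h
      have h4 : T₀.map S.subtype = T₀.map S.subtype ⊔ Subgroup.zpowers (x : Γ) :=
        Subgroup.eq_of_le_of_card_ge le_sup_left (by rw [hk', h, hcardT])
      have h5 : (x : Γ) ∈ T₀.map S.subtype := by
        rw [h4]
        exact (le_sup_right : Subgroup.zpowers (x : Γ) ≤ _) (Subgroup.mem_zpowers _)
      obtain ⟨y, hy, hyx⟩ := h5
      have : y = x := Subtype.ext hyx
      exact hx (this ▸ hy)
    have h4 : k = n + 1 := by omega
    rw [hS, hk', h4]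

theorem pack_pgroup [Fintype Γ] {p : ℕ} (hp : p.Prime) : ∀ (n : ℕ) (G S C : Subgroup Γ) [Fintype C]
    (hCG : C ≤ G), Nat.card S = p ^ n → (∀ s ∈ S, ∀ g ∈ G, s * g * s⁻¹ ∈ G) →
    (Nat.card G).Coprime (Nat.card S) → (∀ y, y ∈ C ↔ y ∈ G ∧ ∀ s ∈ S, y * s = s * y) →
    Pack p G C hCG (S : Set Γ) := by
  classical
  intro n
  induction n with
  | zero =>
    intro G S C _ hCG hS hnorm hcop hC
    haveI : Fintype G := Fintype.ofFinite _
    have hbot : S = ⊥ := by rwa [pow_zero, Subgroup.card_eq_one] at hS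
    have P := pack_cyclic G C 1 (by intro b hb; simpa using hb) (by simp)
      (by
        intro y
        rw [hC y, hbot]
        constructor
        · rintro ⟨h1, _⟩; exact ⟨h1, by simp⟩
        · rintro ⟨h1, _⟩
          refine ⟨h1, ?_⟩
          intro s hs
          rw [Subgroup.mem_bot.mp hs]; simp) hCG (a := 0) hp (by simp)
    refine Pack.congr ?_ P
    intro χ
    rw [hbot]
    constructor
    · intro h x hx
      have : x = 1 := Subgroup.mem_bot.mp hx
      rw [this]; exact h 1 rfl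
    · intro h x hx
      rw [Set.mem_singleton_iff.mp hx]
      exact h 1 (Subgroup.one_mem _)
  | succ n ih =>
    intro G S C _ hCG hS hnorm hcop hC
    obtain ⟨T, hTS, hT, hTn, x, hxS, hTx⟩ := exists_maximal_normal hp S hS
    set B : Subgroup Γ := G ⊓ Subgroup.centralizer (T : Set Γ) with hBdef
    haveI : Fintype B := Fintype.ofFinite _
    have hBG : B ≤ G := inf_le_left
    have hB : ∀ y, y ∈ B ↔ y ∈ G ∧ ∀ t ∈ T, y * t = t * y := by
      intro y
      rw [hBdef, Subgroup.mem_inf, Subgroup.mem_centralizer_iff]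
      constructor
      · rintro ⟨h1, h2⟩; exact ⟨h1, fun t ht => (h2 t ht).symm⟩
      · rintro ⟨h1, h2⟩; exact ⟨h1, fun t ht => (h2 t ht).symm⟩
    have P1 := ih G T B hBG hT (fun s hs => hnorm s (hTS hs))
      (Nat.Coprime.coprime_dvd_right (Subgroup.card_dvd_of_le hTS) hcop) hB
    have hxG : x ∈ Subgroup.normalizer (G : Set Γ) := mem_normalizer_of_conj G x (hnorm x hxS)
    have hxB' : ∀ b ∈ B, x * b * x⁻¹ ∈ B := by
      intro b hb
      obtain ⟨hb1, hb2⟩ := (hB b).mp hb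
      refine (hB _).mpr ⟨hnorm x hxS b hb1, ?_⟩
      intro t ht
      have h1 : x⁻¹ * t * x ∈ T := by
        have := hTn x⁻¹ (S.inv_mem hxS) t ht
        simpa using this
      have h2 := hb2 _ h1
      calc x * b * x⁻¹ * t = x * (b * (x⁻¹ * t * x)) * x⁻¹ := by group
        _ = t * (x * b * x⁻¹) := by rw [h2]; group
    have hxB : x ∈ Subgroup.normalizer (B : Set Γ) := mem_normalizer_of_conj B x hxB'
    have hCB : C ≤ B := by
      intro y hy
      obtain ⟨h1, h2⟩ := (hC y).mp hy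
      exact (hB y).mpr ⟨h1, fun t ht => h2 t (hTS ht)⟩
    have hC' : ∀ y, y ∈ C ↔ y ∈ B ∧ y * x = x * y := by
      intro y
      constructor
      · intro hy
        exact ⟨hCB hy, ((hC y).mp hy).2 x hxS⟩
      · rintro ⟨h1, h2⟩
        obtain ⟨h3, h4⟩ := (hB y).mp h1
        refine (hC y).mpr ⟨h3, ?_⟩
        have hle : T ⊔ Subgroup.zpowers x ≤ Subgroup.centralizer {y} := by
          apply sup_le
          · intro t ht
            rw [Subgroup.mem_centralizer_singleton_iff]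
            exact (h4 t ht).symm
          · rw [Subgroup.zpowers_le, Subgroup.mem_centralizer_singleton_iff]
            exact h2.symm
        intro s hs
        have := hle (hTx.symm ▸ hs)
        rw [Subgroup.mem_centralizer_singleton_iff] at this
        exact this.symm
    obtain ⟨a, _, ha⟩ := (Nat.dvd_prime_pow hp).mp (hS ▸ Subgroup.orderOf_dvd_natCard S hxS)
    have hcopB : (Nat.card B).Coprime (orderOf x) :=
      Nat.Coprime.coprime_dvd_left (Subgroup.card_dvd_of_le hBG)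
        (Nat.Coprime.coprime_dvd_right (Subgroup.orderOf_dvd_natCard S hxS) hcop)
    have P2 := pack_cyclic B C x hxB' hcopB hC' hCB hp ha
    have P3 := Pack.comp hBG hCB hp (T : Set Γ) x hxG hxB (fun t ht => hTn x hxS t ht) P1 P2
    have hTnorm : T ≤ Subgroup.normalizer (G : Set Γ) := fun t ht =>
      mem_normalizer_of_conj G t (hnorm t (hTS ht))
    have P4 := Pack.congr (inv_sup_iff G T x hTnorm hxG) P3
    rw [hTx] at P4
    exact P4

end

end Cfsg.Agent.Lib.Helper7.Glaub8
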