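import Mathlib
import Cfsg.Prelude.Def_Characters
import Cfsg.Prelude.Def_CharExt
import Cfsg.Prelude.Def_Transfer
import Cfsg.Agent.Lib.Helper7.All1
import Cfsg.Agent.Lib.Helper7.Brauer5
import Cfsg.Agent.Lib.Helper7.Glaub0
import Cfsg.Agent.Lib.Helper7.Glaub3
import Cfsg.Agent.Lib.Helper7.Glaub6
import Cfsg.Agent.Lib.Helper7.Glaub8

set_option autoImplicit false
set_option linter.style.haveILetI false
set_option linter.unusedSectionVars false
set_option linter.unusedVariables false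
set_option linter.unusedSimpArgs false

namespace Cfsg.Agent.Lib.Helper7.Glaub9

open Module Representation Cfsg
open Cfsg.Agent.Lib.Helper7.CharBasic Cfsg.Agent.Lib.Helper7.CharIrr Cfsg.Agent.Lib.Helper7.CharDecomp Cfsg.Agent.Lib.Helper7.CharComplete Cfsg.Agent.Lib.Helper7.CharOrth Cfsg.Agent.Lib.Helper7.CharInd Cfsg.Agent.Lib.Helper7.CharIntegral Cfsg.Agent.Lib.Helper7.CharBurnside Cfsg.Agent.Lib.Helper7.CharLinear Cfsg.Agent.Lib.Helper7.CharEquiv Cfsg.Agent.Lib.Helper7.CharMore Cfsg.Agent.Lib.Helper7.CharCount Cfsg.Agent.Lib.Helper7.CharMisc Cfsg.Agent.Lib.Helper7.CharMisc2 Cfsg.Agent.Lib.Helper7.CharNormal Cfsg.Agent.Lib.Helper7.CharOdd Cfsg.Agent.Lib.Helper7.CharClifford Cfsg.Agent.Lib.Helper7.CharProd Cfsg.Agent.Lib.Helper7.CharPerm Cfsg.Agent.Lib.Helper7.CharClassAlg Cfsg.Agent.Lib.Helper7.CharClassAlg2 Cfsg.Agent.Lib.Helper7.CharCentral Cfsg.Agent.Lib.Helper7.CharNormal2 Cfsg.Agent.Lib.Helper7.CharCliffordCorr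 Cfsg.Agent.Lib.Helper7.Brauer5 Cfsg.Agent.Lib.Helper7.Glaub0 Cfsg.Agent.Lib.Helper7.Glaub3 Cfsg.Agent.Lib.Helper7.Glaub6 Cfsg.Agent.Lib.Helper7.Glaub8
open scoped ComplexConjugate

section Struct

theorem exists_pResidual_ne_top (T : Type*) [Group T] [Finite T] [Group.IsSolvable T]
    [Nontrivial T] : ∃ p : ℕ, p.Prime ∧ Cfsg.pResidual p T ≠ ⊤ := by
  have h1 := Group.IsSolvable.commutator_lt_top_of_nontrivial T
  have hA : Nat.card (Abelianization T) ≠ 1 := by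
    intro h
    have h2 : (commutator T).index = 1 := h
    rw [Subgroup.index_eq_one] at h2
    exact h1.ne h2
  obtain ⟨p, hp, hdvd⟩ := Nat.exists_prime_and_dvd hA
  refine ⟨p, hp, ?_⟩
  intro htop
  haveI := Fact.mk hp
  obtain ⟨a, ha⟩ := exists_prime_orderOf_dvd_card' p hdvd
  have hcard : Nat.card T ≠ 0 := Nat.card_pos.ne'
  let φ : T →* Abelianization T :=
    (powMonoidHom (ordCompl[p] (Nat.card T))).comp Abelianization.of
  have hker : Cfsg.pResidual p T ≤ φ.ker := by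
    rw [Cfsg.pResidual, Subgroup.closure_le]
    intro g hg
    have hg' : Nat.Coprime (orderOf g) p := hg
    have h2 : orderOf g ∣ Nat.card T := orderOf_dvd_natCard g
    rw [← Nat.ordProj_mul_ordCompl_eq_self (Nat.card T) p] at h2
    have h3 : orderOf g ∣ ordCompl[p] (Nat.card T) :=
      (Nat.Coprime.pow_right _ hg').dvd_of_dvd_mul_left h2
    change φ g = 1
    simp only [φ, MonoidHom.comp_apply, powMonoidHom_apply]
    rw [← map_pow, orderOf_dvd_iff_pow_eq_one.mp h3, map_one]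
  obtain ⟨t, rfl⟩ := QuotientGroup.mk_surjective a
  have h4 : φ t = 1 := hker (htop ▸ Subgroup.mem_top t)
  have h5 : (QuotientGroup.mk t : Abelianization T) ^ (ordCompl[p] (Nat.card T)) = 1 := h4
  have h6 : orderOf (QuotientGroup.mk t : Abelianization T) ∣ ordCompl[p] (Nat.card T) :=
    orderOf_dvd_of_pow_eq_one h5
  have ha' : orderOf (QuotientGroup.mk t : Abelianization T) = p := ha
  rw [ha'] at h6
  exact Nat.not_dvd_ordCompl hp hcard h6

theorem pResidual_map_le {T : Type*} [Group T] (p : ℕ) (φ : T ≃* T) :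
    (Cfsg.pResidual p T).map φ.toMonoidHom ≤ Cfsg.pResidual p T := by
  rw [Cfsg.pResidual, MonoidHom.map_closure, Subgroup.closure_le]
  rintro _ ⟨g, hg, rfl⟩
  apply Subgroup.subset_closure
  change Nat.Coprime (orderOf (φ g)) p
  rw [MulEquiv.orderOf_eq]
  exact hg

theorem pResidual_index' {T : Type*} [Group T] [Finite T] {p : ℕ} [hp : Fact p.Prime] :
    ∃ k : ℕ, (Cfsg.pResidual p T).index = p ^ k := by
  haveI : (Cfsg.pResidual p T).Normal := by
    have : (Cfsg.pResidual p T).Characteristic := by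
      rw [Subgroup.characteristic_iff_map_le]
      exact fun φ => pResidual_map_le p φ
    infer_instance
  have h : IsPGroup p (T ⧸ Cfsg.pResidual p T) := by
    intro x
    obtain ⟨x, rfl⟩ := QuotientGroup.mk_surjective x
    refine ⟨(orderOf x).factorization p, ?_⟩
    rw [← QuotientGroup.mk_pow, QuotientGroup.eq_one_iff]
    apply Subgroup.subset_closure
    change Nat.Coprime (orderOf (x ^ p ^ (orderOf x).factorization p)) p
    rw [orderOf_pow_of_dvd (pow_ne_zero _ hp.out.ne_zero) (Nat.ordProj_dvd _ _)]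
    exact (Nat.coprime_ordCompl hp.out (orderOf_pos x).ne').symm
  obtain ⟨k, hk⟩ := IsPGroup.iff_card.mp h
  exact ⟨k, by rw [Subgroup.index_eq_card, hk]⟩

variable {Γ : Type*} [Group Γ]

theorem exists_chain_step [Finite Γ] (T : Subgroup Γ) [Group.IsSolvable T] (hT : T ≠ ⊥) :
    ∃ (p : ℕ) (T₁ P : Subgroup Γ) (n : ℕ), p.Prime ∧ T₁ ≤ T ∧ Nat.card T₁ < Nat.card T ∧
      (∀ y ∈ Subgroup.normalizer (T : Set Γ), ∀ t ∈ T₁, y * t * y⁻¹ ∈ T₁) ∧ P ≤ T ∧
      Nat.card P = p ^ n ∧ T₁ ⊔ P = T := by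
  haveI : Nontrivial T := (Subgroup.nontrivial_iff_ne_bot T).mpr hT
  obtain ⟨p, hp, hne⟩ := exists_pResidual_ne_top T
  haveI := Fact.mk hp
  obtain ⟨P₀⟩ : Nonempty (Sylow p T) := inferInstance
  obtain ⟨n, hn⟩ := IsPGroup.iff_card.mp P₀.isPGroup'
  refine ⟨p, (Cfsg.pResidual p T).map T.subtype, (P₀ : Subgroup T).map T.subtype, n, hp,
    Subgroup.map_subtype_le _, ?_, ?_, Subgroup.map_subtype_le _, ?_, ?_⟩
  · rw [Subgroup.card_map_of_injective T.subtype_injective]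
    by_contra hcon
    exact hne (Subgroup.eq_top_of_le_card _ (not_lt.mp hcon))
  · rintro y hy _ ⟨u, hu, rfl⟩
    refine ⟨conjEquiv T y hy u, ?_, rfl⟩
    exact pResidual_map_le p (conjEquiv T y hy) ⟨u, hu, rfl⟩
  · rw [Subgroup.card_map_of_injective T.subtype_injective]
    exact hn
  · rw [← Subgroup.map_sup]
    have htop : Cfsg.pResidual p T ⊔ (P₀ : Subgroup T) = ⊤ := by
      rw [← Subgroup.index_eq_one]
      obtain ⟨k, hk⟩ := pResidual_index' (T := T) (p := p)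
      have h1 : (Cfsg.pResidual p T ⊔ (P₀ : Subgroup T)).index ∣ p ^ k :=
        hk ▸ Subgroup.index_dvd_of_le le_sup_left
      have h2 : (Cfsg.pResidual p T ⊔ (P₀ : Subgroup T)).index ∣ (P₀ : Subgroup T).index :=
        Subgroup.index_dvd_of_le le_sup_right
      have h3 : Nat.Coprime (p ^ k) (P₀ : Subgroup T).index :=
        Nat.Coprime.pow_left _ ((Nat.Prime.coprime_iff_not_dvd hp).mpr P₀.not_dvd_index)
      exact Nat.eq_one_of_dvd_coprimes h3 h1 h2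
    rw [htop, ← MonoidHom.range_eq_map, Subgroup.range_subtype]

end Struct

section CL
variable {Γ : Type*} [Group Γ]

/-- Glauberman's lemma for conjugacy classes, for the operator group `S`. -/
def CL (S : Subgroup Γ) : Prop :=
  ∀ G : Subgroup Γ, (∀ s ∈ S, ∀ g ∈ G, s * g * s⁻¹ ∈ G) → (Nat.card G).Coprime (Nat.card S) →
    (∀ c c' g : Γ, c ∈ G → (∀ s ∈ S, c * s = s * c) → c' ∈ G → (∀ s ∈ S, c' * s = s * c') → g ∈ G →
      g * c * g⁻¹ = c' → ∃ k ∈ G, (∀ s ∈ S, k * s = s * k) ∧ k * c * k⁻¹ = c') ∧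
    (∀ k ∈ G, (∀ s ∈ S, ∃ g ∈ G, s * k * s⁻¹ = g * k * g⁻¹) →
      ∃ g ∈ G, ∀ s ∈ S, (g * k * g⁻¹) * s = s * (g * k * g⁻¹))

theorem comm_zpowers {x c : Γ} (h : c * x = x * c) : ∀ s ∈ Subgroup.zpowers x, c * s = s * c := by
  intro s hs
  obtain ⟨i, rfl⟩ := Subgroup.mem_zpowers_iff.mp hs
  exact (Commute.zpow_right (show Commute c x from h) i).eq

theorem CL_zpowers [Finite Γ] (x : Γ) : CL (Subgroup.zpowers x) := by
  classical
  haveI := Fintype.ofFinite Γ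
  intro G hnorm hcop
  rw [Nat.card_zpowers] at hcop
  have hs : ∀ g ∈ G, x * g * x⁻¹ ∈ G := hnorm x (Subgroup.mem_zpowers x)
  set C : Subgroup Γ := G ⊓ Subgroup.centralizer {x} with hCdef
  have hC : ∀ y, y ∈ C ↔ y ∈ G ∧ y * x = x * y := by
    intro y
    rw [hCdef, Subgroup.mem_inf, Subgroup.mem_centralizer_singleton_iff]
  constructor
  · intro c c' g hc hcs hc' hcs' hg h
    obtain ⟨k, hk, hk2⟩ := conj_in_C G C x hs hcop hC
      ((hC c).mpr ⟨hc, hcs x (Subgroup.mem_zpowers x)⟩)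
      ((hC c').mpr ⟨hc', hcs' x (Subgroup.mem_zpowers x)⟩) hg h
    exact ⟨k, ((hC k).mp hk).1, comm_zpowers ((hC k).mp hk).2, hk2⟩
  · intro k hk hinv
    obtain ⟨g, hg, hgk⟩ := hinv x (Subgroup.mem_zpowers x)
    obtain ⟨h, hh, c, hc, heq⟩ := exists_conj G C x hs hcop hC (G.inv_mem hg)
    obtain ⟨e, _, he⟩ := exists_exp G C x hcop hC
    -- g⁻¹ x commutes with k
    have h1 : (g⁻¹ * x) * k = k * (g⁻¹ * x) := by
      calc (g⁻¹ * x) * k = g⁻¹ * (x * k * x⁻¹) * x := by group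
        _ = k * (g⁻¹ * x) := by rw [hgk]; group
    rw [heq] at h1
    have h2 : Commute (c * x) (h⁻¹ * k * h) := by
      change (c * x) * (h⁻¹ * k * h) = (h⁻¹ * k * h) * (c * x)
      calc (c * x) * (h⁻¹ * k * h) = h⁻¹ * ((h * (c * x) * h⁻¹) * k) * h := by group
        _ = (h⁻¹ * k * h) * (c * x) := by rw [h1]; group
    have h3 : Commute x (h⁻¹ * k * h) := by
      have := h2.pow_left e
      rwa [he c hc] at this
    refine ⟨h⁻¹, G.inv_mem hh, ?_⟩
    apply comm_zpowers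
    rw [inv_inv]
    exact h3.eq.symm

theorem comm_sup_iff (T P : Subgroup Γ) (c : Γ) :
    (∀ s ∈ T ⊔ P, c * s = s * c) ↔ (∀ s ∈ T, c * s = s * c) ∧ (∀ s ∈ P, c * s = s * c) := by
  constructor
  · intro h
    exact ⟨fun s hs => h s ((le_sup_left : T ≤ T ⊔ P) hs),
      fun s hs => h s ((le_sup_right : P ≤ T ⊔ P) hs)⟩
  · rintro ⟨h1, h2⟩
    have hle : T ⊔ P ≤ Subgroup.centralizer {c} := by
      apply sup_le
      · intro t ht
        rw [Subgroup.mem_centralizer_singleton_iff]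
        exact (h1 t ht).symm
      · intro t ht
        rw [Subgroup.mem_centralizer_singleton_iff]
        exact (h2 t ht).symm
    intro s hs
    have := hle hs
    rw [Subgroup.mem_centralizer_singleton_iff] at this
    exact this.symm

theorem CL.comp [Finite Γ] {T P : Subgroup Γ} (hPT : ∀ y ∈ P, ∀ t ∈ T, y * t * y⁻¹ ∈ T)
    (h1 : CL T) (h2 : CL P) : CL (T ⊔ P) := by
  intro G hnorm hcop
  have hnT : ∀ s ∈ T, ∀ g ∈ G, s * g * s⁻¹ ∈ G := fun s hs =>
    hnorm s ((le_sup_left : T ≤ T ⊔ P) hs)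
  have hnP : ∀ s ∈ P, ∀ g ∈ G, s * g * s⁻¹ ∈ G := fun s hs =>
    hnorm s ((le_sup_right : P ≤ T ⊔ P) hs)
  have hcT : (Nat.card G).Coprime (Nat.card T) :=
    Nat.Coprime.coprime_dvd_right (Subgroup.card_dvd_of_le le_sup_left) hcop
  have hcP : (Nat.card G).Coprime (Nat.card P) :=
    Nat.Coprime.coprime_dvd_right (Subgroup.card_dvd_of_le le_sup_right) hcop
  obtain ⟨a1, b1⟩ := h1 G hnT hcT
  set B : Subgroup Γ := G ⊓ Subgroup.centralizer (T : Set Γ) with hBdef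
  have hB : ∀ y, y ∈ B ↔ y ∈ G ∧ ∀ t ∈ T, y * t = t * y := by
    intro y
    rw [hBdef, Subgroup.mem_inf, Subgroup.mem_centralizer_iff]
    constructor
    · rintro ⟨h1, h2⟩; exact ⟨h1, fun t ht => (h2 t ht).symm⟩
    · rintro ⟨h1, h2⟩; exact ⟨h1, fun t ht => (h2 t ht).symm⟩
  have hnB : ∀ y ∈ P, ∀ b ∈ B, y * b * y⁻¹ ∈ B := by
    intro x hx b hb
    obtain ⟨hb1, hb2⟩ := (hB b).mp hb
    refine (hB _).mpr ⟨hnP x hx b hb1, ?_⟩
    intro t ht
    have h1 : x⁻¹ * t * x ∈ T := by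
      have := hPT x⁻¹ (P.inv_mem hx) t ht
      simpa using this
    have h2 := hb2 _ h1
    calc x * b * x⁻¹ * t = x * (b * (x⁻¹ * t * x)) * x⁻¹ := by group
      _ = t * (x * b * x⁻¹) := by rw [h2]; group
  have hcB : (Nat.card B).Coprime (Nat.card P) :=
    Nat.Coprime.coprime_dvd_left (Subgroup.card_dvd_of_le inf_le_left) hcP
  obtain ⟨a2, b2⟩ := h2 B hnB hcB
  constructor
  · intro c c' g hc hcs hc' hcs' hg h
    obtain ⟨hcT', hcP'⟩ := (comm_sup_iff T P c).mp hcs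
    obtain ⟨hcT'', hcP''⟩ := (comm_sup_iff T P c').mp hcs'
    obtain ⟨k, hk, hks, hk2⟩ := a1 c c' g hc hcT' hc' hcT'' hg h
    obtain ⟨k', hk', hks', hk2'⟩ := a2 c c' k ((hB c).mpr ⟨hc, hcT'⟩) hcP'
      ((hB c').mpr ⟨hc', hcT''⟩) hcP'' ((hB k).mpr ⟨hk, hks⟩) hk2
    exact ⟨k', ((hB k').mp hk').1, (comm_sup_iff T P k').mpr ⟨((hB k').mp hk').2, hks'⟩, hk2'⟩
  · intro k hk hinv
    obtain ⟨g, hg, hgs⟩ := b1 k hk (fun s hs => hinv s ((le_sup_left : T ≤ T ⊔ P) hs))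
    have hk1 : g * k * g⁻¹ ∈ B := (hB _).mpr ⟨G.mul_mem (G.mul_mem hg hk) (G.inv_mem hg), hgs⟩
    have hinvB : ∀ y ∈ P, ∃ b ∈ B, y * (g * k * g⁻¹) * y⁻¹ = b * (g * k * g⁻¹) * b⁻¹ := by
      intro y hy
      obtain ⟨u, hu, huk⟩ := hinv y ((le_sup_right : P ≤ T ⊔ P) hy)
      have h3 : y * (g * k * g⁻¹) * y⁻¹ ∈ B := hnB y hy _ hk1
      -- conjugate in G
      have hyg : y * g * y⁻¹ ∈ G := hnP y hy g hg
      have h4 : ((y * g * y⁻¹) * u * g⁻¹) * (g * k * g⁻¹) * ((y * g * y⁻¹) * u * g⁻¹)⁻¹ =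
          y * (g * k * g⁻¹) * y⁻¹ := by
        calc ((y * g * y⁻¹) * u * g⁻¹) * (g * k * g⁻¹) * ((y * g * y⁻¹) * u * g⁻¹)⁻¹
            = (y * g * y⁻¹) * (u * k * u⁻¹) * (y * g * y⁻¹)⁻¹ := by group
          _ = y * (g * k * g⁻¹) * y⁻¹ := by rw [← huk]; group
      obtain ⟨b, hb, hbs, hb2⟩ := a1 _ _ _ ((hB _).mp hk1).1 ((hB _).mp hk1).2 ((hB _).mp h3).1
        ((hB _).mp h3).2 (G.mul_mem (G.mul_mem hyg hu) (G.inv_mem hg)) h4
      exact ⟨b, (hB b).mpr ⟨hb, hbs⟩, hb2.symm⟩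
    obtain ⟨b, hb, hbs⟩ := b2 _ hk1 hinvB
    refine ⟨b * g, G.mul_mem ((hB b).mp hb).1 hg, ?_⟩
    have h5 : b * g * k * (b * g)⁻¹ = b * (g * k * g⁻¹) * b⁻¹ := by group
    rw [h5]
    apply (comm_sup_iff T P _).mpr
    refine ⟨?_, hbs⟩
    exact ((hB _).mp (B.mul_mem (B.mul_mem hb hk1) (B.inv_mem hb))).2

theorem CL_pgroup [Finite Γ] {p : ℕ} (hp : p.Prime) : ∀ (n : ℕ) (S : Subgroup Γ),
    Nat.card S = p ^ n → CL S := by
  intro n
  induction n with
  | zero =>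
    intro S hS
    have hbot : S = ⊥ := by rwa [pow_zero, Subgroup.card_eq_one] at hS
    have := CL_zpowers (1 : Γ)
    rwa [Subgroup.zpowers_one_eq_bot, ← hbot] at this
  | succ n ih =>
    intro S hS
    obtain ⟨T, hTS, hT, hTn, x, hxS, hTx⟩ := exists_maximal_normal hp S hS
    rw [← hTx]
    apply CL.comp _ (ih T hT) (CL_zpowers x)
    intro y hy t ht
    exact hTn y ((Subgroup.zpowers_le.mpr hxS) hy) t ht

theorem CL_solvable [Finite Γ] : ∀ (n : ℕ) (S : Subgroup Γ), Nat.card S = n →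
    Group.IsSolvable S → CL S := by
  intro n
  induction n using Nat.strong_induction_on with
  | _ n ih =>
    intro S hS hsolv
    by_cases hbot : S = ⊥
    · have := CL_zpowers (1 : Γ)
      rwa [Subgroup.zpowers_one_eq_bot, ← hbot] at this
    · obtain ⟨p, T₁, P, m, hp, hT₁, hlt, hnorm, hP, hPc, hsup⟩ := exists_chain_step S hbot
      rw [← hsup]
      apply CL.comp _ (ih _ (hS ▸ hlt) T₁ rfl ?_) (CL_pgroup hp m P hPc)
      · intro y hy t ht
        exact hnorm y (Subgroup.le_normalizer (hP hy)) t ht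
      · exact Group.isSolvable_of_isSolvable_injective (Subgroup.inclusion_injective hT₁)

end CL

end Cfsg.Agent.Lib.Helper7.Glaub9
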