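import Mathlib
import Cfsg.Prelude.Def_Characters
import Cfsg.Agent.Lib.Helper7.All1
import Cfsg.Agent.Lib.Helper7.Glaub0
import Cfsg.Agent.Lib.Helper7.Glaub3
import Cfsg.Agent.Lib.Helper7.Glaub4
import Cfsg.Agent.Lib.Helper7.Glaub6
import Cfsg.Agent.Lib.Helper7.Glaub7
import Cfsg.Agent.Lib.Helper7.Glaub8
import Cfsg.Agent.Lib.Helper7.Glaub9

set_option autoImplicit false
set_option linter.style.haveILetI false
set_option linter.unusedSectionVars false
set_option linter.unusedVariables false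
set_option linter.unusedSimpArgs false

namespace Cfsg.Agent.Lib.Helper7.Glaub10

open Module Representation Cfsg
open Cfsg.Agent.Lib.Helper7.CharBasic Cfsg.Agent.Lib.Helper7.CharIrr Cfsg.Agent.Lib.Helper7.CharDecomp Cfsg.Agent.Lib.Helper7.CharComplete Cfsg.Agent.Lib.Helper7.CharOrth Cfsg.Agent.Lib.Helper7.CharInd Cfsg.Agent.Lib.Helper7.CharIntegral Cfsg.Agent.Lib.Helper7.CharBurnside Cfsg.Agent.Lib.Helper7.CharLinear Cfsg.Agent.Lib.Helper7.CharEquiv Cfsg.Agent.Lib.Helper7.CharMore Cfsg.Agent.Lib.Helper7.CharCount Cfsg.Agent.Lib.Helper7.CharMisc Cfsg.Agent.Lib.Helper7.CharMisc2 Cfsg.Agent.Lib.Helper7.CharNormal Cfsg.Agent.Lib.Helper7.CharOdd Cfsg.Agent.Lib.Helper7.CharClifford Cfsg.Agent.Lib.Helper7.CharProd Cfsg.Agent.Lib.Helper7.CharPerm Cfsg.Agent.Lib.Helper7.CharClassAlg Cfsg.Agent.Lib.Helper7.CharClassAlg2 Cfsg.Agent.Lib.Helper7.CharCentral Cfsg.Agent.Lib.Helper7.CharNormal2 Cfsg.Agent.Lib.Helper7.CharCliffordCorr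 Cfsg.Agent.Lib.Helper7.Glaub0 Cfsg.Agent.Lib.Helper7.Glaub3 Cfsg.Agent.Lib.Helper7.Glaub4 Cfsg.Agent.Lib.Helper7.Glaub6 Cfsg.Agent.Lib.Helper7.Glaub7 Cfsg.Agent.Lib.Helper7.Glaub8 Cfsg.Agent.Lib.Helper7.Glaub9
open scoped ComplexConjugate

theorem card_eq_of_rel {α β : Type*} (R : α → β → Prop) (h1 : ∀ a, ∃ b, R a b)
    (h2 : ∀ b, ∃ a, R a b) (h3 : ∀ a a' b, R a b → R a' b → a = a')
    (h4 : ∀ a b b', R a b → R a b' → b = b') : Nat.card α = Nat.card β := by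
  choose f hf using h1
  refine Nat.card_congr (Equiv.ofBijective f ⟨?_, ?_⟩)
  · intro a a' h
    exact h3 a a' (f a) (hf a) (h ▸ hf a')
  · intro b
    obtain ⟨a, ha⟩ := h2 b
    exact ⟨a, h4 a _ _ (hf a) ha⟩

variable {Γ : Type*} [Group Γ]

/-- number of `S`-invariant irreducible characters of `H`. -/
noncomputable def NI (H S : Subgroup Γ) : ℕ :=
  Nat.card {χ : H → ℂ // IsIrrCharacter H χ ∧ ∀ s ∈ S, InvBy H χ s}

theorem conj_mem_inf_centralizer {G T : Subgroup Γ} {x : Γ} (hG : ∀ g ∈ G, x * g * x⁻¹ ∈ G)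
    (hT : ∀ t ∈ T, x⁻¹ * t * x ∈ T) :
    ∀ b ∈ G ⊓ Subgroup.centralizer (T : Set Γ), x * b * x⁻¹ ∈ G ⊓ Subgroup.centralizer (T : Set Γ) := by
  intro b hb
  obtain ⟨hb1, hb2⟩ := Subgroup.mem_inf.mp hb
  refine Subgroup.mem_inf.mpr ⟨hG b hb1, ?_⟩
  rw [Subgroup.mem_centralizer_iff] at hb2 ⊢
  intro t ht
  have h2 := hb2 _ (hT t ht)
  calc t * (x * b * x⁻¹) = x * ((x⁻¹ * t * x) * b) * x⁻¹ := by group
    _ = x * b * x⁻¹ * t := by rw [h2]; group

theorem NI_step [Finite Γ] {p : ℕ} (hp : p.Prime) {H D : Subgroup Γ} [Fintype D] {hDH : D ≤ H}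
    {T S : Subgroup Γ} (Pk : Pack p H D hDH (T : Set Γ)) (hTS : T ≤ S)
    (hTn : ∀ s ∈ S, ∀ t ∈ T, s * t * s⁻¹ ∈ T)
    (hH : S ≤ Subgroup.normalizer (H : Set Γ)) (hD : S ≤ Subgroup.normalizer (D : Set Γ)) :
    NI H S = NI D S := by
  apply card_eq_of_rel (fun χ β => Glaub4.Rel p hDH χ.1 β.1)
  · rintro ⟨χ, hχ, hinv⟩
    obtain ⟨β, hβ, ε, hε, hd⟩ := Pk.ex χ hχ (fun x hx => hinv x (hTS hx))
    have hd' : Data p hDH χ β ε := hd
    refine ⟨⟨β, hβ, ?_⟩, Data.rel hp hε hβ hd'⟩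
    intro s hs
    rw [invBy_iff D s (hD hs)]
    have hirr : IsIrrCharacter D (fun c => β (conjEquiv D s (hD hs) c)) :=
      isIrrCharacter_comp_equiv _ hβ
    have hrel : Glaub4.Rel p hDH χ (fun c => β (conjEquiv D s (hD hs) c)) := by
      obtain ⟨m, hm, hm2⟩ := Data.rel hp hε hβ hd'
      refine ⟨m, ?_, hm2⟩
      rw [← hm, ← inner_conj hDH s (hH hs) (hD hs) χ β]
      congr 1
      funext c
      exact ((invBy_iff H s (hH hs) χ).mp (hinv s hs) _).symm
    have := Data.eq_of_rel hirr hd' hrel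
    intro b
    exact congrFun this b
  · rintro ⟨β, hβ, hinv⟩
    obtain ⟨χ, hχ, hχT, hrel⟩ := Pk.surj β hβ
    refine ⟨⟨χ, hχ, ?_⟩, hrel⟩
    intro s hs
    rw [invBy_iff H s (hH hs)]
    have hirr : IsIrrCharacter H (fun c => χ (conjEquiv H s (hH hs) c)) :=
      isIrrCharacter_comp_equiv _ hχ
    have hT' : ∀ x ∈ (T : Set Γ), InvBy H (fun c => χ (conjEquiv H s (hH hs) c)) x := by
      intro t ht g g' hgg
      apply hχT (s * t * s⁻¹) (hTn s hs t ht)
      simp only [conjEquiv, MulEquiv.coe_mk, Equiv.coe_fn_mk]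
      rw [hgg]
      group
    have hrel' : Glaub4.Rel p hDH (fun c => χ (conjEquiv H s (hH hs) c)) β := by
      obtain ⟨m, hm, hm2⟩ := hrel
      refine ⟨m, ?_, hm2⟩
      rw [← hm, ← inner_conj hDH s (hH hs) (hD hs) χ β]
      congr 1
      funext c
      exact ((invBy_iff D s (hD hs) β).mp (hinv s hs) _).symm
    have := Pk.inj _ _ hirr hχ hT' hχT β hβ hrel' hrel
    intro b
    exact congrFun this b
  · rintro ⟨χ, hχ, hinv⟩ ⟨χ', hχ', hinv'⟩ ⟨β, hβ, _⟩ h1 h2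
    exact Subtype.ext (Pk.inj χ χ' hχ hχ' (fun x hx => hinv x (hTS hx))
      (fun x hx => hinv' x (hTS hx)) β hβ h1 h2)
  · rintro ⟨χ, hχ, hinv⟩ ⟨β, hβ, _⟩ ⟨β', hβ', _⟩ h1 h2
    obtain ⟨β₀, hβ₀, ε, hε, hd⟩ := Pk.ex χ hχ (fun x hx => hinv x (hTS hx))
    have hd' : Data p hDH χ β₀ ε := hd
    exact Subtype.ext ((Data.eq_of_rel hβ hd' h1).trans (Data.eq_of_rel hβ' hd' h2).symm)

theorem NI_chain [Fintype Γ] (G S : Subgroup Γ) (hnorm : ∀ s ∈ S, ∀ g ∈ G, s * g * s⁻¹ ∈ G)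
    (hcop : (Nat.card G).Coprime (Nat.card S)) : ∀ (n : ℕ) (T : Subgroup Γ), Nat.card T = n →
    T ≤ S → (∀ s ∈ S, ∀ t ∈ T, s * t * s⁻¹ ∈ T) → Group.IsSolvable T →
    NI G S = NI (G ⊓ Subgroup.centralizer (T : Set Γ)) S := by
  classical
  intro n
  induction n using Nat.strong_induction_on with
  | _ n ih =>
    intro T hT hTS hTn hsolv
    by_cases hbot : T = ⊥
    · have : G ⊓ Subgroup.centralizer (T : Set Γ) = G := by
        rw [hbot]
        apply inf_eq_left.mpr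
        intro g _
        rw [Subgroup.mem_centralizer_iff]
        intro t ht
        have : t = 1 := ht
        rw [this]; simp
      rw [this]
    · obtain ⟨p, T₁, P, m, hp, hT₁, hlt, hnT₁, hP, hPc, hsup⟩ := exists_chain_step T hbot
      have hSN : S ≤ Subgroup.normalizer (T : Set Γ) := fun s hs =>
        mem_normalizer_of_conj T s (hTn s hs)
      have hT₁n : ∀ s ∈ S, ∀ t ∈ T₁, s * t * s⁻¹ ∈ T₁ := fun s hs => hnT₁ s (hSN hs)
      have h1 := ih _ (hT ▸ hlt) T₁ rfl (hT₁.trans hTS) hT₁n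
        (Group.isSolvable_of_isSolvable_injective (Subgroup.inclusion_injective hT₁))
      rw [h1]
      set B : Subgroup Γ := G ⊓ Subgroup.centralizer (T₁ : Set Γ) with hBdef
      set D : Subgroup Γ := G ⊓ Subgroup.centralizer (T : Set Γ) with hDdef
      have hDB : D ≤ B := inf_le_inf_left G (Subgroup.centralizer_le hT₁)
      have hBn : ∀ s ∈ S, ∀ b ∈ B, s * b * s⁻¹ ∈ B := by
        intro s hs
        apply conj_mem_inf_centralizer (hnorm s hs)
        intro t ht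
        have := hT₁n s⁻¹ (S.inv_mem hs) t ht
        simpa using this
      have hDn : ∀ s ∈ S, ∀ b ∈ D, s * b * s⁻¹ ∈ D := by
        intro s hs
        apply conj_mem_inf_centralizer (hnorm s hs)
        intro t ht
        have := hTn s⁻¹ (S.inv_mem hs) t ht
        simpa using this
      have hPS : P ≤ S := hP.trans hTS
      have hcB : (Nat.card B).Coprime (Nat.card P) :=
        Nat.Coprime.coprime_dvd_left (Subgroup.card_dvd_of_le inf_le_left)
          (Nat.Coprime.coprime_dvd_right (Subgroup.card_dvd_of_le hPS) hcop)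
      have hDchar : ∀ y, y ∈ D ↔ y ∈ B ∧ ∀ s ∈ P, y * s = s * y := by
        intro y
        constructor
        · intro hy
          refine ⟨hDB hy, fun s hs => ?_⟩
          have := (Subgroup.mem_centralizer_iff.mp (Subgroup.mem_inf.mp hy).2) s (hP hs)
          exact this.symm
        · rintro ⟨hy, hy2⟩
          refine Subgroup.mem_inf.mpr ⟨(Subgroup.mem_inf.mp hy).1, ?_⟩
          rw [Subgroup.mem_centralizer_iff]
          have h3 := (comm_sup_iff T₁ P y).mpr ⟨fun s hs =>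
            ((Subgroup.mem_centralizer_iff.mp (Subgroup.mem_inf.mp hy).2) s hs).symm, hy2⟩
          rw [hsup] at h3
          intro t ht
          exact (h3 t ht).symm
      have Pk := pack_pgroup hp m B P D hDB hPc (fun s hs => hBn s (hPS hs)) hcB hDchar
      have hBN : S ≤ Subgroup.normalizer (B : Set Γ) := fun s hs =>
        mem_normalizer_of_conj B s (hBn s hs)
      have hDN : S ≤ Subgroup.normalizer (D : Set Γ) := fun s hs =>
        mem_normalizer_of_conj D s (hDn s hs)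
      have Pk' : Pack p B D hDB (T : Set Γ) := by
        refine Pack.congr ?_ Pk
        intro χ
        constructor
        · intro h
          have hle : T₁ ⊔ P ≤ invSub B χ := by
            apply sup_le
            · intro t ht
              rw [mem_invSub_iff B χ (hBN (hTS (hT₁ ht)))]
              intro g g' hgg
              have h4 := (Subgroup.mem_centralizer_iff.mp (Subgroup.mem_inf.mp g.2).2) t ht
              have : g' = g := by
                apply Subtype.ext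
                rw [hgg, h4]
                group
              rw [this]
            · intro t ht
              rw [mem_invSub_iff B χ (hBN (hPS ht))]
              exact h t ht
          rw [hsup] at hle
          intro x hx
          exact (mem_invSub_iff B χ (hBN (hTS hx))).mp (hle hx)
        · intro h x hx
          exact h x (hP hx)
      exact NI_step hp Pk' hTS hTn hBN hDN

theorem NI_trivial [Finite Γ] (C S : Subgroup Γ) (h : ∀ c ∈ C, ∀ s ∈ S, c * s = s * c) :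
    NI C S = Nat.card (ConjClasses C) := by
  rw [← card_irr, NI]
  refine Nat.card_congr (Equiv.subtypeEquivRight ?_)
  intro χ
  constructor
  · intro h; exact h.1
  · intro hχ
    refine ⟨hχ, ?_⟩
    intro s hs g g' hgg
    have : g' = g := by
      apply Subtype.ext
      rw [hgg, ← h g g.2 s hs]
      group
    rw [this]

theorem card_classes [Finite Γ] (G S : Subgroup Γ) (hnorm : ∀ s ∈ S, ∀ g ∈ G, s * g * s⁻¹ ∈ G)
    (hcop : (Nat.card G).Coprime (Nat.card S)) (hCL : CL S) :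
    Nat.card {K : ConjClasses G // ∀ s ∈ S, ∀ g g' : G, (g' : Γ) = s * g * s⁻¹ →
      ConjClasses.mk g = K → ConjClasses.mk g' = K} =
    Nat.card (ConjClasses (G ⊓ Subgroup.centralizer (S : Set Γ) : Subgroup Γ)) := by
  obtain ⟨ha, hb⟩ := hCL G hnorm hcop
  set C : Subgroup Γ := G ⊓ Subgroup.centralizer (S : Set Γ) with hCdef
  have hC : ∀ y, y ∈ C ↔ y ∈ G ∧ ∀ t ∈ S, y * t = t * y := by
    intro y
    rw [hCdef, Subgroup.mem_inf, Subgroup.mem_centralizer_iff]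
    constructor
    · rintro ⟨h1, h2⟩; exact ⟨h1, fun t ht => (h2 t ht).symm⟩
    · rintro ⟨h1, h2⟩; exact ⟨h1, fun t ht => (h2 t ht).symm⟩
  have hCG : C ≤ G := inf_le_left
  apply card_eq_of_rel (fun K L => ∃ c : C, ConjClasses.mk c = L ∧
    ConjClasses.mk (⟨c, hCG c.2⟩ : G) = K.1)
  · rintro ⟨K, hK⟩
    obtain ⟨k, rfl⟩ := ConjClasses.mk_surjective K
    have hinv : ∀ s ∈ S, ∃ g ∈ G, s * (k : Γ) * s⁻¹ = g * k * g⁻¹ := by
      intro s hs
      have h1 := hK s hs k ⟨s * k * s⁻¹, hnorm s hs k k.2⟩ rfl rfl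
      rw [ConjClasses.mk_eq_mk_iff_isConj, isConj_comm, isConj_iff] at h1
      obtain ⟨g, hg⟩ := h1
      exact ⟨g, g.2, (congrArg Subtype.val hg).symm⟩
    obtain ⟨g, hg, hgs⟩ := hb k k.2 hinv
    have hmem : g * k * g⁻¹ ∈ G := G.mul_mem (G.mul_mem hg k.2) (G.inv_mem hg)
    refine ⟨ConjClasses.mk ⟨g * k * g⁻¹, (hC _).mpr ⟨hmem, hgs⟩⟩, ⟨g * k * g⁻¹, (hC _).mpr ⟨hmem, hgs⟩⟩,
      rfl, ?_⟩
    rw [ConjClasses.mk_eq_mk_iff_isConj, isConj_comm, isConj_iff]
    exact ⟨⟨g, hg⟩, rfl⟩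
  · intro L
    obtain ⟨c, rfl⟩ := ConjClasses.mk_surjective L
    refine ⟨⟨ConjClasses.mk (⟨c, hCG c.2⟩ : G), ?_⟩, c, rfl, rfl⟩
    intro s hs g g' hgg h1
    rw [ConjClasses.mk_eq_mk_iff_isConj, isConj_comm, isConj_iff] at h1 ⊢
    obtain ⟨u, hu⟩ := h1
    refine ⟨⟨s * u * s⁻¹, hnorm s hs u u.2⟩, ?_⟩
    apply Subtype.ext
    have hu' : (u : Γ) * c * (u : Γ)⁻¹ = g := congrArg Subtype.val hu
    have hcs := ((hC c).mp c.2).2 s hs
    change (s * u * s⁻¹) * (c : Γ) * (s * u * s⁻¹)⁻¹ = g'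
    rw [hgg, ← hu']
    calc (s * u * s⁻¹) * (c : Γ) * (s * u * s⁻¹)⁻¹ = s * u * s⁻¹ * (c * s) * (u : Γ)⁻¹ * s⁻¹ := by
          group
      _ = s * (u * c * (u : Γ)⁻¹) * s⁻¹ := by rw [hcs]; group
  · rintro ⟨K, hK⟩ ⟨K', hK'⟩ L ⟨c, hc1, hc2⟩ ⟨c', hc1', hc2'⟩
    apply Subtype.ext
    change K = K'
    simp only at hc2 hc2'
    rw [← hc2, ← hc2']
    rw [← hc1', ConjClasses.mk_eq_mk_iff_isConj, isConj_iff] at hc1
    obtain ⟨u, hu⟩ := hc1
    rw [ConjClasses.mk_eq_mk_iff_isConj, isConj_iff]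
    have hu' : (u : Γ) * c * (u : Γ)⁻¹ = c' := congrArg Subtype.val hu
    exact ⟨⟨u, hCG u.2⟩, Subtype.ext hu'⟩
  · rintro ⟨K, hK⟩ L L' ⟨c, hc1, hc2⟩ ⟨c', hc1', hc2'⟩
    simp only at hc2 hc2'
    rw [← hc2', ConjClasses.mk_eq_mk_iff_isConj, isConj_iff] at hc2
    obtain ⟨u, hu⟩ := hc2
    obtain ⟨k, hk, hks, hk2⟩ := ha c c' u (hCG c.2) ((hC c).mp c.2).2 (hCG c'.2) ((hC c').mp c'.2).2
      u.2 (congrArg Subtype.val hu)
    rw [← hc1, ← hc1', ConjClasses.mk_eq_mk_iff_isConj, isConj_iff]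
    exact ⟨⟨k, (hC k).mpr ⟨hk, hks⟩⟩, Subtype.ext hk2⟩

theorem main [Fintype Γ] (G S : Subgroup Γ) (hnorm : ∀ s ∈ S, ∀ g ∈ G, s * g * s⁻¹ ∈ G)
    (hcop : (Nat.card G).Coprime (Nat.card S)) (hsolv : Group.IsSolvable S) :
    NI G S = Nat.card {K : ConjClasses G // ∀ s ∈ S, ∀ g g' : G, (g' : Γ) = s * g * s⁻¹ →
      ConjClasses.mk g = K → ConjClasses.mk g' = K} := by
  rw [card_classes G S hnorm hcop (CL_solvable _ S rfl hsolv),
    NI_chain G S hnorm hcop _ S rfl le_rfl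
      (fun s hs t ht => S.mul_mem (S.mul_mem hs ht) (S.inv_mem hs)) hsolv]
  apply NI_trivial
  intro c hc s hs
  exact ((Subgroup.mem_centralizer_iff.mp (Subgroup.mem_inf.mp hc).2) s hs).symm

end Cfsg.Agent.Lib.Helper7.Glaub10
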