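import Mathlib
import Cfsg.Prelude.Def_Characters
import Cfsg.Agent.Lib.Helper7.All1
import Cfsg.Agent.Lib.Helper7.CharKer
import Cfsg.Agent.Lib.Helper7.CharRes
import Cfsg.Agent.Lib.Helper7.CharZ
import Cfsg.Agent.Lib.Helper7.CharCenter
import Cfsg.Agent.Lib.Helper7.Glaub0
import Cfsg.Agent.Lib.Helper7.Glaub3
import Cfsg.Agent.Lib.Helper7.Glaub4
import Cfsg.Agent.Lib.Helper7.Glaub6
import Cfsg.Agent.Lib.Helper7.Glaub7
import Cfsg.Agent.Lib.Helper7.Glaub8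
import Cfsg.Agent.Lib.Helper7.Glaub9
import Cfsg.Agent.Lib.Helper7.Glaub10

set_option autoImplicit false
set_option linter.style.haveILetI false
set_option linter.unusedSectionVars false
set_option linter.unusedVariables false
set_option linter.unusedSimpArgs false

namespace Cfsg.Agent.Lib.Helper7.Glaub11

open Module Representation Cfsg
open Cfsg.Agent.Lib.Helper7.CharBasic Cfsg.Agent.Lib.Helper7.CharIrr Cfsg.Agent.Lib.Helper7.CharDecomp Cfsg.Agent.Lib.Helper7.CharComplete Cfsg.Agent.Lib.Helper7.CharOrth Cfsg.Agent.Lib.Helper7.CharInd Cfsg.Agent.Lib.Helper7.CharIntegral Cfsg.Agent.Lib.Helper7.CharBurnside Cfsg.Agent.Lib.Helper7.CharLinear Cfsg.Agent.Lib.Helper7.CharEquiv Cfsg.Agent.Lib.Helper7.CharMore Cfsg.Agent.Lib.Helper7.CharCount Cfsg.Agent.Lib.Helper7.CharMisc Cfsg.Agent.Lib.Helper7.CharMisc2 Cfsg.Agent.Lib.Helper7.CharNormal Cfsg.Agent.Lib.Helper7.CharOdd Cfsg.Agent.Lib.Helper7.CharClifford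 Cfsg.Agent.Lib.Helper7.CharProd Cfsg.Agent.Lib.Helper7.CharPerm Cfsg.Agent.Lib.Helper7.CharClassAlg Cfsg.Agent.Lib.Helper7.CharClassAlg2 Cfsg.Agent.Lib.Helper7.CharCentral Cfsg.Agent.Lib.Helper7.CharNormal2 Cfsg.Agent.Lib.Helper7.CharCliffordCorr Cfsg.Agent.Lib.Helper7.CharKer Cfsg.Agent.Lib.Helper7.CharRes Cfsg.Agent.Lib.Helper7.CharZ Cfsg.Agent.Lib.Helper7.CharCenter Cfsg.Agent.Lib.Helper7.Glaub0 Cfsg.Agent.Lib.Helper7.Glaub3 Cfsg.Agent.Lib.Helper7.Glaub4 Cfsg.Agent.Lib.Helper7.Glaub6 Cfsg.Agent.Lib.Helper7.Glaub7 Cfsg.Agent.Lib.Helper7.Glaub8 Cfsg.Agent.Lib.Helper7.Glaub9 Cfsg.Agent.Lib.Helper7.Glaub10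
open scoped ComplexConjugate

section Fix

theorem dvd_sum_nonfixed {P X : Type*} [Group P] [Finite P] {p : ℕ} [hp : Fact p.Prime]
    (hP : IsPGroup p P) [Fintype X] [MulAction P X] (f : X → ℤ)
    (hf : ∀ (s : P) x, f (s • x) = f x) [DecidablePred (fun x : X => x ∉ MulAction.fixedPoints P X)] :
    (p : ℤ) ∣ ∑ x ∈ Finset.univ.filter (fun x : X => x ∉ MulAction.fixedPoints P X), f x := by
  classical
  rw [Finset.sum_partition (MulAction.orbitRel P X)]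
  apply Finset.dvd_sum
  intro q hq
  obtain ⟨x, hx, rfl⟩ := Finset.mem_image.mp hq
  have hx' : x ∉ MulAction.fixedPoints P X := (Finset.mem_filter.mp hx).2
  have hconst : ∀ y ∈ (Finset.univ.filter (fun x : X => x ∉ MulAction.fixedPoints P X)).filter
      (fun y => (Quotient.mk (MulAction.orbitRel P X) y) = Quotient.mk (MulAction.orbitRel P X) x),
      f y = f x := by
    intro y hy
    have h1 := (Finset.mem_filter.mp hy).2
    have h2 : y ∈ MulAction.orbit P x := (MulAction.orbitRel_apply).mp (Quotient.exact h1)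
    obtain ⟨s, rfl⟩ := h2
    exact hf s x
  rw [Finset.sum_congr rfl hconst, Finset.sum_const]
  have hset : (Finset.univ.filter (fun x : X => x ∉ MulAction.fixedPoints P X)).filter
      (fun y => (Quotient.mk (MulAction.orbitRel P X) y) = Quotient.mk (MulAction.orbitRel P X) x) =
      (MulAction.orbit P x).toFinset := by
    ext y
    simp only [Finset.mem_filter, Finset.mem_univ, true_and, Set.mem_toFinset]
    constructor
    · rintro ⟨_, h1⟩
      exact (MulAction.orbitRel_apply).mp (Quotient.exact h1)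
    · intro h2
      refine ⟨?_, Quotient.sound ((MulAction.orbitRel_apply).mpr h2)⟩
      obtain ⟨s, rfl⟩ := h2
      intro hfix
      apply hx'
      intro t
      have h3 := hfix (s * t * s⁻¹)
      rw [smul_smul] at h3
      have h4 : s * t * s⁻¹ * s = s * t := by group
      rw [h4, mul_smul] at h3
      exact smul_left_cancel s h3
  rw [hset, Set.toFinset_card, ← Nat.card_eq_fintype_card]
  obtain ⟨n, hn⟩ := hP.card_orbit x
  rw [hn]
  have hn0 : n ≠ 0 := by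
    rintro rfl
    rw [pow_zero] at hn
    apply hx'
    rw [MulAction.mem_fixedPoints_iff_card_orbit_eq_one, ← Nat.card_eq_fintype_card]
    exact hn
  rw [nsmul_eq_mul]
  apply Dvd.dvd.mul_right
  exact_mod_cast dvd_pow_self p hn0

theorem sum_modEq_fixed {P X : Type*} [Group P] [Finite P] {p : ℕ} [hp : Fact p.Prime]
    (hP : IsPGroup p P) [Fintype X] [MulAction P X] (f : X → ℤ)
    (hf : ∀ (s : P) x, f (s • x) = f x) [DecidablePred (fun x : X => x ∈ MulAction.fixedPoints P X)] :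
    ∑ x, f x ≡ ∑ x ∈ Finset.univ.filter (fun x : X => x ∈ MulAction.fixedPoints P X), f x
      [ZMOD p] := by
  classical
  rw [← Finset.sum_filter_add_sum_filter_not Finset.univ
    (fun x : X => x ∈ MulAction.fixedPoints P X) f]
  have h := dvd_sum_nonfixed hP f hf
  have h2 := (Int.modEq_zero_iff_dvd.mpr h).add_left
    (∑ x ∈ Finset.univ.filter (fun x : X => x ∈ MulAction.fixedPoints P X), f x)
  rw [add_zero] at h2
  convert h2

end Fix

section Amb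
variable {Γ : Type*} [Group Γ] [Finite Γ] {G N : Subgroup Γ} [Fintype N] (hNG : N ≤ G)
  (hNn : ∀ g ∈ G, ∀ n ∈ N, g * n * g⁻¹ ∈ N)

include hNn in
theorem amb_normal : (N.subgroupOf G).Normal := by
  constructor
  intro n hn g
  rw [Subgroup.mem_subgroupOf] at hn ⊢
  exact hNn g g.2 n hn

theorem amb_inner [Fintype (N.subgroupOf G)] (χ : G → ℂ) (θ : N → ℂ) :
    classInner (fun n : N.subgroupOf G => χ n)
      (fun n => θ (Subgroup.subgroupOfEquivOfLe hNG n)) =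
    classInner (fun n : N => χ ⟨n, hNG n.2⟩) θ :=
  classInner_comp_equiv (Subgroup.subgroupOfEquivOfLe hNG) (fun n : N => χ ⟨n, hNG n.2⟩) θ

include hNn in
theorem amb_clifford_conj {χ : G → ℂ} (hχ : IsIrrCharacter G χ) {θ ψ : N → ℂ}
    (hθ : IsIrrCharacter N θ) (hψ : IsIrrCharacter N ψ)
    (h1 : classInner (fun n : N => χ ⟨n, hNG n.2⟩) θ ≠ 0)
    (h2 : classInner (fun n : N => χ ⟨n, hNG n.2⟩) ψ ≠ 0) :
    ∃ g ∈ G, ∀ n n' : N, (n' : Γ) = g * n * g⁻¹ → ψ n = θ n' := by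
  classical
  haveI := Fintype.ofFinite G
  haveI := Fintype.ofFinite (N.subgroupOf G)
  haveI := amb_normal hNn
  rw [← amb_inner hNG] at h1 h2
  obtain ⟨g, hg⟩ := clifford_conj (N.subgroupOf G) hχ
    (isIrrCharacter_comp_equiv (Subgroup.subgroupOfEquivOfLe hNG) hθ)
    (isIrrCharacter_comp_equiv (Subgroup.subgroupOfEquivOfLe hNG) hψ) h1 h2
  refine ⟨g, g.2, ?_⟩
  intro n n' hnn
  have h3 := congrFun hg ((Subgroup.subgroupOfEquivOfLe hNG).symm n)
  rw [conjFun_apply] at h3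
  simp only [MulEquiv.apply_symm_apply] at h3
  rw [h3]
  refine congrArg θ (Subtype.ext ?_)
  rw [hnn]
  rfl

include hNn in
theorem amb_mult_not_dvd {p : ℕ} (hp : p.Prime) (hpG : ¬ p ∣ Nat.card G) {χ : G → ℂ}
    (hχ : IsIrrCharacter G χ) {θ : N → ℂ} (hθ : IsIrrCharacter N θ) {m : ℕ}
    (hm : classInner (fun n : N => χ ⟨n, hNG n.2⟩) θ = m) (hm0 : m ≠ 0) : ¬ p ∣ m := by
  classical
  haveI := Fintype.ofFinite G
  haveI := Fintype.ofFinite (N.subgroupOf G)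
  haveI := amb_normal hNn
  intro hdvd
  rw [← amb_inner hNG] at hm
  have hθ' := isIrrCharacter_comp_equiv (Subgroup.subgroupOfEquivOfLe hNG) hθ
  have hconst : classInner (fun n : N.subgroupOf G => χ n)
      (fun n => θ (Subgroup.subgroupOfEquivOfLe hNG n)) ≠ 0 := by
    rw [hm]; exact_mod_cast hm0
  have h1 := degree_mul_inertia (N.subgroupOf G) hχ hθ' hconst
  haveI := Fintype.ofFinite (inertia (N.subgroupOf G)
    (fun n => θ (Subgroup.subgroupOfEquivOfLe hNG n)))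
  rw [sum_inertia_eq_card (N.subgroupOf G) (inertia (N.subgroupOf G)
    (fun n => θ (Subgroup.subgroupOfEquivOfLe hNG n))) _ hθ' (mem_inertia _ _), hm] at h1
  obtain ⟨d, hd⟩ := irr_one_eq_natCast (IsIrrCharacter.isCharacter hχ)
  obtain ⟨d', hd'⟩ := irr_one_eq_natCast (IsIrrCharacter.isCharacter hθ')
  rw [hd, hd'] at h1
  have h2 : d * Nat.card (inertia (N.subgroupOf G)
    (fun n => θ (Subgroup.subgroupOfEquivOfLe hNG n))) = m * Nat.card G * d' := by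
    exact_mod_cast h1
  have h3 : p ∣ d * Nat.card (inertia (N.subgroupOf G)
    (fun n => θ (Subgroup.subgroupOfEquivOfLe hNG n))) := by
    rw [h2, mul_assoc]
    exact Dvd.dvd.mul_right hdvd _
  rcases (Nat.Prime.dvd_mul hp).mp h3 with h4 | h4
  · exact hpG (h4.trans (irr_degree_dvd_card hχ hd))
  · exact hpG (h4.trans (Subgroup.card_subgroup_dvd_card _))

end Amb

section Step
variable {Γ : Type*} [Group Γ] [Finite Γ]

/-- the action of `P` on the irreducible characters of `N`. -/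
@[reducible] def irrAction (N P : Subgroup Γ) (hPN : P ≤ Subgroup.normalizer (N : Set Γ)) :
    MulAction P (IrrCharacter N) where
  smul s θ := ⟨fun n => θ.1 (conjEquiv N ((s : Γ)⁻¹) (hPN (P.inv_mem s.2)) n),
    isIrrCharacter_comp_equiv _ θ.2⟩
  one_smul θ := by
    apply Subtype.ext
    funext n
    refine congrArg θ.1 (Subtype.ext ?_)
    simp [conjEquiv]
  mul_smul s t θ := by
    apply Subtype.ext
    funext n
    refine congrArg θ.1 (Subtype.ext ?_)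
    simp [conjEquiv, mul_assoc]

theorem mem_fixed_iff (N P : Subgroup Γ) (hPN : P ≤ Subgroup.normalizer (N : Set Γ))
    (θ : IrrCharacter N) :
    (letI := irrAction N P hPN; θ ∈ MulAction.fixedPoints P (IrrCharacter N)) ↔
      ∀ s ∈ P, InvBy N θ.1 s := by
  letI := irrAction N P hPN
  constructor
  · intro h s hs g g' hgg
    have h1 := congrFun (congrArg Subtype.val (h ⟨s, hs⟩)) g'
    rw [← h1]
    refine congrArg θ.1 (Subtype.ext ?_)
    simp only [conjEquiv, MulEquiv.coe_mk, Equiv.coe_fn_mk]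
    rw [hgg]
    group
  · intro h s
    apply Subtype.ext
    funext n
    refine (h s s.2 _ n ?_).symm
    simp only [conjEquiv, MulEquiv.coe_mk, Equiv.coe_fn_mk]
    group

open Classical in
theorem key {p : ℕ} (hp : p.Prime) {G N P : Subgroup Γ} [Fintype N] (hNG : N ≤ G)
    (hPp : IsPGroup p P) (hPG : P ≤ Subgroup.normalizer (G : Set Γ))
    (hPN : P ≤ Subgroup.normalizer (N : Set Γ)) {χ : G → ℂ} (hinv : ∀ s ∈ P, InvBy G χ s)
    [Fintype (IrrCharacter N)] (a w : IrrCharacter N → ℤ)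
    (ha : ∀ θ : IrrCharacter N, classInner (fun n : N => χ ⟨n, hNG n.2⟩) θ.1 = a θ)
    (hw : ∀ (x : Γ) (hx : x ∈ P) (θ θ' : IrrCharacter N),
      (θ'.1 = fun n => θ.1 (conjEquiv N x (hPN hx) n)) → w θ' = w θ) :
    ∑ θ, a θ * w θ ≡
      ∑ θ ∈ Finset.univ.filter (fun θ : IrrCharacter N => ∀ s ∈ P, InvBy N θ.1 s), a θ * w θ
      [ZMOD p] := by
  letI := irrAction N P hPN
  haveI := Fact.mk hp
  have hf : ∀ (s : P) (θ : IrrCharacter N), a (s • θ) * w (s • θ) = a θ * w θ := by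
    intro s θ
    have h1 : w (s • θ) = w θ := hw _ (P.inv_mem s.2) θ (s • θ) rfl
    have h2 : a (s • θ) = a θ := by
      have h3 : ((a (s • θ) : ℤ) : ℂ) = a θ := by
        rw [← ha, ← ha, ← inner_conj hNG ((s : Γ)⁻¹) (hPG (P.inv_mem s.2)) (hPN (P.inv_mem s.2)) χ θ.1]
        congr 1
        funext c
        exact ((invBy_iff G _ (hPG (P.inv_mem s.2)) χ).mp (hinv _ (P.inv_mem s.2)) _).symm
      exact_mod_cast h3
    rw [h1, h2]
  have h := sum_modEq_fixed hPp (fun θ : IrrCharacter N => a θ * w θ) hf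
  have hfil : Finset.univ.filter (fun θ : IrrCharacter N => ∀ s ∈ P, InvBy N θ.1 s) =
      Finset.univ.filter (fun θ : IrrCharacter N => θ ∈ MulAction.fixedPoints P (IrrCharacter N)) := by
    ext θ
    simp only [Finset.mem_filter, Finset.mem_univ, true_and]
    exact (mem_fixed_iff N P hPN θ).symm
  rw [hfil]
  exact h

theorem mem_normalizer_of_comm (E : Subgroup Γ) {x : Γ} (h : ∀ e ∈ E, e * x = x * e) :
    x ∈ Subgroup.normalizer (E : Set Γ) := by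
  apply mem_normalizer_of_conj
  intro b hb
  rw [← h b hb]
  simpa using hb

theorem forward {p : ℕ} (hp : p.Prime) {G N E P : Subgroup Γ} [Fintype N] [Fintype E]
    (hNG : N ≤ G) (hEN : E ≤ N) (hNn : ∀ g ∈ G, ∀ n ∈ N, g * n * g⁻¹ ∈ N)
    (hPp : IsPGroup p P) (hPG : P ≤ Subgroup.normalizer (G : Set Γ))
    (hPN : P ≤ Subgroup.normalizer (N : Set Γ)) (hPE : ∀ e ∈ E, ∀ s ∈ P, e * s = s * e)
    (hpG : ¬ p ∣ Nat.card G) (PkN : Pack p N E hEN (P : Set Γ))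
    {χ : G → ℂ} (hχ : IsIrrCharacter G χ) (hχinv : ∀ s ∈ P, InvBy G χ s)
    {θ : N → ℂ} (hθ : IsIrrCharacter N θ) (hθinv : ∀ s ∈ P, InvBy N θ s)
    {φ : E → ℂ} (hφ : IsIrrCharacter E φ) (hrel : Glaub4.Rel p hEN θ φ)
    (hconst : classInner (fun n : N => χ ⟨n, hNG n.2⟩) θ ≠ 0) :
    Glaub4.Rel p (hEN.trans hNG) χ φ := by
  classical
  haveI := Fintype.ofFinite (IrrCharacter N)
  have hχc := IsIrrCharacter.isCharacter hχ
  have hφc := IsIrrCharacter.isCharacter hφ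
  have ha0 : ∀ θ' : IrrCharacter N, ∃ n : ℕ,
      classInner (fun n : N => χ ⟨n, hNG n.2⟩) θ'.1 = n := fun θ' =>
    classInner_isCharacter_nat (isCharacter_comp (Subgroup.inclusion hNG) hχc)
      (IsIrrCharacter.isCharacter θ'.2)
  choose a ha using ha0
  have hb0 : ∀ θ' : IrrCharacter N, ∃ n : ℕ,
      classInner (fun c : E => (θ' : N → ℂ) ⟨c, hEN c.2⟩) φ = n := fun θ' =>
    classInner_isCharacter_nat
      (isCharacter_comp (Subgroup.inclusion hEN) (IsIrrCharacter.isCharacter θ'.2)) hφc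
  choose b hb using hb0
  obtain ⟨m, hm⟩ := classInner_isCharacter_nat
    (isCharacter_comp (Subgroup.inclusion (hEN.trans hNG)) hχc) hφc
  have hm' : classInner (fun c : E => χ ⟨c, (hEN.trans hNG) c.2⟩) φ = m := hm
  have h1 := inner_trans hNG hEN hχc φ
  rw [hm'] at h1
  simp only [ha, hb] at h1
  have h2 : (m : ℤ) = ∑ θ' : IrrCharacter N, (a θ' : ℤ) * (b θ' : ℤ) := by exact_mod_cast h1
  have h3 := key hp hNG hPp hPG hPN hχinv (fun θ' => (a θ' : ℤ)) (fun θ' => (b θ' : ℤ))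
    (fun θ' => by rw [ha]; simp) (by
      intro x hx θ₁ θ₂ h12
      have h4 : ((b θ₂ : ℕ) : ℂ) = b θ₁ := by
        have hxE : x ∈ Subgroup.normalizer (E : Set Γ) :=
          mem_normalizer_of_comm E (fun e he => hPE e he x hx)
        rw [← hb, ← hb, ← inner_conj hEN x (hPN hx) hxE θ₁.1 φ, h12]
        congr 1
        funext c
        refine congrArg φ (Subtype.ext ?_)
        simp only [conjEquiv, MulEquiv.coe_mk, Equiv.coe_fn_mk]
        rw [← hPE c c.2 x hx]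
        group
      exact_mod_cast h4)
  have h5 : ∑ θ' ∈ Finset.univ.filter (fun θ' : IrrCharacter N => ∀ s ∈ P, InvBy N θ'.1 s),
      (a θ' : ℤ) * (b θ' : ℤ) ≡
      ∑ θ' ∈ Finset.univ.filter (fun θ' : IrrCharacter N => ∀ s ∈ P, InvBy N θ'.1 s),
      (if θ' = ⟨θ, hθ⟩ then (a ⟨θ, hθ⟩ : ℤ) * (b ⟨θ, hθ⟩ : ℤ) else 0) [ZMOD p] := by
    apply Int.ModEq.sum
    intro θ' hθ'
    have hinv' := (Finset.mem_filter.mp hθ').2
    split_ifs with h
    · rw [h]
    · have h6 : p ∣ b θ' := by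
        by_contra hnd
        apply h
        apply Subtype.ext
        exact PkN.inj θ'.1 θ θ'.2 hθ hinv' hθinv φ hφ ⟨b θ', hb θ', hnd⟩ hrel
      have h7 : (p : ℤ) ∣ (a θ' : ℤ) * (b θ' : ℤ) :=
        Dvd.dvd.mul_left (by exact_mod_cast h6) _
      exact Int.modEq_zero_iff_dvd.mpr h7
  rw [Finset.sum_ite_eq' _ (⟨θ, hθ⟩ : IrrCharacter N),
    if_pos (Finset.mem_filter.mpr ⟨Finset.mem_univ _, hθinv⟩)] at h5
  refine ⟨m, hm', ?_⟩
  intro hdvd
  have h8 : (m : ℤ) ≡ (a ⟨θ, hθ⟩ : ℤ) * (b ⟨θ, hθ⟩ : ℤ) [ZMOD p] := by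
    rw [h2]; exact h3.trans h5
  have h9 : (p : ℤ) ∣ (a ⟨θ, hθ⟩ : ℤ) * (b ⟨θ, hθ⟩ : ℤ) := by
    rw [← Int.modEq_zero_iff_dvd]
    exact h8.symm.trans (Int.modEq_zero_iff_dvd.mpr (by exact_mod_cast hdvd))
  have h10 : p ∣ a ⟨θ, hθ⟩ * b ⟨θ, hθ⟩ := by exact_mod_cast h9
  rcases (Nat.Prime.dvd_mul hp).mp h10 with h11 | h11
  · refine amb_mult_not_dvd hNG hNn hp hpG hχ hθ (ha ⟨θ, hθ⟩) ?_ h11
    intro h0
    apply hconst
    have := ha ⟨θ, hθ⟩
    rw [h0] at this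
    simpa using this
  · obtain ⟨m', hm1, hm2⟩ := hrel
    have := (hb ⟨θ, hθ⟩).symm.trans hm1
    have h12 : b ⟨θ, hθ⟩ = m' := by exact_mod_cast this
    exact hm2 (h12 ▸ h11)

theorem exists_inv_constituent {p : ℕ} (hp : p.Prime) {G N P : Subgroup Γ} [Fintype N]
    (hNG : N ≤ G) (hPp : IsPGroup p P) (hPG : P ≤ Subgroup.normalizer (G : Set Γ))
    (hPN : P ≤ Subgroup.normalizer (N : Set Γ)) (hpG : ¬ p ∣ Nat.card G)
    {χ : G → ℂ} (hχ : IsIrrCharacter G χ) (hχinv : ∀ s ∈ P, InvBy G χ s) :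
    ∃ θ : N → ℂ, IsIrrCharacter N θ ∧ (∀ s ∈ P, InvBy N θ s) ∧
      classInner (fun n : N => χ ⟨n, hNG n.2⟩) θ ≠ 0 := by
  classical
  haveI := Fintype.ofFinite (IrrCharacter N)
  have hχc := IsIrrCharacter.isCharacter hχ
  have ha0 : ∀ θ' : IrrCharacter N, ∃ n : ℕ,
      classInner (fun n : N => χ ⟨n, hNG n.2⟩) θ'.1 = n := fun θ' =>
    classInner_isCharacter_nat (isCharacter_comp (Subgroup.inclusion hNG) hχc)
      (IsIrrCharacter.isCharacter θ'.2)
  choose a ha using ha0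
  choose b hb using fun θ' : IrrCharacter N =>
    irr_one_eq_natCast (IsIrrCharacter.isCharacter θ'.2)
  obtain ⟨d, hd⟩ := irr_one_eq_natCast hχc
  have hφ : IsClassFunction N (fun b : N => χ ⟨b, hNG b.2⟩) :=
    IsCharacter.isClassFunction (isCharacter_comp (Subgroup.inclusion hNG) hχc)
  have h1 := congrFun (classFunction_eq_sum hφ) 1
  simp only [Finset.sum_apply, Pi.smul_apply, smul_eq_mul, ha, hb] at h1
  have h1' : χ ⟨((1 : N) : Γ), hNG (1 : N).2⟩ = d := by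
    rw [← hd]
    exact congrArg χ (Subtype.ext rfl)
  rw [h1'] at h1
  have h2 : (d : ℤ) = ∑ θ' : IrrCharacter N, (a θ' : ℤ) * (b θ' : ℤ) := by exact_mod_cast h1
  have h3 := key hp hNG hPp hPG hPN hχinv (fun θ' => (a θ' : ℤ)) (fun θ' => (b θ' : ℤ))
    (fun θ' => by rw [ha]; simp) (by
      intro x hx θ₁ θ₂ h12
      have h4 : ((b θ₂ : ℕ) : ℂ) = b θ₁ := by
        rw [← hb, ← hb, h12]
        refine congrArg θ₁.1 (Subtype.ext ?_)
        simp [conjEquiv]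
      exact_mod_cast h4)
  by_contra hcon
  push Not at hcon
  have h5 : ∑ θ' ∈ Finset.univ.filter (fun θ' : IrrCharacter N => ∀ s ∈ P, InvBy N θ'.1 s),
      (a θ' : ℤ) * (b θ' : ℤ) = 0 := by
    apply Finset.sum_eq_zero
    intro θ' hθ'
    have h6 := hcon θ'.1 θ'.2 (Finset.mem_filter.mp hθ').2
    rw [ha] at h6
    have : a θ' = 0 := by exact_mod_cast h6
    rw [this]; simp
  rw [h5, ← h2] at h3
  have h7 : p ∣ d := by exact_mod_cast Int.modEq_zero_iff_dvd.mp h3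
  exact hpG (h7.trans (irr_degree_dvd_card hχ hd))

theorem rel_ne_zero {p : ℕ} {H K : Subgroup Γ} [Fintype K] {hKH : K ≤ H} {χ : H → ℂ} {β : K → ℂ}
    (h : Glaub4.Rel p hKH χ β) : classInner (fun c : K => χ ⟨c, hKH c.2⟩) β ≠ 0 := by
  obtain ⟨m, hm, hm2⟩ := h
  rw [hm]
  intro h0
  have : m = 0 := by exact_mod_cast h0
  exact hm2 (this ▸ dvd_zero p)

theorem backward {p : ℕ} (hp : p.Prime) {G N C E P : Subgroup Γ} [Fintype N] [Fintype C]
    [Fintype E] (hNG : N ≤ G) (hCG : C ≤ G) (hEN : E ≤ N) (hEC : E ≤ C)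
    (hNn : ∀ g ∈ G, ∀ n ∈ N, g * n * g⁻¹ ∈ N) (hE : ∀ y, y ∈ E ↔ y ∈ C ∧ y ∈ N)
    (hPp : IsPGroup p P) (hPG : P ≤ Subgroup.normalizer (G : Set Γ))
    (hPN : P ≤ Subgroup.normalizer (N : Set Γ)) (hPC : ∀ c ∈ C, ∀ s ∈ P, c * s = s * c)
    (hpG : ¬ p ∣ Nat.card G) (PkG : Pack p G C hCG (P : Set Γ))
    (PkN : Pack p N E hEN (P : Set Γ))
    {χ : G → ℂ} (hχ : IsIrrCharacter G χ) (hχinv : ∀ s ∈ P, InvBy G χ s)
    {β : C → ℂ} (hβ : IsIrrCharacter C β) (hχβ : Glaub4.Rel p hCG χ β)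
    {θ : N → ℂ} (hθ : IsIrrCharacter N θ) (hθinv : ∀ s ∈ P, InvBy N θ s)
    {φ : E → ℂ} (hφ : IsIrrCharacter E φ) (hθφ : Glaub4.Rel p hEN θ φ)
    (h : classInner (fun e : E => β ⟨e, hEC e.2⟩) φ ≠ 0) :
    classInner (fun n : N => χ ⟨n, hNG n.2⟩) θ ≠ 0 := by
  obtain ⟨θ₀, hθ₀, hθ₀inv, hc₀⟩ := exists_inv_constituent hp hNG hPp hPG hPN hpG hχ hχinv
  obtain ⟨φ₀, hφ₀, ε₀, hε₀, hd₀⟩ := PkN.ex θ₀ hθ₀ hθ₀inv
  have hd₀' : Data p hEN θ₀ φ₀ ε₀ := hd₀
  have hrel₀ := Data.rel hp hε₀ hφ₀ hd₀'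
  have hPE : ∀ e ∈ E, ∀ s ∈ P, e * s = s * e := fun e he => hPC e (hEC he)
  have h1 := forward hp hNG hEN hNn hPp hPG hPN hPE hpG PkN hχ hχinv hθ₀ hθ₀inv hφ₀ hrel₀ hc₀
  obtain ⟨β₁, hβ₁, ε, hε, hd⟩ := PkG.ex χ hχ hχinv
  have hd' : Data p hCG χ β₁ ε := hd
  have hββ : β = β₁ := Data.eq_of_rel hβ hd' hχβ
  rw [← hββ] at hd'
  have h2 : Glaub4.Rel p hEC β φ₀ :=
    (rel_iff hCG hEC hp (IsIrrCharacter.isCharacter hχ) hβ hε hd' hφ₀).mp h1
  have h3 := rel_ne_zero h2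
  have hEn : ∀ c ∈ C, ∀ e ∈ E, c * e * c⁻¹ ∈ E := fun c hc e he =>
    (hE _).mpr ⟨C.mul_mem (C.mul_mem hc (hEC he)) (C.inv_mem hc), hNn c (hCG hc) e (hEN he)⟩
  obtain ⟨c, hc, hcφ⟩ := amb_clifford_conj hEC hEn hβ hφ hφ₀ h h3
  have hcN : c ∈ Subgroup.normalizer (N : Set Γ) := mem_normalizer_of_conj N c (hNn c (hCG hc))
  have hcE : c ∈ Subgroup.normalizer (E : Set Γ) := mem_normalizer_of_conj E c (hEn c hc)
  have hcG : c ∈ Subgroup.normalizer (G : Set Γ) := Subgroup.le_normalizer (hCG hc)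
  have hθc : IsIrrCharacter N (fun n => θ (conjEquiv N c hcN n)) := isIrrCharacter_comp_equiv _ hθ
  have hθcinv : ∀ s ∈ P, InvBy N (fun n => θ (conjEquiv N c hcN n)) s := by
    intro s hs g g' hgg
    apply hθinv s hs
    simp only [conjEquiv, MulEquiv.coe_mk, Equiv.coe_fn_mk]
    rw [hgg]
    have hcs := hPC c hc s hs
    have hcs' : c * s⁻¹ = s⁻¹ * c := by
      calc c * s⁻¹ = s⁻¹ * (s * c) * s⁻¹ := by group
        _ = s⁻¹ * c := by rw [← hcs]; group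
    calc c * (s * ↑g * s⁻¹) * c⁻¹ = (c * s) * g * (s⁻¹ * c⁻¹) := by group
      _ = s * (c * ↑g * c⁻¹) * s⁻¹ := by
        rw [hcs]
        have : s⁻¹ * c⁻¹ = c⁻¹ * s⁻¹ := by
          rw [← mul_inv_rev, ← mul_inv_rev, hcs]
        rw [this]; group
  have hφ₀eq : φ₀ = fun e => φ (conjEquiv E c hcE e) := funext fun e => hcφ e _ rfl
  have hrelc : Glaub4.Rel p hEN (fun n => θ (conjEquiv N c hcN n)) φ₀ := by
    obtain ⟨m, hm, hm2⟩ := hθφ
    refine ⟨m, ?_, hm2⟩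
    rw [← hm, hφ₀eq]
    exact inner_conj hEN c hcN hcE θ φ
  have heq := PkN.inj _ θ₀ hθc hθ₀ hθcinv hθ₀inv φ₀ hφ₀ hrelc hrel₀
  have h4 := inner_conj hNG c hcG hcN χ θ
  have h5 : (fun g => χ (conjEquiv G c hcG g)) = χ := by
    funext g
    exact IsIrrCharacter.isClassFunction hχ g ⟨c, hCG hc⟩
  rw [h5, heq] at h4
  rw [← h4]
  exact hc₀

theorem corr_inv_down {p : ℕ} (hp : p.Prime) {H D : Subgroup Γ} [Fintype D] {hDH : D ≤ H}
    {T S : Subgroup Γ} (Pk : Pack p H D hDH (T : Set Γ)) (hTS : T ≤ S)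
    (hH : S ≤ Subgroup.normalizer (H : Set Γ)) (hD : S ≤ Subgroup.normalizer (D : Set Γ))
    {χ : H → ℂ} (hχ : IsIrrCharacter H χ) (hinv : ∀ s ∈ S, InvBy H χ s)
    {β : D → ℂ} (hβ : IsIrrCharacter D β) (hrel : Glaub4.Rel p hDH χ β) :
    ∀ s ∈ S, InvBy D β s := by
  obtain ⟨β₁, hβ₁, ε, hε, hd⟩ := Pk.ex χ hχ (fun x hx => hinv x (hTS hx))
  have hd' : Data p hDH χ β₁ ε := hd
  have hββ : β = β₁ := Data.eq_of_rel hβ hd' hrel
  rw [← hββ] at hd'
  intro s hs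
  rw [invBy_iff D s (hD hs)]
  have hirr : IsIrrCharacter D (fun c => β (conjEquiv D s (hD hs) c)) :=
    isIrrCharacter_comp_equiv _ hβ
  have hrel' : Glaub4.Rel p hDH χ (fun c => β (conjEquiv D s (hD hs) c)) := by
    obtain ⟨m, hm, hm2⟩ := hrel
    refine ⟨m, ?_, hm2⟩
    rw [← hm, ← inner_conj hDH s (hH hs) (hD hs) χ β]
    congr 1
    funext c
    exact ((invBy_iff H s (hH hs) χ).mp (hinv s hs) _).symm
  have := Data.eq_of_rel hirr hd' hrel'
  intro b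
  exact congrFun this b

theorem corr_inv_up {p : ℕ} {H D : Subgroup Γ} [Fintype D] {hDH : D ≤ H}
    {T S : Subgroup Γ} (Pk : Pack p H D hDH (T : Set Γ))
    (hTn : ∀ s ∈ S, ∀ t ∈ T, s * t * s⁻¹ ∈ T)
    (hH : S ≤ Subgroup.normalizer (H : Set Γ)) (hD : S ≤ Subgroup.normalizer (D : Set Γ))
    {χ : H → ℂ} (hχ : IsIrrCharacter H χ) (hχT : ∀ x ∈ (T : Set Γ), InvBy H χ x)
    {β : D → ℂ} (hβ : IsIrrCharacter D β) (hinv : ∀ s ∈ S, InvBy D β s)
    (hrel : Glaub4.Rel p hDH χ β) : ∀ s ∈ S, InvBy H χ s := by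
  intro s hs
  rw [invBy_iff H s (hH hs)]
  have hirr : IsIrrCharacter H (fun c => χ (conjEquiv H s (hH hs) c)) :=
    isIrrCharacter_comp_equiv _ hχ
  have hT' : ∀ x ∈ (T : Set Γ), InvBy H (fun c => χ (conjEquiv H s (hH hs) c)) x := by
    intro t ht g g' hgg
    apply hχT (s * t * s⁻¹) (hTn s hs t ht)
    simp only [conjEquiv, MulEquiv.coe_mk, Equiv.coe_fn_mk]
    rw [hgg]
    group
  have hrel' : Glaub4.Rel p hDH (fun c => χ (conjEquiv H s (hH hs) c)) β := by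
    obtain ⟨m, hm, hm2⟩ := hrel
    refine ⟨m, ?_, hm2⟩
    rw [← hm, ← inner_conj hDH s (hH hs) (hD hs) χ β]
    congr 1
    funext c
    exact ((invBy_iff D s (hD hs) β).mp (hinv s hs) _).symm
  have := Pk.inj _ _ hirr hχ hT' hχT β hβ hrel' hrel
  intro b
  exact congrFun this b

end Step

end Cfsg.Agent.Lib.Helper7.Glaub11
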