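import Mathlib
import Cfsg.Prelude.Def_Characters
import Cfsg.Agent.Lib.Helper7.All1
import Cfsg.Agent.Lib.Helper7.CharKer
import Cfsg.Agent.Lib.Helper7.CharRes
import Cfsg.Agent.Lib.Helper7.CharZ
import Cfsg.Agent.Lib.Helper7.CharCenter
import Cfsg.Agent.Lib.Helper7.ProjExt4
import Cfsg.Agent.Lib.Helper7.Glaub0
import Cfsg.Agent.Lib.Helper7.Glaub3
import Cfsg.Agent.Lib.Helper7.Glaub4
import Cfsg.Agent.Lib.Helper7.Glaub6
import Cfsg.Agent.Lib.Helper7.Glaub7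
import Cfsg.Agent.Lib.Helper7.Glaub8
import Cfsg.Agent.Lib.Helper7.Glaub9
import Cfsg.Agent.Lib.Helper7.Glaub10
import Cfsg.Agent.Lib.Helper7.Glaub11

set_option autoImplicit false
set_option linter.style.haveILetI false
set_option linter.unusedSectionVars false
set_option linter.unusedVariables false
set_option linter.unusedSimpArgs false

namespace Cfsg.Agent.Lib.Helper7.Glaub12

open Module Representation Cfsg
open Cfsg.Agent.Lib.Helper7.CharBasic Cfsg.Agent.Lib.Helper7.CharIrr Cfsg.Agent.Lib.Helper7.CharDecomp Cfsg.Agent.Lib.Helper7.CharComplete Cfsg.Agent.Lib.Helper7.CharOrth Cfsg.Agent.Lib.Helper7.CharInd Cfsg.Agent.Lib.Helper7.CharIntegral Cfsg.Agent.Lib.Helper7.CharBurnside Cfsg.Agent.Lib.Helper7.CharLinear Cfsg.Agent.Lib.Helper7.CharEquiv Cfsg.Agent.Lib.Helper7.CharMore Cfsg.Agent.Lib.Helper7.CharCount Cfsg.Agent.Lib.Helper7.CharMisc Cfsg.Agent.Lib.Helper7.CharMisc2 Cfsg.Agent.Lib.Helper7.CharNormal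 Cfsg.Agent.Lib.Helper7.CharOdd Cfsg.Agent.Lib.Helper7.CharClifford Cfsg.Agent.Lib.Helper7.CharProd Cfsg.Agent.Lib.Helper7.CharPerm Cfsg.Agent.Lib.Helper7.CharClassAlg Cfsg.Agent.Lib.Helper7.CharClassAlg2 Cfsg.Agent.Lib.Helper7.CharCentral Cfsg.Agent.Lib.Helper7.CharNormal2 Cfsg.Agent.Lib.Helper7.CharCliffordCorr Cfsg.Agent.Lib.Helper7.CharKer Cfsg.Agent.Lib.Helper7.CharRes Cfsg.Agent.Lib.Helper7.CharZ Cfsg.Agent.Lib.Helper7.CharCenter Cfsg.Agent.Lib.Helper7.ProjExt4 Cfsg.Agent.Lib.Helper7.Glaub0 Cfsg.Agent.Lib.Helper7.Glaub3 Cfsg.Agent.Lib.Helper7.Glaub4 Cfsg.Agent.Lib.Helper7.Glaub6 Cfsg.Agent.Lib.Helper7.Glaub7 Cfsg.Agent.Lib.Helper7.Glaub8 Cfsg.Agent.Lib.Helper7.Glaub9 Cfsg.Agent.Lib.Helper7.Glaub10 Cfsg.Agent.Lib.Helper7.Glaub11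
open scoped ComplexConjugate

variable {Γ : Type*} [Group Γ]

theorem chain_pack_aux [Fintype Γ] {p m : ℕ} (hp : p.Prime) (G S T T₁ P : Subgroup Γ)
    (hnorm : ∀ s ∈ S, ∀ g ∈ G, s * g * s⁻¹ ∈ G) (hcop : (Nat.card G).Coprime (Nat.card S))
    (hTS : T ≤ S) (hT₁ : T₁ ≤ T) (hP : P ≤ T) (hT₁n : ∀ s ∈ S, ∀ t ∈ T₁, s * t * s⁻¹ ∈ T₁)
    (hPc : Nat.card P = p ^ m) (hsup : T₁ ⊔ P = T) (B D : Subgroup Γ)
    [Fintype D] (hBdef : B = G ⊓ Subgroup.centralizer (T₁ : Set Γ))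
    (hDdef : D = G ⊓ Subgroup.centralizer (T : Set Γ)) (hDB : D ≤ B) :
    Pack p B D hDB (P : Set Γ) ∧
    ∀ χ : B → ℂ,
      (∀ x ∈ (P : Set Γ), InvBy _ χ x) ↔ (∀ x ∈ (T : Set Γ), InvBy _ χ x) := by
  have hmB : ∀ y, y ∈ B ↔ y ∈ G ∧ y ∈ Subgroup.centralizer (T₁ : Set Γ) := by
    intro y; rw [hBdef, Subgroup.mem_inf]
  have hmD : ∀ y, y ∈ D ↔ y ∈ G ∧ y ∈ Subgroup.centralizer (T : Set Γ) := by
    intro y; rw [hDdef, Subgroup.mem_inf]
  have hBn : ∀ s ∈ S, ∀ b ∈ B, s * b * s⁻¹ ∈ B := by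
    intro s hs
    rw [hBdef]
    apply conj_mem_inf_centralizer (hnorm s hs)
    intro t ht
    have := hT₁n s⁻¹ (S.inv_mem hs) t ht
    simpa using this
  have hPS : P ≤ S := hP.trans hTS
  have hcB : (Nat.card B).Coprime (Nat.card P) :=
    Nat.Coprime.coprime_dvd_left (Subgroup.card_dvd_of_le (hBdef ▸ inf_le_left))
      (Nat.Coprime.coprime_dvd_right (Subgroup.card_dvd_of_le hPS) hcop)
  have hDchar : ∀ y, y ∈ D ↔ y ∈ B ∧ ∀ s ∈ P, y * s = s * y := by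
    intro y
    constructor
    · intro hy
      refine ⟨hDB hy, fun s hs => ?_⟩
      have := (Subgroup.mem_centralizer_iff.mp ((hmD y).mp hy).2) s (hP hs)
      exact this.symm
    · rintro ⟨hy, hy2⟩
      refine (hmD y).mpr ⟨((hmB y).mp hy).1, ?_⟩
      rw [Subgroup.mem_centralizer_iff]
      have h3 := (comm_sup_iff T₁ P y).mpr ⟨fun s hs =>
        ((Subgroup.mem_centralizer_iff.mp ((hmB y).mp hy).2) s hs).symm, hy2⟩
      rw [hsup] at h3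
      intro t ht
      exact (h3 t ht).symm
  have Pk := pack_pgroup hp m B P D hDB hPc (fun s hs => hBn s (hPS hs)) hcB hDchar
  have hBN : S ≤ Subgroup.normalizer (B : Set Γ) := fun s hs =>
    mem_normalizer_of_conj B s (hBn s hs)
  refine ⟨Pk, ?_⟩
  intro χ
  constructor
  · intro h
    have hle : T₁ ⊔ P ≤ invSub B χ := by
      apply sup_le
      · intro t ht
        rw [mem_invSub_iff B χ (hBN (hTS (hT₁ ht)))]
        intro g g' hgg
        have h4 := (Subgroup.mem_centralizer_iff.mp ((hmB g).mp g.2).2) t ht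
        have : g' = g := by
          apply Subtype.ext
          rw [hgg, h4]
          group
        rw [this]
      · intro t ht
        rw [mem_invSub_iff B χ (hBN (hPS ht))]
        exact h t ht
    rw [hsup] at hle
    intro x hx
    exact (mem_invSub_iff B χ (hBN (hTS hx))).mp (hle hx)
  · intro h x hx
    exact h x (hP hx)

theorem chain_pack [Fintype Γ] {p m : ℕ} (hp : p.Prime) (G S T T₁ P : Subgroup Γ)
    (hnorm : ∀ s ∈ S, ∀ g ∈ G, s * g * s⁻¹ ∈ G) (hcop : (Nat.card G).Coprime (Nat.card S))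
    (hTS : T ≤ S) (hT₁ : T₁ ≤ T) (hP : P ≤ T) (hT₁n : ∀ s ∈ S, ∀ t ∈ T₁, s * t * s⁻¹ ∈ T₁)
    (hPc : Nat.card P = p ^ m) (hsup : T₁ ⊔ P = T)
    [Fintype ↥(G ⊓ Subgroup.centralizer (T : Set Γ))] :
    Pack p (G ⊓ Subgroup.centralizer (T₁ : Set Γ)) (G ⊓ Subgroup.centralizer (T : Set Γ))
      (inf_le_inf_left G (Subgroup.centralizer_le hT₁)) (P : Set Γ) ∧
    ∀ χ : ↥(G ⊓ Subgroup.centralizer (T₁ : Set Γ)) → ℂ,
      (∀ x ∈ (P : Set Γ), InvBy _ χ x) ↔ (∀ x ∈ (T : Set Γ), InvBy _ χ x) :=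
  chain_pack_aux hp G S T T₁ P hnorm hcop hTS hT₁ hP hT₁n hPc hsup _ _ rfl rfl _

/-- the inductive statement. -/
def Q (G S N : Subgroup Γ) (hNG : N ≤ G) (θ : N → ℂ) (D E : Subgroup Γ) : Prop :=
  ∃ hED : E ≤ D, ∃ φ : E → ℂ, IsIrrCharacter E φ ∧ (∀ s ∈ S, InvBy E φ s) ∧
    ∀ β : D → ℂ, IsIrrCharacter D β → (∀ s ∈ S, InvBy D β s) →
      (∀ [Fintype E], classInner (fun e : E => β ⟨e, hED e.2⟩) φ ≠ 0) →
      ∃ χ : G → ℂ, IsIrrCharacter G χ ∧ (∀ s ∈ S, InvBy G χ s) ∧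
        (∀ [Fintype N], classInner (fun n : N => χ ⟨n, hNG n.2⟩) θ ≠ 0)

theorem inf_centralizer_bot (G : Subgroup Γ) :
    G ⊓ Subgroup.centralizer ((⊥ : Subgroup Γ) : Set Γ) = G := by
  apply inf_eq_left.mpr
  intro g _
  rw [Subgroup.mem_centralizer_iff]
  intro t ht
  have : t = 1 := ht
  rw [this]; simp

theorem Q_chain [Fintype Γ] (G S N : Subgroup Γ) (hnorm : ∀ s ∈ S, ∀ g ∈ G, s * g * s⁻¹ ∈ G)
    (hNG : N ≤ G) (hNn : ∀ g ∈ G, ∀ n ∈ N, g * n * g⁻¹ ∈ N)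
    (hNS : ∀ s ∈ S, ∀ n ∈ N, s * n * s⁻¹ ∈ N)
    (hcop : (Nat.card G).Coprime (Nat.card S)) (θ : N → ℂ) (hθ : IsIrrCharacter N θ)
    (hθinv : ∀ s ∈ S, InvBy N θ s) : ∀ (n : ℕ) (T : Subgroup Γ), Nat.card T = n →
    T ≤ S → (∀ s ∈ S, ∀ t ∈ T, s * t * s⁻¹ ∈ T) → Group.IsSolvable T →
    Q G S N hNG θ (G ⊓ Subgroup.centralizer (T : Set Γ)) (N ⊓ Subgroup.centralizer (T : Set Γ)) := by
  classical
  intro n
  induction n using Nat.strong_induction_on with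
  | _ n ih =>
    intro T hT hTS hTn hsolv
    by_cases hbot : T = ⊥
    · rw [hbot, inf_centralizer_bot, inf_centralizer_bot]
      exact ⟨hNG, θ, hθ, hθinv, fun β hβ hβinv hc => ⟨β, hβ, hβinv, hc⟩⟩
    · obtain ⟨p, T₁, P, m, hp, hT₁, hlt, hnT₁, hP, hPc, hsup⟩ := exists_chain_step T hbot
      have hSN : S ≤ Subgroup.normalizer (T : Set Γ) := fun s hs =>
        mem_normalizer_of_conj T s (hTn s hs)
      have hT₁n : ∀ s ∈ S, ∀ t ∈ T₁, s * t * s⁻¹ ∈ T₁ := fun s hs => hnT₁ s (hSN hs)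
      obtain ⟨hN₁B₁, θ₁, hθ₁, hθ₁inv, hQ⟩ := ih _ (hT ▸ hlt) T₁ rfl (hT₁.trans hTS) hT₁n
        (Group.isSolvable_of_isSolvable_injective (Subgroup.inclusion_injective hT₁))
      have hcopN : (Nat.card N).Coprime (Nat.card S) :=
        Nat.Coprime.coprime_dvd_left (Subgroup.card_dvd_of_le hNG) hcop
      obtain ⟨PkG, hiffG⟩ := chain_pack hp G S T T₁ P hnorm hcop hTS hT₁ hP hT₁n hPc hsup
      obtain ⟨PkN, hiffN⟩ := chain_pack hp N S T T₁ P hNS hcopN hTS hT₁ hP hT₁n hPc hsup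
      have PkG' := Pack.congr hiffG PkG
      have PkN' := Pack.congr hiffN PkN
      have hnormalizer : ∀ (K U : Subgroup Γ), (∀ s ∈ S, ∀ g ∈ K, s * g * s⁻¹ ∈ K) →
          (∀ s ∈ S, ∀ t ∈ U, s * t * s⁻¹ ∈ U) →
          S ≤ Subgroup.normalizer ((K ⊓ Subgroup.centralizer (U : Set Γ) : Subgroup Γ) : Set Γ) := by
        intro K U hK hU s hs
        apply mem_normalizer_of_conj
        apply conj_mem_inf_centralizer (hK s hs)
        intro t ht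
        have := hU s⁻¹ (S.inv_mem hs) t ht
        simpa using this
      have hB₁N := hnormalizer G T₁ hnorm hT₁n
      have hN₁N := hnormalizer N T₁ hNS hT₁n
      have hDN := hnormalizer G T hnorm hTn
      have hEN := hnormalizer N T hNS hTn
      have hPS : P ≤ S := hP.trans hTS
      obtain ⟨φ, hφ, ε, hε, hd⟩ := PkN.ex θ₁ hθ₁ (fun x hx => hθ₁inv x (hPS hx))
      have hd' : Data p (inf_le_inf_left N (Subgroup.centralizer_le hT₁)) θ₁ φ ε := hd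
      have hrelφ := Data.rel hp hε hφ hd'
      have hφinv := corr_inv_down hp PkN' hTS hN₁N hEN hθ₁ hθ₁inv hφ hrelφ
      refine ⟨inf_le_inf_right _ hNG, φ, hφ, hφinv, ?_⟩
      intro β hβ hβinv hc
      obtain ⟨χ₁, hχ₁, hχ₁P, hrelχ⟩ := PkG.surj β hβ
      have hχ₁inv := corr_inv_up PkG' hTn hB₁N hDN hχ₁ ((hiffG χ₁).mp hχ₁P) hβ hβinv hrelχ
      apply hQ χ₁ hχ₁ hχ₁inv
      intro inst
      have hpG : ¬ p ∣ Nat.card ↥(G ⊓ Subgroup.centralizer (T₁ : Set Γ)) := by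
        intro hdvd
        have h1 : p ∣ Nat.card G := hdvd.trans (Subgroup.card_dvd_of_le inf_le_left)
        have hm0 : m ≠ 0 := by
          rintro rfl
          rw [pow_zero, Subgroup.card_eq_one] at hPc
          rw [hPc, sup_bot_eq] at hsup
          rw [hsup] at hlt
          exact lt_irrefl _ hlt
        have h2 : p ∣ Nat.card S :=
          (hPc ▸ dvd_pow_self p hm0 : p ∣ Nat.card P).trans (Subgroup.card_dvd_of_le hPS)
        exact hp.one_lt.ne' (Nat.eq_one_of_dvd_coprimes hcop h1 h2)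
      refine backward hp hN₁B₁ (inf_le_inf_left G (Subgroup.centralizer_le hT₁))
        (inf_le_inf_left N (Subgroup.centralizer_le hT₁)) (inf_le_inf_right _ hNG) ?_ ?_
        (IsPGroup.of_card hPc) (hPS.trans hB₁N) (hPS.trans hN₁N) ?_ hpG PkG PkN hχ₁ hχ₁P hβ hrelχ hθ₁
        (fun x hx => hθ₁inv x (hPS hx)) hφ hrelφ hc
      · intro g hg n hn
        obtain ⟨hg1, hg2⟩ := Subgroup.mem_inf.mp hg
        obtain ⟨hn1, hn2⟩ := Subgroup.mem_inf.mp hn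
        exact Subgroup.mem_inf.mpr ⟨hNn g hg1 n hn1,
          Subgroup.mul_mem _ (Subgroup.mul_mem _ hg2 hn2) (Subgroup.inv_mem _ hg2)⟩
      · intro y
        simp only [Subgroup.mem_inf]
        constructor
        · rintro ⟨h1, h2⟩
          exact ⟨⟨hNG h1, h2⟩, h1, Subgroup.centralizer_le hT₁ h2⟩
        · rintro ⟨⟨h1, h2⟩, h3, h4⟩
          exact ⟨h3, h2⟩
      · intro c hc s hs
        exact ((Subgroup.mem_centralizer_iff.mp (Subgroup.mem_inf.mp hc).2) s (hP hs)).symm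

theorem main [Fintype Γ] (G S N : Subgroup Γ) [Fintype N]
    (hnorm : ∀ s ∈ S, ∀ g ∈ G, s * g * s⁻¹ ∈ G)
    (hNG : N ≤ G) (hNn : ∀ g ∈ G, ∀ n ∈ N, g * n * g⁻¹ ∈ N)
    (hNS : ∀ s ∈ S, ∀ n ∈ N, s * n * s⁻¹ ∈ N)
    (hcop : (Nat.card G).Coprime (Nat.card S)) (hsolv : Group.IsSolvable S)
    (θ : N → ℂ) (hθ : IsIrrCharacter N θ) (hθinv : ∀ s ∈ S, InvBy N θ s) :
    ∃ χ : G → ℂ, IsIrrCharacter G χ ∧ (∀ s ∈ S, InvBy G χ s) ∧
      classInner (fun n : N => χ ⟨n, hNG n.2⟩) θ ≠ 0 := by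
  classical
  obtain ⟨hED, φ, hφ, hφinv, hQ⟩ := Q_chain G S N hnorm hNG hNn hNS hcop θ hθ hθinv _ S rfl le_rfl
    (fun s hs t ht => S.mul_mem (S.mul_mem hs ht) (S.inv_mem hs)) hsolv
  obtain ⟨β, hβ, hc⟩ := exists_over
    ((N ⊓ Subgroup.centralizer (S : Set Γ)).subgroupOf (G ⊓ Subgroup.centralizer (S : Set Γ)))
    (isIrrCharacter_comp_equiv (Subgroup.subgroupOfEquivOfLe hED) hφ)
  rw [amb_inner hED] at hc
  have hβinv : ∀ s ∈ S, InvBy (G ⊓ Subgroup.centralizer (S : Set Γ)) β s := by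
    intro s hs g g' hgg
    have h4 := (Subgroup.mem_centralizer_iff.mp (Subgroup.mem_inf.mp g.2).2) s hs
    have : g' = g := by
      apply Subtype.ext
      rw [hgg, h4]
      group
    rw [this]
  obtain ⟨χ, hχ, hχinv, hc'⟩ := hQ β hβ hβinv (fun {inst} => by convert hc)
  exact ⟨χ, hχ, hχinv, hc'⟩

end Cfsg.Agent.Lib.Helper7.Glaub12
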