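import Mathlib
import Cfsg.Prelude.Def_Characters
import Cfsg.Prelude.Def_Local
import Cfsg.Agent.S0887
import Cfsg.Agent.Lib.Helper7.All1
import Cfsg.Agent.Lib.Helper7.ProjExt4
import Cfsg.Agent.Lib.Helper7.CharDeg
import Cfsg.Agent.Lib.Helper7.OpRes1
import Cfsg.Agent.Lib.Helper7.CharKer
import Cfsg.Agent.Lib.Helper7.CharCenter

set_option autoImplicit false
set_option linter.style.haveILetI false
set_option linter.unusedSectionVars false
set_option linter.unusedVariables false
set_option linter.unusedSimpArgs false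

namespace Cfsg.Agent.Lib.Helper7.Ito1

open Module Representation Cfsg
open Cfsg.Agent.Lib.Helper7.CharBasic Cfsg.Agent.Lib.Helper7.CharIrr Cfsg.Agent.Lib.Helper7.CharDecomp Cfsg.Agent.Lib.Helper7.CharComplete Cfsg.Agent.Lib.Helper7.CharOrth Cfsg.Agent.Lib.Helper7.CharInd Cfsg.Agent.Lib.Helper7.CharIntegral Cfsg.Agent.Lib.Helper7.CharBurnside Cfsg.Agent.Lib.Helper7.CharLinear Cfsg.Agent.Lib.Helper7.CharEquiv Cfsg.Agent.Lib.Helper7.CharMore Cfsg.Agent.Lib.Helper7.CharCount Cfsg.Agent.Lib.Helper7.CharMisc Cfsg.Agent.Lib.Helper7.CharMisc2 Cfsg.Agent.Lib.Helper7.CharNormal Cfsg.Agent.Lib.Helper7.CharOdd Cfsg.Agent.Lib.Helper7.CharClifford Cfsg.Agent.Lib.Helper7.CharProd Cfsg.Agent.Lib.Helper7.CharPerm Cfsg.Agent.Lib.Helper7.CharClassAlg Cfsg.Agent.Lib.Helper7.CharClassAlg2 Cfsg.Agent.Lib.Helper7.CharCentral Cfsg.Agent.Lib.Helper7.CharNormal2 Cfsg.Agent.Lib.Helper7.CharCliffordCorr Cfsg.Agent.Lib.Helper7.ProjExt4 Cfsg.Agent.Lib.Helper7.CharDeg Cfsg.Agent.Lib.Helper7.OpRes1 Cfsg.Agent.Lib.Helper7.CharKer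 Cfsg.Agent.Lib.Helper7.CharCenter
open scoped ComplexConjugate

section Jordan

/-- Jordan: a finite transitive group on more than one point has a fixed-point-free element.
(after helper2) -/
theorem exists_fixedPointFree {G X : Type*} [Group G] [Finite G] [MulAction G X] [Finite X]
    [MulAction.IsPretransitive G X] (hX : 1 < Nat.card X) : ∃ g : G, ∀ x : X, g • x ≠ x := by
  classical
  by_contra hcon
  push Not at hcon
  haveI := Fintype.ofFinite G
  haveI := Fintype.ofFinite X
  haveI : Nonempty X := by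
    rw [← Finite.card_pos_iff]; omega
  have hB := MulAction.sum_card_fixedBy_eq_card_orbits_mul_card_group G X
  have hU : Nonempty (Unique (MulAction.orbitRel.Quotient G X)) :=
    (MulAction.pretransitive_iff_unique_quotient_of_nonempty G X).mp inferInstance
  obtain ⟨hU⟩ := hU
  have h1 : Fintype.card (MulAction.orbitRel.Quotient G X) = 1 := Fintype.card_eq_one_iff.mpr
    ⟨default, fun y => Subsingleton.elim _ _⟩
  rw [h1, one_mul] at hB
  have h2 : ∀ g : G, 1 ≤ Fintype.card (MulAction.fixedBy X g) := by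
    intro g
    obtain ⟨x, hx⟩ := hcon g
    exact Fintype.card_pos_iff.mpr ⟨⟨x, hx⟩⟩
  have h3 : 1 < Fintype.card (MulAction.fixedBy X (1 : G)) := by
    have : Fintype.card (MulAction.fixedBy X (1 : G)) = Fintype.card X := by
      apply Fintype.card_of_subtype
      intro x
      simp
    rw [this, ← Nat.card_eq_fintype_card]; exact hX
  have h4 : ∑ g : G, 1 < ∑ g : G, Fintype.card (MulAction.fixedBy X g) :=
    Finset.sum_lt_sum (fun g _ => h2 g) ⟨1, Finset.mem_univ _, h3⟩
  rw [hB] at h4
  simp at h4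

/-- A finite group is not the union of the conjugates of a proper subgroup. -/
theorem exists_not_conj_mem {G : Type*} [Group G] [Finite G] (H : Subgroup G) (hH : H ≠ ⊤) :
    ∃ x : G, ∀ g : G, g⁻¹ * x * g ∉ H := by
  have hX : 1 < Nat.card (G ⧸ H) := by
    rw [← Subgroup.index_eq_card]
    have h0 : H.index ≠ 0 := Subgroup.index_ne_zero_of_finite
    have h1 : H.index ≠ 1 := fun h => hH (Subgroup.index_eq_one.mp h)
    omega
  obtain ⟨x, hx⟩ := exists_fixedPointFree (G := G) (X := G ⧸ H) hX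
  refine ⟨x, fun g hg => hx (g : G ⧸ H) ?_⟩
  rw [MulAction.Quotient.smul_coe, smul_eq_mul, eq_comm, QuotientGroup.eq]
  rwa [← mul_assoc]

end Jordan

section KL

variable {R : Type*} [Group R] [Finite R] {p : ℕ} [hp : Fact p.Prime]

theorem inv_of_degrees (N : Subgroup R) [hN : N.Normal] {a : ℕ} (hidx : N.index = p ^ a)
    (hdeg : ∀ ψ : IrrCharacter R, ¬ p ∣ charDegree ψ.1) (θ : IrrCharacter N) : Inv N θ.1 := by
  classical
  haveI := Fintype.ofFinite R
  haveI := Fintype.ofFinite N
  obtain ⟨ψ, hψ, hcon⟩ := exists_over N θ.2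
  have h1 := restrict_irr_of_not_dvd N hidx hψ (hdeg ⟨ψ, hψ⟩)
  have h2 := classInner_irr h1 θ.2
  have h3 : (fun n : N => ψ n) = θ.1 := by
    by_contra hne
    rw [if_neg hne] at h2
    exact hcon h2
  rw [← h3]
  exact inv_restrict N (IsIrrCharacter.isClassFunction hψ)

theorem centralizes_of_degrees (N : Subgroup R) [hN : N.Normal] (hcop : (Nat.card N).Coprime p)
    {a : ℕ} (hidx : N.index = p ^ a) (hdeg : ∀ ψ : IrrCharacter R, ¬ p ∣ charDegree ψ.1)
    (P : Sylow p R) : ∀ n ∈ N, ∀ g ∈ (P : Subgroup R), g * n = n * g := by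
  classical
  haveI := Fintype.ofFinite N
  have hconj : ∀ (g : R) (n : N), IsConj (⟨g * n * g⁻¹, hN.conj_mem n n.2 g⟩ : N) n :=
    fun g n => (isConj_iff_irr _ _).mpr (fun θ => inv_of_degrees N hidx hdeg θ g n)
  letI : MulAction (P : Subgroup R) N :=
    MulAction.compHom N ((MulAut.conjNormal : R →* MulAut N).comp (P : Subgroup R).subtype)
  have hsmul : ∀ (g : (P : Subgroup R)) (n : N),
      g • n = ⟨(g : R) * n * (g : R)⁻¹, hN.conj_mem n n.2 g⟩ := fun g n => rfl
  have hfix : ∀ n₀ : N, ∃ m : N, IsConj n₀ m ∧ ∀ g : (P : Subgroup R), g • m = m := by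
    intro n₀
    have h1 := sum_modEq_fixed (P := (P : Subgroup R)) (X := N) P.isPGroup'
      (fun m => if IsConj n₀ m then 1 else 0) (by
        intro g m
        have h2 : IsConj n₀ (g • m) ↔ IsConj n₀ m := by
          rw [hsmul]
          exact ⟨fun h => h.trans (hconj g m), fun h => h.trans (hconj g m).symm⟩
        simp only [h2])
    by_contra hcon
    push Not at hcon
    have h2 : ∑ m : N with (∀ g : (P : Subgroup R), g • m = m),
        (if IsConj n₀ m then 1 else 0) = 0 := by
      apply Finset.sum_eq_zero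
      intro m hm
      rw [Finset.mem_filter] at hm
      rw [if_neg]
      intro hc
      obtain ⟨g, hg⟩ := hcon m hc
      exact hg (hm.2 g)
    rw [h2] at h1
    have h3 : ∑ m : N, (if IsConj n₀ m then 1 else 0) = (Subgroup.centralizer {n₀}).index := by
      rw [index_centralizer_eq_ncard, Set.ncard_eq_toFinset_card', ← Finset.sum_filter,
        ← Finset.card_eq_sum_ones]
      congr 1
      ext m
      simp
    rw [h3] at h1
    have h4 : p ∣ (Subgroup.centralizer {n₀}).index := (Nat.modEq_zero_iff_dvd).mp h1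
    have h5 := h4.trans (Subgroup.index_dvd_card _)
    exact (Nat.Prime.coprime_iff_not_dvd hp.out).mp hcop.symm h5
  have htop : (Subgroup.centralizer ((P : Subgroup R) : Set R)).subgroupOf N = ⊤ := by
    by_contra hne
    obtain ⟨x, hx⟩ := exists_not_conj_mem _ hne
    obtain ⟨m, hm, hmfix⟩ := hfix x
    obtain ⟨c, hc⟩ := isConj_iff.mp hm
    apply hx c⁻¹
    rw [inv_inv, hc, Subgroup.mem_subgroupOf, Subgroup.mem_centralizer_iff]
    intro g hg
    have h1 := hmfix ⟨g, hg⟩
    rw [hsmul] at h1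
    have h2 : g * (m : R) * g⁻¹ = m := congrArg Subtype.val h1
    calc g * (m : R) = g * m * g⁻¹ * g := by group
      _ = m * g := by rw [h2]
  intro n hn g hg
  have h1 : (⟨n, hn⟩ : N) ∈ (Subgroup.centralizer ((P : Subgroup R) : Set R)).subgroupOf N := by
    rw [htop]; trivial
  rw [Subgroup.mem_subgroupOf, Subgroup.mem_centralizer_iff] at h1
  exact h1 g hg

theorem sylow_normal_of_degrees (N : Subgroup R) [hN : N.Normal] (hcop : (Nat.card N).Coprime p)
    {a : ℕ} (hidx : N.index = p ^ a) (hdeg : ∀ ψ : IrrCharacter R, ¬ p ∣ charDegree ψ.1)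
    (P : Sylow p R) : (P : Subgroup R).Normal := by
  have hc := centralizes_of_degrees N hcop hidx hdeg P
  rw [← Subgroup.normalizer_eq_top_iff, ← Subgroup.index_eq_one]
  have h1 : N ≤ Subgroup.normalizer ((P : Subgroup R) : Set R) := by
    intro n hn
    rw [Subgroup.mem_normalizer_iff]
    intro g
    constructor
    · intro hg
      have : n * g * n⁻¹ = g := by rw [← hc n hn g hg]; group
      rw [this]; exact hg
    · intro hg
      have h2 := hc n hn _ hg
      have : g = n * g * n⁻¹ := by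
        have h3 : n * g = n * (n * g * n⁻¹) := by
          rw [← h2]; group
        exact mul_left_cancel h3
      rw [this]; exact hg
  have h2 := Subgroup.index_dvd_of_le h1
  have h3 := Subgroup.index_dvd_of_le (Subgroup.le_normalizer (H := (P : Subgroup R)))
  rw [hidx] at h2
  exact Nat.eq_one_of_dvd_coprimes
    (Nat.Coprime.pow_right a ((Nat.Prime.coprime_iff_not_dvd hp.out).mpr P.not_dvd_index).symm)
    h3 h2

end KL

section Main

universe u

theorem degrees_normal {G : Type*} [Group G] [Finite G] (R : Subgroup G) [R.Normal] {p : ℕ}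
    (hdeg : ∀ χ : IrrCharacter G, ¬ p ∣ charDegree χ.1) (θ : IrrCharacter R) :
    ¬ p ∣ charDegree θ.1 := by
  classical
  haveI := Fintype.ofFinite G
  haveI := Fintype.ofFinite R
  obtain ⟨χ, hχ, hcon⟩ := exists_over R θ.2
  obtain ⟨h1, _⟩ := Cfsg.Agent.S0887.result R χ hχ θ.1 θ.2 hcon (charDegree χ) (charDegree θ.1)
    (charDegree_cast (IsIrrCharacter.isCharacter hχ)).symm
    (charDegree_cast (IsIrrCharacter.isCharacter θ.2)).symm
  exact fun h => hdeg ⟨χ, hχ⟩ (h.trans h1)

theorem degrees_quot {G : Type*} [Group G] [Finite G] (N : Subgroup G) [N.Normal] {p : ℕ}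
    (hdeg : ∀ χ : IrrCharacter G, ¬ p ∣ charDegree χ.1) (φ : IrrCharacter (G ⧸ N)) :
    ¬ p ∣ charDegree φ.1 :=
  hdeg ⟨_, isIrrCharacter_comp_mk N φ.2⟩

theorem exists_normal_sylow {p : ℕ} [hp : Fact p.Prime] (Pr : ∀ (G : Type u) [Group G], Prop)
    (hquot : ∀ (G : Type u) [Group G] (N : Subgroup G) [N.Normal], Pr G → Pr (G ⧸ N))
    (hex : ∀ (G : Type u) [Group G] [Finite G] [Nontrivial G], Pr G →
      ∃ N : Subgroup G, N.Normal ∧ N ≠ ⊥ ∧
        ((∃ m : ℕ, Nat.card N = p ^ m) ∨ (Nat.card N).Coprime p)) :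
    ∀ (n : ℕ) (G : Type u) [Group G] [Finite G], Nat.card G = n → Pr G →
      (∀ χ : IrrCharacter G, ¬ p ∣ charDegree χ.1) →
      ∃ Q : Subgroup G, Q.Normal ∧ IsPGroup p Q ∧ ¬ p ∣ Q.index := by
  intro n
  induction n using Nat.strong_induction_on with
  | _ n ih =>
    intro G _ _ hn hPr hdeg
    by_cases htriv : Subsingleton G
    · refine ⟨⊥, inferInstance, IsPGroup.of_bot, ?_⟩
      rw [Subgroup.index_bot, Nat.card_of_subsingleton (1 : G)]
      exact hp.out.one_lt.ne' ∘ Nat.dvd_one.mp
    · haveI : Nontrivial G := not_subsingleton_iff_nontrivial.mp htriv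
      obtain ⟨N, hN, hN1, hfac⟩ := hex G hPr
      haveI := hN
      have hlt : Nat.card (G ⧸ N) < n := by
        have h1 := Subgroup.card_mul_index N
        rw [Subgroup.index_eq_card, hn] at h1
        haveI : Nontrivial N := (Subgroup.nontrivial_iff_ne_bot _).mpr hN1
        have h2 := Finite.one_lt_card (α := N)
        have h3 : 0 < Nat.card (G ⧸ N) := Nat.card_pos
        nlinarith
      obtain ⟨Q, hQn, hQp, hQi⟩ := ih _ hlt (G ⧸ N) rfl (hquot G N hPr) (degrees_quot N hdeg)
      obtain ⟨R, hR⟩ : ∃ R, R = Q.comap (QuotientGroup.mk' N) := ⟨_, rfl⟩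
      haveI : R.Normal := by rw [hR]; exact hQn.comap _
      have hRi : R.index = Q.index := by
        rw [hR]; exact Subgroup.index_comap_of_surjective _ (QuotientGroup.mk'_surjective N)
      rcases hfac with ⟨m, hm⟩ | hcop
      · refine ⟨R, inferInstance, ?_, by rw [hRi]; exact hQi⟩
        rw [hR]
        apply hQp.comap_of_ker_isPGroup
        rw [QuotientGroup.ker_mk']
        exact IsPGroup.of_card hm
      · have hNR : N ≤ R := by
          intro x hx
          rw [hR, Subgroup.mem_comap]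
          have : QuotientGroup.mk' N x = 1 := (QuotientGroup.eq_one_iff x).mpr hx
          rw [this]; exact Q.one_mem
        obtain ⟨a, ha⟩ := IsPGroup.iff_card.mp hQp
        have hidx : (N.subgroupOf R).index = p ^ a := by
          have h1 : N = (⊥ : Subgroup (G ⧸ N)).comap (QuotientGroup.mk' N) := by
            rw [MonoidHom.comap_bot, QuotientGroup.ker_mk']
          change N.relIndex R = p ^ a
          rw [h1, Subgroup.relIndex_comap, Subgroup.relIndex_bot_left, hR,
            Subgroup.map_comap_eq_self_of_surjective (QuotientGroup.mk'_surjective N), ha]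
        have hcard : Nat.card (N.subgroupOf R) = Nat.card N :=
          Nat.card_congr (Subgroup.subgroupOfEquivOfLe hNR).toEquiv
        obtain ⟨P⟩ : Nonempty (Sylow p R) := inferInstance
        have hPn : (P : Subgroup R).Normal :=
          sylow_normal_of_degrees (N.subgroupOf R) (by rw [hcard]; exact hcop) hidx
            (degrees_normal R hdeg) P
        haveI := P.characteristic_of_normal hPn
        refine ⟨(P : Subgroup R).map R.subtype, inferInstance, P.isPGroup'.map _, ?_⟩
        rw [Subgroup.index_map_subtype, hRi]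
        intro h
        rcases (Nat.Prime.dvd_mul hp.out).mp h with h | h
        · exact P.not_dvd_index h
        · exact hQi h

/-- consequence: the Sylow subgroup is normal and abelian. -/
theorem sylow_normal_comm {G : Type*} [Group G] [Finite G] {p : ℕ} [hp : Fact p.Prime]
    (hdeg : ∀ χ : IrrCharacter G, ¬ p ∣ charDegree χ.1) (Q : Subgroup G) (hQn : Q.Normal)
    (hQp : IsPGroup p Q) : ∀ a ∈ Q, ∀ b ∈ Q, a * b = b * a := by
  haveI := hQn
  have hlin : ∀ θ : IrrCharacter Q, (θ : Q → ℂ) 1 = 1 := by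
    intro θ
    have h1 := degrees_normal Q hdeg θ
    have h2 : charDegree θ.1 ∣ Nat.card Q := charDegree_dvd_card θ.2
    obtain ⟨m, hm⟩ := IsPGroup.iff_card.mp hQp
    rw [hm] at h2
    obtain ⟨j, _, hj⟩ := (Nat.dvd_prime_pow hp.out).mp h2
    have hj0 : j = 0 := by
      by_contra hj0
      apply h1
      rw [hj]; exact dvd_pow_self p hj0
    rw [← charDegree_cast (IsIrrCharacter.isCharacter θ.2), hj, hj0, pow_zero, Nat.cast_one]
  have hc := (comm_iff_all_linear (G := Q)).mpr hlin
  intro a ha b hb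
  exact congrArg Subtype.val (hc ⟨a, ha⟩ ⟨b, hb⟩)

theorem not_dvd_of_normal_comm {G : Type*} [Group G] [Finite G] {p : ℕ}
    (Q : Subgroup G) (hQn : Q.Normal) (hc : ∀ a ∈ Q, ∀ b ∈ Q, a * b = b * a)
    (hQi : ¬ p ∣ Q.index) (χ : IrrCharacter G) : ¬ p ∣ charDegree χ.1 := by
  haveI := hQn
  have h1 := ito χ.2 (charDegree_cast (IsIrrCharacter.isCharacter χ.2)).symm Q hc
  exact fun h => hQi (h.trans h1)

end Main

section PS

open scoped commutatorElement

variable {G : Type*} [Group G]

/-- induction up a `p`-solvable chain (after helper9) -/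
theorem ascent {p : ℕ} (hG : Cfsg.IsPSolvable p G) (Pr : Subgroup G → Prop) (h0 : Pr ⊥)
    (step : ∀ N M : Subgroup G, N.Normal → M.Normal → N ≤ M →
      ((∃ m : ℕ, N.relIndex M = p ^ m) ∨ (N.relIndex M).Coprime p) → Pr N → Pr M) :
    Pr ⊤ := by
  obtain ⟨n, H, hH0, hHn, hmono, hnorm, hfac⟩ := hG
  have key : ∀ i : Fin (n + 1), Pr (H i) := by
    intro i
    induction i using Fin.induction with
    | zero => rw [hH0]; exact h0
    | succ i ih =>
      exact step _ _ (hnorm _) (hnorm _) (hmono (Fin.castSucc_le_succ i)) (hfac i) ih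
  rw [← hHn]
  exact key _

theorem relIndex_map_dvd {G' : Type*} [Group G'] (f : G →* G') (N M : Subgroup G) :
    (N.map f).relIndex (M.map f) ∣ N.relIndex M := by
  rw [← Subgroup.relIndex_comap]
  exact Subgroup.relIndex_dvd_of_le_left M (Subgroup.le_comap_map f N)

theorem psolv_of_surjective {p : ℕ} (hp : p.Prime) {G' : Type*} [Group G'] (f : G →* G')
    (hf : Function.Surjective f) (hG : Cfsg.IsPSolvable p G) : Cfsg.IsPSolvable p G' := by
  obtain ⟨n, H, hH0, hHn, hmono, hnorm, hfac⟩ := hG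
  refine ⟨n, fun i => (H i).map f, ?_, ?_, ?_, ?_, ?_⟩
  · simp [hH0]
  · simp only [hHn]
    exact Subgroup.map_top_of_surjective f hf
  · intro i j hij
    exact Subgroup.map_mono (hmono hij)
  · intro i
    exact (hnorm i).map f hf
  · intro i
    rcases hfac i with ⟨m, hm⟩ | h
    · left
      have := relIndex_map_dvd f (H i.castSucc) (H i.succ)
      rw [hm] at this
      obtain ⟨k, _, hk⟩ := (Nat.dvd_prime_pow hp).1 this
      exact ⟨k, hk⟩
    · right
      exact Nat.Coprime.coprime_dvd_left (relIndex_map_dvd f _ _) h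

theorem psolv_exists_normal {p : ℕ} [Nontrivial G] (hG : Cfsg.IsPSolvable p G) :
    ∃ N : Subgroup G, N.Normal ∧ N ≠ ⊥ ∧
      ((∃ m : ℕ, Nat.card N = p ^ m) ∨ (Nat.card N).Coprime p) := by
  have := ascent hG (fun M => M = ⊥ ∨ ∃ N : Subgroup G, N.Normal ∧ N ≠ ⊥ ∧
      ((∃ m : ℕ, Nat.card N = p ^ m) ∨ (Nat.card N).Coprime p))
    (Or.inl rfl) ?_
  · rcases this with h | h
    · exact absurd h top_ne_bot
    · exact h
  intro N M hN hM hNM hfac hPr
  rcases hPr with rfl | h
  · by_cases hMb : M = ⊥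
    · exact Or.inl hMb
    · rw [Subgroup.relIndex_bot_left] at hfac
      exact Or.inr ⟨M, hM, hMb, hfac⟩
  · exact Or.inr h

theorem solv_exists_normal [Finite G] {p : ℕ} [hp : Fact p.Prime] [Nontrivial G]
    (hG : Group.IsSolvable G) :
    ∃ N : Subgroup G, N.Normal ∧ N ≠ ⊥ ∧
      ((∃ m : ℕ, Nat.card N = p ^ m) ∨ (Nat.card N).Coprime p) := by
  classical
  have hex : ∃ n, derivedSeries G n = ⊥ := hG.solvable
  obtain ⟨n, hn⟩ : ∃ n, n = Nat.find hex := ⟨_, rfl⟩
  have hn1 := Nat.find_spec hex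
  rw [← hn] at hn1
  have hn0 : n ≠ 0 := by
    rintro rfl
    rw [derivedSeries_zero] at hn1
    exact top_ne_bot hn1
  obtain ⟨k, rfl⟩ := Nat.exists_eq_succ_of_ne_zero hn0
  have hk : derivedSeries G k ≠ ⊥ := by
    intro hh
    have := Nat.find_min' hex hh
    omega
  obtain ⟨A, hA⟩ : ∃ A, A = derivedSeries G k := ⟨_, rfl⟩
  haveI hAn : A.Normal := by rw [hA]; infer_instance
  have hAc : ∀ a ∈ A, ∀ b ∈ A, a * b = b * a := by
    intro a ha b hb
    have h1 : ⁅a, b⁆ ∈ ⁅A, A⁆ := Subgroup.commutator_mem_commutator ha hb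
    rw [hA, ← derivedSeries_succ, hn1, Subgroup.mem_bot, commutatorElement_eq_one_iff_mul_comm]
      at h1
    exact h1
  by_cases hcop : (Nat.card A).Coprime p
  · exact ⟨A, hAn, by rw [hA]; exact hk, Or.inr hcop⟩
  · obtain ⟨S⟩ : Nonempty (Sylow p A) := inferInstance
    have hSn : (S : Subgroup A).Normal := by
      constructor
      intro x hx g
      have : g * x * g⁻¹ = x := by
        apply Subtype.ext
        have := hAc g g.2 x x.2
        change (g : G) * x * (g : G)⁻¹ = x
        rw [this]; group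
      rw [this]; exact hx
    haveI := S.characteristic_of_normal hSn
    refine ⟨(S : Subgroup A).map A.subtype, inferInstance, ?_, Or.inl ?_⟩
    · intro hb
      rw [Subgroup.map_eq_bot_iff_of_injective _ (Subgroup.subtype_injective _)] at hb
      apply hcop
      have h1 := S.not_dvd_index
      rw [hb, Subgroup.index_bot] at h1
      exact ((Nat.Prime.coprime_iff_not_dvd hp.out).mpr h1).symm
    · obtain ⟨m, hm⟩ := IsPGroup.iff_card.mp S.isPGroup'
      exact ⟨m, by rw [Subgroup.card_map_of_injective (Subgroup.subtype_injective _), hm]⟩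

end PS

end Cfsg.Agent.Lib.Helper7.Ito1
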