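import Mathlib
import Cfsg.Prelude.Def_Characters
import Cfsg.Prelude.Def_CharExt
import Cfsg.Agent.Lib.Helper7.All1
import Cfsg.Agent.Lib.Helper7.CharKer
import Cfsg.Agent.Lib.Helper7.CharRes
import Cfsg.Agent.Lib.Helper7.CharZ
import Cfsg.Agent.Lib.Helper7.CharCenter
import Cfsg.Agent.Lib.Helper7.CharGen
import Cfsg.Agent.Lib.Helper7.GalC
import Cfsg.Agent.Lib.Helper7.CharGalois
import Cfsg.Agent.Lib.Helper7.CharZeros
import Cfsg.Agent.Lib.Helper7.Glaub1

set_option autoImplicit false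
set_option linter.style.haveILetI false
set_option linter.unusedSectionVars false
set_option linter.unusedVariables false
set_option linter.unusedSimpArgs false

namespace Cfsg.Agent.Lib.Helper7.KPBound

open Module Representation Cfsg
open Cfsg.Agent.Lib.Helper7.CharBasic Cfsg.Agent.Lib.Helper7.CharIrr Cfsg.Agent.Lib.Helper7.CharDecomp Cfsg.Agent.Lib.Helper7.CharComplete Cfsg.Agent.Lib.Helper7.CharOrth Cfsg.Agent.Lib.Helper7.CharInd Cfsg.Agent.Lib.Helper7.CharIntegral Cfsg.Agent.Lib.Helper7.CharBurnside Cfsg.Agent.Lib.Helper7.CharLinear Cfsg.Agent.Lib.Helper7.CharEquiv Cfsg.Agent.Lib.Helper7.CharMore Cfsg.Agent.Lib.Helper7.CharCount Cfsg.Agent.Lib.Helper7.CharMisc Cfsg.Agent.Lib.Helper7.CharMisc2 Cfsg.Agent.Lib.Helper7.CharNormal Cfsg.Agent.Lib.Helper7.CharOdd Cfsg.Agent.Lib.Helper7.CharClifford Cfsg.Agent.Lib.Helper7.CharProd Cfsg.Agent.Lib.Helper7.CharPerm Cfsg.Agent.Lib.Helper7.CharClassAlg Cfsg.Agent.Lib.Helper7.CharClassAlg2 Cfsg.Agent.Lib.Helper7.CharCentral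 Cfsg.Agent.Lib.Helper7.CharNormal2 Cfsg.Agent.Lib.Helper7.CharCliffordCorr Cfsg.Agent.Lib.Helper7.CharKer Cfsg.Agent.Lib.Helper7.CharRes Cfsg.Agent.Lib.Helper7.CharZ Cfsg.Agent.Lib.Helper7.CharCenter Cfsg.Agent.Lib.Helper7.CharGen Cfsg.Agent.Lib.Helper7.GalC Cfsg.Agent.Lib.Helper7.CharGalois Cfsg.Agent.Lib.Helper7.CharZeros Cfsg.Agent.Lib.Helper7.Glaub1
open scoped ComplexConjugate

variable {G : Type*} [Group G] [Finite G]

theorem char_ne_zero_of_pElement {p a : ℕ} (hp : p.Prime) {χ : G → ℂ} (hχ : IsCharacter G χ)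
    {d : ℕ} (hd : χ 1 = d) (hpd : ¬ p ∣ d) {t : G} (ht : t ^ p ^ a = 1) : χ t ≠ 0 := by
  intro h0
  obtain ⟨r, hr, h⟩ := char_pow_pElement hχ hp ht
  rw [h0, hd, zero_pow (pow_pos hp.pos a).ne'] at h
  have h1 : (((-(d : ℤ)) : ℤ) : ℂ) = p * r := by
    push_cast
    linear_combination h
  have h2 := int_dvd_of_isIntegral_div hp.ne_zero hr h1
  rw [Int.dvd_neg] at h2
  exact hpd (by exact_mod_cast h2)

theorem sum_norm_sq [Fintype (IrrCharacter G)] (x : G) :
    ∑ χ : IrrCharacter G, ‖(χ : G → ℂ) x‖ ^ 2 = (Nat.card (Subgroup.centralizer {x}) : ℝ) := by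
  classical
  haveI := Fintype.ofFinite G
  have h := col_orth x x
  rw [if_pos (IsConj.refl x)] at h
  simp only [Complex.mul_conj'] at h
  exact_mod_cast h

theorem centralizer_gp (g : G) (u : (ZMod (Nat.card G))ˣ) :
    Subgroup.centralizer {gp g u} = Subgroup.centralizer {g} := by
  have hcop : Nat.Coprime (u : ZMod (Nat.card G)).val (orderOf g) :=
    Nat.Coprime.coprime_dvd_right (orderOf_dvd_natCard g) (ZMod.val_coe_unit_coprime u)
  obtain ⟨m, hm⟩ := exists_pow_eq_self_of_coprime hcop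
  ext y
  rw [Subgroup.mem_centralizer_singleton_iff, Subgroup.mem_centralizer_singleton_iff]
  constructor
  · intro h
    have h1 : Commute y (gp g u) := h
    have h2 := h1.pow_right m
    unfold gp at h2
    rw [hm] at h2
    exact h2
  · intro h
    have h1 : Commute y g := h
    exact h1.pow_right _

theorem main (p : ℕ) [hp : Fact p.Prime] (P : Sylow p G) [hPn : (P : Subgroup G).Normal]
    (hab : ∀ a ∈ P, ∀ b ∈ P, a * b = b * a) (g : G) (hg : g ∈ P)
    (hC : Subgroup.centralizer ({g} : Set G) = P) :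
    Nat.card (IrrCharacter G) ≤ Nat.card P ∧
      (Nat.card (IrrCharacter G) = Nat.card P → commutator G ≤ P) := by
  classical
  haveI := Fintype.ofFinite G
  haveI := Fintype.ofFinite (IrrCharacter G)
  haveI : NeZero (Nat.card G) := ⟨Nat.card_pos.ne'⟩
  have hφ : (0 : ℝ) < (Fintype.card (ZMod (Nat.card G))ˣ : ℝ) := by
    exact_mod_cast Fintype.card_pos
  obtain ⟨a, ha⟩ := (P.isPGroup' ⟨g, hg⟩)
  have hga : g ^ p ^ a = 1 := by
    have := congrArg Subtype.val ha
    simpa using this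
  have hne : ∀ χ : IrrCharacter G, (χ : G → ℂ) g ≠ 0 := by
    intro χ
    obtain ⟨d, hd⟩ := irr_one_eq_natCast (IsIrrCharacter.isCharacter χ.2)
    have h1 : d ∣ (P : Subgroup G).index := ito χ.2 hd (P : Subgroup G) hab
    have h2 : ¬ p ∣ d := fun h => P.not_dvd_index (h.trans h1)
    exact char_ne_zero_of_pElement hp.out (IsIrrCharacter.isCharacter χ.2) hd h2 hga
  have hS : ∀ χ : IrrCharacter G, (Fintype.card (ZMod (Nat.card G))ˣ : ℝ) ≤
      ∑ u : (ZMod (Nat.card G))ˣ, ‖(χ : G → ℂ) (gp g u)‖ ^ 2 := fun χ =>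
    sum_units_norm_sq_ge (IsIrrCharacter.isCharacter χ.2) (hne χ)
  have htot : ∑ χ : IrrCharacter G, ∑ u : (ZMod (Nat.card G))ˣ, ‖(χ : G → ℂ) (gp g u)‖ ^ 2 =
      (Fintype.card (ZMod (Nat.card G))ˣ : ℝ) * (Nat.card P : ℝ) := by
    rw [Finset.sum_comm]
    simp only [sum_norm_sq, centralizer_gp, hC]
    rw [Finset.sum_const, Finset.card_univ, nsmul_eq_mul]
  have hk : (Nat.card (IrrCharacter G) : ℝ) * (Fintype.card (ZMod (Nat.card G))ˣ : ℝ) ≤
      (Fintype.card (ZMod (Nat.card G))ˣ : ℝ) * (Nat.card P : ℝ) := by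
    rw [← htot, Nat.card_eq_fintype_card, ← Finset.card_univ (α := IrrCharacter G), ← nsmul_eq_mul]
    exact Finset.card_nsmul_le_sum _ _ _ (fun χ _ => hS χ)
  constructor
  · have h1 : (Nat.card (IrrCharacter G) : ℝ) ≤ (Nat.card P : ℝ) := by
      rw [mul_comm] at hk
      exact le_of_mul_le_mul_left hk hφ
    exact_mod_cast h1
  · intro heq
    have hzero : ∑ χ : IrrCharacter G, ((∑ u : (ZMod (Nat.card G))ˣ, ‖(χ : G → ℂ) (gp g u)‖ ^ 2) -
        (Fintype.card (ZMod (Nat.card G))ˣ : ℝ)) = 0 := by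
      rw [Finset.sum_sub_distrib, htot, Finset.sum_const, Finset.card_univ, nsmul_eq_mul,
        ← Nat.card_eq_fintype_card (α := IrrCharacter G), heq]
      ring
    have hall := (Finset.sum_eq_zero_iff_of_nonneg (fun χ _ => sub_nonneg.mpr (hS χ))).mp hzero
    have hlin : ∀ ψ : IrrCharacter (G ⧸ (P : Subgroup G)), (ψ : G ⧸ (P : Subgroup G) → ℂ) 1 = 1 := by
      intro ψ
      have hχ := isIrrCharacter_comp_mk (P : Subgroup G) ψ.2
      have h1 := hall ⟨_, hχ⟩ (Finset.mem_univ _)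
      obtain ⟨d, hd⟩ := irr_one_eq_natCast (IsIrrCharacter.isCharacter ψ.2)
      have h2 : ∀ u : (ZMod (Nat.card G))ˣ, ((gp g u : G) : G ⧸ (P : Subgroup G)) = 1 := by
        intro u
        rw [QuotientGroup.eq_one_iff]
        exact Subgroup.pow_mem _ hg _
      simp only [h2, hd, Finset.sum_const, Finset.card_univ, nsmul_eq_mul] at h1
      have h3 : (Fintype.card (ZMod (Nat.card G))ˣ : ℝ) * (‖((d : ℕ) : ℂ)‖ ^ 2 - 1) = 0 := by
        linear_combination h1
      have h4 : ‖((d : ℕ) : ℂ)‖ ^ 2 - 1 = 0 := (mul_eq_zero.mp h3).resolve_left hφ.ne'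
      rw [Complex.norm_natCast] at h4
      have h5 : (d : ℝ) ^ 2 = 1 := by linarith
      have h6 : d ^ 2 = 1 := by exact_mod_cast h5
      have h7 : d = 1 := by
        rcases Nat.eq_zero_or_pos d with h | h
        · rw [h] at h6; simp at h6
        · nlinarith
      rw [hd, h7]; simp
    have hcomm := (comm_iff_all_linear (G := G ⧸ (P : Subgroup G))).mpr hlin
    rw [commutator_def, Subgroup.commutator_le]
    intro x _ y _
    rw [← QuotientGroup.eq_one_iff, commutatorElement_def]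
    simp only [QuotientGroup.mk_mul, QuotientGroup.mk_inv]
    rw [hcomm (x : G ⧸ (P : Subgroup G)) y]
    group

end Cfsg.Agent.Lib.Helper7.KPBound
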