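import Mathlib
import Cfsg.Prelude.Def_Characters
import Cfsg.Prelude.Def_CharExt
import Cfsg.Agent.Lib.Helper7.All1
import Cfsg.Agent.Lib.Helper7.CharKer
import Cfsg.Agent.Lib.Helper7.CharRes
import Cfsg.Agent.Lib.Helper7.CharZ
import Cfsg.Agent.Lib.Helper7.CharCenter
import Cfsg.Agent.Lib.Helper7.CharGen
import Cfsg.Agent.Lib.Helper7.GalC
import Cfsg.Agent.Lib.Helper7.CharGalois
import Cfsg.Agent.Lib.Helper7.CharZeros
import Cfsg.Agent.Lib.Helper7.Glaub1
import Cfsg.Agent.Lib.Helper7.McKay2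
import Cfsg.Agent.Lib.Helper7.KPBound

set_option autoImplicit false
set_option linter.style.haveILetI false
set_option linter.unusedSectionVars false
set_option linter.unusedVariables false
set_option linter.unusedSimpArgs false

namespace Cfsg.Agent.Lib.Helper7.KPBound2

open Module Representation Cfsg
open Cfsg.Agent.Lib.Helper7.CharBasic Cfsg.Agent.Lib.Helper7.CharIrr Cfsg.Agent.Lib.Helper7.CharDecomp Cfsg.Agent.Lib.Helper7.CharComplete Cfsg.Agent.Lib.Helper7.CharOrth Cfsg.Agent.Lib.Helper7.CharInd Cfsg.Agent.Lib.Helper7.CharIntegral Cfsg.Agent.Lib.Helper7.CharBurnside Cfsg.Agent.Lib.Helper7.CharLinear Cfsg.Agent.Lib.Helper7.CharEquiv Cfsg.Agent.Lib.Helper7.CharMore Cfsg.Agent.Lib.Helper7.CharCount Cfsg.Agent.Lib.Helper7.CharMisc Cfsg.Agent.Lib.Helper7.CharMisc2 Cfsg.Agent.Lib.Helper7.CharNormal Cfsg.Agent.Lib.Helper7.CharOdd Cfsg.Agent.Lib.Helper7.CharClifford Cfsg.Agent.Lib.Helper7.CharProd Cfsg.Agent.Lib.Helper7.CharPerm Cfsg.Agent.Lib.Helper7.CharClassAlg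 Cfsg.Agent.Lib.Helper7.CharClassAlg2 Cfsg.Agent.Lib.Helper7.CharCentral Cfsg.Agent.Lib.Helper7.CharNormal2 Cfsg.Agent.Lib.Helper7.CharCliffordCorr Cfsg.Agent.Lib.Helper7.CharKer Cfsg.Agent.Lib.Helper7.CharRes Cfsg.Agent.Lib.Helper7.CharZ Cfsg.Agent.Lib.Helper7.CharCenter Cfsg.Agent.Lib.Helper7.CharGen Cfsg.Agent.Lib.Helper7.GalC Cfsg.Agent.Lib.Helper7.CharGalois Cfsg.Agent.Lib.Helper7.CharZeros Cfsg.Agent.Lib.Helper7.Glaub1 Cfsg.Agent.Lib.Helper7.McKay2 Cfsg.Agent.Lib.Helper7.KPBound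
open scoped ComplexConjugate

variable {X : Type*} [Group X] [Finite X]

theorem card_centralizer_le (V G : Subgroup X) [V.Normal] (hab : ∀ a ∈ V, ∀ b ∈ V, a * b = b * a)
    (hsup : V ⊔ G = ⊤) (v : X) (hv : v ∈ V) :
    Nat.card (Subgroup.centralizer ({v} : Set X)) ≤
      Nat.card ↥(G ⊓ Subgroup.centralizer ({v} : Set X)) * Nat.card V := by
  rw [← Nat.card_prod]
  have hdec : ∀ x : Subgroup.centralizer ({v} : Set X), ∃ a : V, ∃ h : G, (a : X) * h = x := by
    intro x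
    obtain ⟨a, ha, h, hh, hx⟩ := exists_mul_of_sup V G hsup (x : X)
    exact ⟨⟨a, ha⟩, ⟨h, hh⟩, hx⟩
  choose a h hah using hdec
  have hmem : ∀ x, (h x : X) ∈ G ⊓ Subgroup.centralizer ({v} : Set X) := by
    intro x
    refine ⟨(h x).2, ?_⟩
    have h1 : (h x : X) = (a x : X)⁻¹ * x := by rw [← hah x]; group
    rw [h1]
    apply Subgroup.mul_mem _ (Subgroup.inv_mem _ ?_) x.2
    rw [Subgroup.mem_centralizer_singleton_iff]
    exact hab _ (a x).2 _ hv
  apply Nat.card_le_card_of_injective (fun x => ((⟨h x, hmem x⟩ : ↥(G ⊓ Subgroup.centralizer ({v} : Set X))), a x))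
  intro x y hxy
  have h1 : (h x : X) = h y := congrArg (fun z => (z.1 : X)) hxy
  have h2 : a x = a y := congrArg (fun z => z.2) hxy
  apply Subtype.ext
  rw [← hah x, ← hah y, h1, h2]

theorem main (p : ℕ) [hp : Fact p.Prime] (V : Subgroup X) [hVn : V.Normal] (hVp : IsPGroup p V)
    (hidx : ¬ p ∣ V.index) (hab : ∀ a ∈ V, ∀ b ∈ V, a * b = b * a) (G : Subgroup X)
    (hGV : Subgroup.IsComplement' V G) (v : X) (hv : v ∈ V) :
    Nat.card (ConjClasses X) + Nat.card G ≤
      Nat.card ↥(G ⊓ Subgroup.centralizer ({v} : Set X)) * Nat.card V +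
        Nat.card (ConjClasses G) := by
  classical
  haveI := Fintype.ofFinite X
  haveI := Fintype.ofFinite (IrrCharacter X)
  haveI := Fintype.ofFinite (IrrCharacter (X ⧸ V))
  haveI : NeZero (Nat.card X) := ⟨Nat.card_pos.ne'⟩
  have hφ : (0 : ℝ) < (Fintype.card (ZMod (Nat.card X))ˣ : ℝ) := by
    exact_mod_cast Fintype.card_pos
  obtain ⟨a, ha⟩ := (hVp ⟨v, hv⟩)
  have hga : v ^ p ^ a = 1 := by
    have := congrArg Subtype.val ha
    simpa using this
  have hne : ∀ χ : IrrCharacter X, (χ : X → ℂ) v ≠ 0 := by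
    intro χ
    obtain ⟨d, hd⟩ := irr_one_eq_natCast (IsIrrCharacter.isCharacter χ.2)
    have h1 : d ∣ V.index := ito χ.2 hd V hab
    have h2 : ¬ p ∣ d := fun h => hidx (h.trans h1)
    exact char_ne_zero_of_pElement hp.out (IsIrrCharacter.isCharacter χ.2) hd h2 hga
  have hS : ∀ χ : IrrCharacter X, (Fintype.card (ZMod (Nat.card X))ˣ : ℝ) ≤
      ∑ u : (ZMod (Nat.card X))ˣ, ‖(χ : X → ℂ) (gp v u)‖ ^ 2 := fun χ =>
    sum_units_norm_sq_ge (IsIrrCharacter.isCharacter χ.2) (hne χ)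
  have htot : ∑ χ : IrrCharacter X, ∑ u : (ZMod (Nat.card X))ˣ, ‖(χ : X → ℂ) (gp v u)‖ ^ 2 =
      (Fintype.card (ZMod (Nat.card X))ˣ : ℝ) *
        (Nat.card (Subgroup.centralizer ({v} : Set X)) : ℝ) := by
    rw [Finset.sum_comm]
    simp only [sum_norm_sq, centralizer_gp]
    rw [Finset.sum_const, Finset.card_univ, nsmul_eq_mul]
  let f : IrrCharacter (X ⧸ V) → IrrCharacter X := fun ψ =>
    ⟨fun x : X => ψ.1 (x : X ⧸ V), isIrrCharacter_comp_mk V ψ.2⟩
  have hf : Function.Injective f := by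
    intro ψ ψ' h
    apply Subtype.ext
    funext q
    obtain ⟨x, rfl⟩ := QuotientGroup.mk_surjective q
    exact congrFun (congrArg Subtype.val h) x
  have hA : ∑ χ ∈ Finset.univ.image f, ∑ u : (ZMod (Nat.card X))ˣ, ‖(χ : X → ℂ) (gp v u)‖ ^ 2 =
      (Fintype.card (ZMod (Nat.card X))ˣ : ℝ) * (Nat.card (X ⧸ V) : ℝ) := by
    rw [Finset.sum_image (fun x _ y _ h => hf h)]
    have h2 : ∀ u : (ZMod (Nat.card X))ˣ, ((gp v u : X) : X ⧸ V) = 1 := by
      intro u
      rw [QuotientGroup.eq_one_iff]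
      exact Subgroup.pow_mem _ hv _
    simp only [f, h2, Finset.sum_const, Finset.card_univ, nsmul_eq_mul]
    rw [← Finset.mul_sum]
    congr 1
    have h3 := sum_sq_degrees (G := X ⧸ V)
    rw [finsum_eq_sum_of_fintype] at h3
    choose d hd using fun ψ : IrrCharacter (X ⧸ V) =>
      irr_one_eq_natCast (IsIrrCharacter.isCharacter ψ.2)
    simp only [hd] at h3 ⊢
    simp only [Complex.norm_natCast]
    exact_mod_cast h3
  have hB : ((Finset.univ \ Finset.univ.image f).card : ℝ) *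
      (Fintype.card (ZMod (Nat.card X))ˣ : ℝ) ≤
      ∑ χ ∈ Finset.univ \ Finset.univ.image f,
        ∑ u : (ZMod (Nat.card X))ˣ, ‖(χ : X → ℂ) (gp v u)‖ ^ 2 := by
    rw [← nsmul_eq_mul]
    exact Finset.card_nsmul_le_sum _ _ _ (fun χ _ => hS χ)
  have hsplit := Finset.sum_sdiff (Finset.subset_univ (Finset.univ.image f))
    (f := fun χ : IrrCharacter X => ∑ u : (ZMod (Nat.card X))ˣ, ‖(χ : X → ℂ) (gp v u)‖ ^ 2)
  rw [htot, hA] at hsplit
  have hcardA : (Finset.univ.image f).card = Nat.card (ConjClasses G) := by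
    rw [Finset.card_image_of_injective _ hf, Finset.card_univ, ← Nat.card_eq_fintype_card,
      ← card_irr_congr (compEquiv V G hGV.sup_eq_top hGV.disjoint.eq_bot), card_irr]
  have hcardB : (Finset.univ \ Finset.univ.image f).card + Nat.card (ConjClasses G) =
      Nat.card (ConjClasses X) := by
    rw [← hcardA, Finset.card_sdiff_add_card_eq_card (Finset.subset_univ _), Finset.card_univ,
      ← Nat.card_eq_fintype_card, card_irr]
  have hq : Nat.card (X ⧸ V) = Nat.card G := hGV.symm.index_eq_card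
  have hkey : ((Finset.univ \ Finset.univ.image f).card : ℝ) + (Nat.card G : ℝ) ≤
      (Nat.card (Subgroup.centralizer ({v} : Set X)) : ℝ) := by
    rw [hq] at hsplit
    have : (Fintype.card (ZMod (Nat.card X))ˣ : ℝ) *
        (((Finset.univ \ Finset.univ.image f).card : ℝ) + (Nat.card G : ℝ)) ≤
        (Fintype.card (ZMod (Nat.card X))ˣ : ℝ) *
          (Nat.card (Subgroup.centralizer ({v} : Set X)) : ℝ) := by
      rw [← hsplit]
      nlinarith [hB]
    exact le_of_mul_le_mul_left this hφ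
  have hkey' : (Finset.univ \ Finset.univ.image f).card + Nat.card G ≤
      Nat.card (Subgroup.centralizer ({v} : Set X)) := by exact_mod_cast hkey
  have hcent := card_centralizer_le V G hab hGV.sup_eq_top v hv
  omega

end Cfsg.Agent.Lib.Helper7.KPBound2
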