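import Mathlib
import Cfsg.Agent.Lib.Helper7.CharIntegral
import Cfsg.Agent.Lib.Helper7.CharOrth

set_option autoImplicit false
set_option linter.unusedSectionVars false
set_option linter.unusedVariables false
set_option linter.style.haveILetI false

/-! The order of a finite group is bounded in terms of its class number. -/

namespace Cfsg.Agent.Lib.Helper7.Landau1

open Cfsg Cfsg.Agent.Lib.Helper7.CharIntegral

universe u

/-- unit fractions with a given sum and a given number of terms have bounded denominators -/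
theorem unit_fraction_bound (k : ℕ) : ∀ r : ℚ, 0 < r → ∃ N : ℕ, ∀ (ι : Type u) (s : Finset ι)
    (n : ι → ℕ), s.card = k → (∀ i ∈ s, 0 < n i) → ∑ i ∈ s, (1 / (n i : ℚ)) = r →
    ∀ i ∈ s, n i ≤ N := by
  classical
  induction k with
  | zero =>
    intro r _
    refine ⟨0, ?_⟩
    intro ι s n hs _ _ i hi
    rw [Finset.card_eq_zero] at hs
    rw [hs] at hi
    exact absurd hi (Finset.notMem_empty i)
  | succ k ih =>
    intro r hr
    choose! f hf using ih
    obtain ⟨K, hK⟩ : ∃ K : ℕ, K = ⌊((k + 1 : ℕ) : ℚ) / r⌋₊ := ⟨_, rfl⟩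
    refine ⟨K + ∑ m ∈ Finset.range (K + 1), f (r - 1 / (m : ℚ)), ?_⟩
    intro ι s n hs hpos hsum i hi
    have hne : s.Nonempty := by
      rw [← Finset.card_pos, hs]
      exact Nat.succ_pos k
    obtain ⟨i₀, hi₀, hmin⟩ := Finset.exists_min_image s n hne
    have hn0 : (0 : ℚ) < n i₀ := by exact_mod_cast hpos i₀ hi₀
    have h1 : r ≤ ((k + 1 : ℕ) : ℚ) / (n i₀ : ℚ) := by
      rw [← hsum]
      calc ∑ i ∈ s, (1 / (n i : ℚ)) ≤ ∑ i ∈ s, (1 / (n i₀ : ℚ)) := by
            apply Finset.sum_le_sum
            intro j hj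
            apply one_div_le_one_div_of_le hn0
            exact_mod_cast hmin j hj
        _ = ((k + 1 : ℕ) : ℚ) / (n i₀ : ℚ) := by
            rw [Finset.sum_const, hs, nsmul_eq_mul]
            ring
    have h2 : n i₀ ≤ K := by
      rw [hK]
      apply Nat.le_floor
      rw [le_div_iff₀ hr]
      rw [le_div_iff₀ hn0] at h1
      linarith
    by_cases hii : i = i₀
    · rw [hii]
      exact h2.trans (Nat.le_add_right _ _)
    · have hie : i ∈ s.erase i₀ := Finset.mem_erase.mpr ⟨hii, hi⟩
      have hsum' : ∑ j ∈ s.erase i₀, (1 / (n j : ℚ)) = r - 1 / (n i₀ : ℚ) := by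
        rw [← hsum, ← Finset.add_sum_erase s _ hi₀]
        ring
      have hpos' : 0 < r - 1 / (n i₀ : ℚ) := by
        rw [← hsum']
        apply Finset.sum_pos
        · intro j hj
          have : (0 : ℚ) < n j := by exact_mod_cast hpos j (Finset.mem_of_mem_erase hj)
          positivity
        · exact ⟨i, hie⟩
      have h3 := hf _ hpos' ι (s.erase i₀) n (by rw [Finset.card_erase_of_mem hi₀, hs]; rfl)
        (fun j hj => hpos j (Finset.mem_of_mem_erase hj)) hsum' i hie
      have h4 : f (r - 1 / (n i₀ : ℚ)) ≤ ∑ m ∈ Finset.range (K + 1), f (r - 1 / (m : ℚ)) :=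
        Finset.single_le_sum (f := fun m : ℕ => f (r - 1 / (m : ℚ))) (fun _ _ => Nat.zero_le _)
          (Finset.mem_range.mpr (Nat.lt_succ_of_le h2))
      exact h3.trans (h4.trans (Nat.le_add_left _ _))

/-- **Landau**: the order of a finite group is bounded by a function of its class number. -/
theorem landau (k : ℕ) : ∃ N : ℕ, ∀ (G : Type u) [Group G] [Finite G],
    Nat.card (ConjClasses G) ≤ k → Nat.card G ≤ N := by
  classical
  choose f hf using fun j : ℕ => unit_fraction_bound.{u} j 1 one_pos
  refine ⟨∑ j ∈ Finset.range (k + 1), f j, ?_⟩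
  intro G _ _ hk
  haveI := Fintype.ofFinite G
  haveI := Fintype.ofFinite (ConjClasses G)
  have hG : (0 : ℚ) < Nat.card G := by exact_mod_cast Nat.card_pos
  have h1 := sum_eq_sum_classes (G := G) (F := fun _ => 1) (fun _ _ => rfl)
  simp only [Finset.sum_const, Finset.card_univ, nsmul_eq_mul, mul_one] at h1
  have h2 : (Fintype.card G : ℚ) =
      ∑ K : ConjClasses G, ((Subgroup.centralizer ({K.out} : Set G)).index : ℚ) := by
    exact_mod_cast h1
  rw [← Nat.card_eq_fintype_card] at h2
  have h3 : ∑ K ∈ (Finset.univ : Finset (ConjClasses G)),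
      (1 / ((Nat.card (Subgroup.centralizer ({K.out} : Set G)) : ℕ) : ℚ)) = 1 := by
    have h4 : ∀ K : ConjClasses G, (1 / ((Nat.card (Subgroup.centralizer ({K.out} : Set G)) : ℕ) : ℚ)) =
        ((Subgroup.centralizer ({K.out} : Set G)).index : ℚ) / (Nat.card G : ℚ) := by
      intro K
      have h5 : (0 : ℚ) < Nat.card (Subgroup.centralizer ({K.out} : Set G)) := by
        exact_mod_cast Nat.card_pos
      have h6 : ((Subgroup.centralizer ({K.out} : Set G)).index : ℚ) *
          (Nat.card (Subgroup.centralizer ({K.out} : Set G)) : ℚ) = Nat.card G := by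
        exact_mod_cast Subgroup.index_mul_card _
      rw [← h6]
      have h7 : ((Subgroup.centralizer ({K.out} : Set G)).index : ℚ) ≠ 0 := by
        exact_mod_cast Subgroup.index_ne_zero_of_finite
      field_simp
    simp only [h4]
    rw [← Finset.sum_div, ← h2, div_self hG.ne']
  have h8 := hf (Nat.card (ConjClasses G)) (ConjClasses G) Finset.univ
    (fun K => Nat.card (Subgroup.centralizer ({K.out} : Set G)))
    (by rw [Finset.card_univ, Nat.card_eq_fintype_card]) (fun _ _ => Nat.card_pos) h3
    (ConjClasses.mk 1) (Finset.mem_univ _)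
  have h9 : (ConjClasses.mk (1 : G)).out = 1 := by
    have : ConjClasses.mk (ConjClasses.mk (1 : G)).out = ConjClasses.mk 1 := Quotient.out_eq _
    rw [ConjClasses.mk_eq_mk_iff_isConj] at this
    exact isConj_one_left.mp this
  simp only [h9] at h8
  have h10 : Subgroup.centralizer ({1} : Set G) = ⊤ := by
    rw [eq_top_iff]
    intro x _
    rw [Subgroup.mem_centralizer_iff]
    intro y hy
    rw [Set.mem_singleton_iff.mp hy]
    simp
  rw [h10, Subgroup.card_top] at h8
  exact h8.trans (Finset.single_le_sum (f := f) (fun _ _ => Nat.zero_le _)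
    (Finset.mem_range.mpr (Nat.lt_succ_of_le hk)))

end Cfsg.Agent.Lib.Helper7.Landau1
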