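import Mathlib
import Cfsg.Prelude.Def_Characters
import Cfsg.Prelude.Def_CharExt
import Cfsg.Prelude.Def_Blocks
import Cfsg.Agent.Lib.Helper7.All1
import Cfsg.Agent.Lib.Helper7.CharKer
import Cfsg.Agent.Lib.Helper7.CharRes
import Cfsg.Agent.Lib.Helper7.CharZ
import Cfsg.Agent.Lib.Helper7.CharCenter
import Cfsg.Agent.Lib.Helper7.CharDeg
import Cfsg.Agent.Lib.Helper7.ProjExt4
import Cfsg.Agent.Lib.Helper7.ProjExt5
import Cfsg.Agent.Lib.Helper7.CharGallagher
import Cfsg.Agent.Lib.Helper7.CharGallagher2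
import Cfsg.Agent.Lib.Helper7.Glaub1

set_option autoImplicit false
set_option linter.style.haveILetI false
set_option linter.unusedSectionVars false
set_option linter.unusedVariables false
set_option linter.unusedSimpArgs false

namespace Cfsg.Agent.Lib.Helper7.McKay1

open Module Representation Cfsg
open Cfsg.Agent.Lib.Helper7.CharBasic Cfsg.Agent.Lib.Helper7.CharIrr Cfsg.Agent.Lib.Helper7.CharDecomp Cfsg.Agent.Lib.Helper7.CharComplete Cfsg.Agent.Lib.Helper7.CharOrth Cfsg.Agent.Lib.Helper7.CharInd Cfsg.Agent.Lib.Helper7.CharIntegral Cfsg.Agent.Lib.Helper7.CharBurnside Cfsg.Agent.Lib.Helper7.CharLinear Cfsg.Agent.Lib.Helper7.CharEquiv Cfsg.Agent.Lib.Helper7.CharMore Cfsg.Agent.Lib.Helper7.CharCount Cfsg.Agent.Lib.Helper7.CharMisc Cfsg.Agent.Lib.Helper7.CharMisc2 Cfsg.Agent.Lib.Helper7.CharNormal Cfsg.Agent.Lib.Helper7.CharOdd Cfsg.Agent.Lib.Helper7.CharClifford Cfsg.Agent.Lib.Helper7.CharProd Cfsg.Agent.Lib.Helper7.CharPerm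 Cfsg.Agent.Lib.Helper7.CharClassAlg Cfsg.Agent.Lib.Helper7.CharClassAlg2 Cfsg.Agent.Lib.Helper7.CharCentral Cfsg.Agent.Lib.Helper7.CharNormal2 Cfsg.Agent.Lib.Helper7.CharCliffordCorr Cfsg.Agent.Lib.Helper7.CharKer Cfsg.Agent.Lib.Helper7.CharRes Cfsg.Agent.Lib.Helper7.CharZ Cfsg.Agent.Lib.Helper7.CharCenter Cfsg.Agent.Lib.Helper7.CharDeg Cfsg.Agent.Lib.Helper7.ProjExt4 Cfsg.Agent.Lib.Helper7.ProjExt5 Cfsg.Agent.Lib.Helper7.CharGallagher Cfsg.Agent.Lib.Helper7.CharGallagher2 Cfsg.Agent.Lib.Helper7.Glaub1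
open scoped ComplexConjugate

variable {G : Type*} [Group G] [Finite G]

/-- a constituent of `χ_K` is invariant when `χ(1)` is prime to the index. -/
theorem invariant_of_coprime_degree (K : Subgroup G) [hK : K.Normal] {χ : G → ℂ}
    (hχ : IsIrrCharacter G χ) {d : ℕ} (hd : χ 1 = d) (hcop : d.Coprime K.index) {θ : K → ℂ}
    (hθ : IsIrrCharacter K θ) [Fintype K] (hc : classInner (fun n : K => χ n) θ ≠ 0) :
    ∀ (g : G) (n : K), θ ⟨g * n * g⁻¹, hK.conj_mem n n.2 g⟩ = θ n := by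
  classical
  haveI := Fintype.ofFinite G
  haveI := Fintype.ofFinite (inertia K θ)
  have h1 := degree_mul_inertia K hχ hθ hc
  rw [sum_inertia_eq_card K (inertia K θ) θ hθ (mem_inertia _ _)] at h1
  obtain ⟨e, he⟩ := classInner_isCharacter_nat (isCharacter_restrict K (IsIrrCharacter.isCharacter hχ))
    (IsIrrCharacter.isCharacter hθ)
  obtain ⟨d', hd'⟩ := irr_one_eq_natCast (IsIrrCharacter.isCharacter hθ)
  rw [hd, hd', he] at h1
  have h2 : d * Nat.card (inertia K θ) = e * Nat.card G * d' := by exact_mod_cast h1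
  rw [← Subgroup.card_mul_index (inertia K θ)] at h2
  have hpos : 0 < Nat.card (inertia K θ) := Nat.card_pos
  have h3 : d = (inertia K θ).index * (e * d') := by
    have : Nat.card (inertia K θ) * d = Nat.card (inertia K θ) * ((inertia K θ).index * (e * d')) := by
      rw [mul_comm, h2]; ring
    exact Nat.eq_of_mul_eq_mul_left hpos this
  have h4 : (inertia K θ).index ∣ d := ⟨_, h3⟩
  have h5 : (inertia K θ).index ∣ K.index :=
    Subgroup.index_dvd_of_le (le_inertia K (IsIrrCharacter.isClassFunction hθ))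
  have h6 : (inertia K θ).index = 1 := Nat.eq_one_of_dvd_coprimes hcop h4 h5
  rw [Subgroup.index_eq_one] at h6
  intro g
  exact (mem_inertia K θ g).mp (h6 ▸ Subgroup.mem_top g)

theorem count_coprime_degree (K : Subgroup G) [hK : K.Normal]
    (hcop : (Nat.card K).Coprime K.index) :
    Nat.card {χ : IrrCharacter G // (charDegree (χ : G → ℂ)).Coprime K.index} =
      Nat.card {θ : IrrCharacter K // ∀ (g : G) (n : K),
        (θ : K → ℂ) ⟨g * n * g⁻¹, hK.conj_mem n n.2 g⟩ = (θ : K → ℂ) n} *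
      Nat.card {l : G →* ℂˣ // ∀ n ∈ K, l n = 1} := by
  classical
  haveI := Fintype.ofFinite G
  haveI := Fintype.ofFinite K
  rw [← Nat.card_prod]
  symm
  have hext : ∀ θ : {θ : IrrCharacter K // ∀ (g : G) (n : K),
      (θ : K → ℂ) ⟨g * n * g⁻¹, hK.conj_mem n n.2 g⟩ = (θ : K → ℂ) n},
      ∃ χ : G → ℂ, IsIrrCharacter G χ ∧ ∀ n : K, χ n = θ.1.1 n := by
    intro θ
    obtain ⟨d, hd⟩ := irr_one_eq_natCast (IsIrrCharacter.isCharacter θ.1.2)
    have h1 : d ∣ Nat.card K := irr_degree_dvd_card θ.1.2 hd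
    have h2 : detOrder θ.1.1 ∣ Nat.card K := detOrder_dvd_card (IsIrrCharacter.isCharacter θ.1.2)
    have h3 : Nat.Coprime K.index (detOrder θ.1.1 * d) :=
      Nat.Coprime.mul_right (Nat.Coprime.coprime_dvd_right h2 hcop.symm)
        (Nat.Coprime.coprime_dvd_right h1 hcop.symm)
    obtain ⟨χ, ⟨hχ1, hχ2, _⟩, _⟩ := canonical_ext K θ.1.1 θ.1.2 θ.2 d hd h3
    exact ⟨χ, hχ1, hχ2⟩
  choose E hE1 hE2 using hext
  have hEK : ∀ θ, (fun n : K => E θ n) = θ.1.1 := fun θ => funext (hE2 θ)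
  have hEirr : ∀ θ, IsIrrCharacter K (fun n : K => E θ n) := fun θ => by rw [hEK]; exact θ.1.2
  have hker : ∀ l : {l : G →* ℂˣ // ∀ n ∈ K, l n = 1}, ∀ n ∈ K,
      (fun g => ((l.1 g : ℂˣ) : ℂ)) n = (fun g => ((l.1 g : ℂˣ) : ℂ)) 1 := by
    intro l n hn
    simp [l.2 n hn]
  have hFirr : ∀ (θ) (l : {l : G →* ℂˣ // ∀ n ∈ K, l n = 1}),
      IsIrrCharacter G ((fun g => ((l.1 g : ℂˣ) : ℂ)) * E θ) := fun θ l =>
    (gallagher K (hE1 θ) (hEirr θ)).1 _ (isIrrCharacter_of_hom l.1) (hker l)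
  have hFdeg : ∀ (θ) (l : {l : G →* ℂˣ // ∀ n ∈ K, l n = 1}),
      (charDegree ((fun g => ((l.1 g : ℂˣ) : ℂ)) * E θ)).Coprime K.index := by
    intro θ l
    obtain ⟨d, hd⟩ := irr_one_eq_natCast (IsIrrCharacter.isCharacter θ.1.2)
    have h1 : d ∣ Nat.card K := irr_degree_dvd_card θ.1.2 hd
    have h2 : ((fun g => ((l.1 g : ℂˣ) : ℂ)) * E θ) 1 = d := by
      have := hE2 θ 1
      simp only [Pi.mul_apply, map_one, Units.val_one, one_mul]
      rw [← hd, ← this]
      rfl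
    rw [charDegree_of_eq h2]
    exact Nat.Coprime.coprime_dvd_left h1 hcop
  refine Nat.card_congr (Equiv.ofBijective
    (fun x => ⟨⟨(fun g => ((x.2.1 g : ℂˣ) : ℂ)) * E x.1, hFirr x.1 x.2⟩, hFdeg x.1 x.2⟩) ⟨?_, ?_⟩)
  · rintro ⟨θ, l⟩ ⟨θ', l'⟩ h
    have h1 : (fun g => ((l.1 g : ℂˣ) : ℂ)) * E θ = (fun g => ((l'.1 g : ℂˣ) : ℂ)) * E θ' :=
      congrArg (fun x => x.1.1) h
    have h2 : θ = θ' := by
      apply Subtype.ext
      apply Subtype.ext
      funext n
      have h3 := congrFun h1 n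
      simp only [Pi.mul_apply, l.2 n n.2, l'.2 n n.2, Units.val_one, one_mul] at h3
      rw [← hE2, ← hE2, h3]
    subst h2
    have h4 := (gallagher K (hE1 θ) (hEirr θ)).2.1 _ _ (isIrrCharacter_of_hom l.1) (hker l)
      (isIrrCharacter_of_hom l'.1) (hker l') h1
    have h5 : l = l' := by
      apply Subtype.ext
      apply MonoidHom.ext
      intro g
      apply Units.ext
      exact congrFun h4 g
    rw [h5]
  · rintro ⟨⟨χ, hχ⟩, hdeg⟩
    have hχc := IsIrrCharacter.isCharacter hχ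
    obtain ⟨d, hd⟩ := irr_one_eq_natCast hχc
    simp only at hdeg
    rw [charDegree_of_eq hd] at hdeg
    have hne : (fun n : K => χ n) ≠ 0 := by
      intro h
      have := congrFun h 1
      exact irr_one_ne_zero hχ this
    obtain ⟨θ, hθ, hc⟩ := exists_constituent
      (IsCharacter.isClassFunction (isCharacter_restrict K hχc)) hne
    have hinv := invariant_of_coprime_degree K hχ hd hdeg hθ hc
    obtain ⟨β, hβ, hβk, hβχ⟩ := (gallagher K (hE1 ⟨⟨θ, hθ⟩, hinv⟩) (hEirr ⟨⟨θ, hθ⟩, hinv⟩)).2.2 χ hχ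
      (by rw [hEK]; exact hc)
    obtain ⟨b, hb⟩ := irr_one_eq_natCast (IsIrrCharacter.isCharacter hβ)
    obtain ⟨d', hd'⟩ := irr_one_eq_natCast (IsIrrCharacter.isCharacter hθ)
    have h1 : b ∣ K.index := by
      apply degree_dvd_index_of_scalar hβ hb K
      intro a ha
      rw [hβk a ha, hb]
      simp
    have h2 : b ∣ d := by
      have h3 := congrFun hβχ 1
      have h4 := hE2 ⟨⟨θ, hθ⟩, hinv⟩ 1
      simp only [Pi.mul_apply] at h3
      rw [hb, hd] at h3
      have h5 : E ⟨⟨θ, hθ⟩, hinv⟩ 1 = d' := by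
        rw [← hd']; exact h4
      rw [h5] at h3
      have : b * d' = d := by exact_mod_cast h3
      exact ⟨d', this.symm⟩
    have h3 : b = 1 := Nat.eq_one_of_dvd_coprimes hdeg h2 h1
    rw [h3] at hb
    obtain ⟨l, hl⟩ := exists_hom_of_irr_of_one (IsIrrCharacter.isCharacter hβ) (by simpa using hb)
    refine ⟨⟨⟨⟨θ, hθ⟩, hinv⟩, ⟨l, ?_⟩⟩, ?_⟩
    · intro n hn
      apply Units.ext
      have := hβk n hn
      rw [hl] at this
      simpa using this
    · apply Subtype.ext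
      apply Subtype.ext
      simp only
      rw [← hl]
      exact hβχ

end Cfsg.Agent.Lib.Helper7.McKay1
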