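import Mathlib
import Cfsg.Prelude.Def_Characters
import Cfsg.Prelude.Def_CharExt
import Cfsg.Prelude.Def_Blocks
import Cfsg.Agent.Lib.Helper7.All1
import Cfsg.Agent.Lib.Helper7.CharKer
import Cfsg.Agent.Lib.Helper7.CharRes
import Cfsg.Agent.Lib.Helper7.CharZ
import Cfsg.Agent.Lib.Helper7.CharCenter
import Cfsg.Agent.Lib.Helper7.CharDeg
import Cfsg.Agent.Lib.Helper7.ProjExt4
import Cfsg.Agent.Lib.Helper7.ProjExt5
import Cfsg.Agent.Lib.Helper7.CharGallagher
import Cfsg.Agent.Lib.Helper7.CharGallagher2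
import Cfsg.Agent.Lib.Helper7.Glaub1
import Cfsg.Agent.Lib.Helper7.Glaub3
import Cfsg.Agent.Lib.Helper7.Glaub6
import Cfsg.Agent.Lib.Helper7.Glaub8
import Cfsg.Agent.Lib.Helper7.Glaub9
import Cfsg.Agent.Lib.Helper7.Glaub10
import Cfsg.Agent.Lib.Helper7.Glaub11
import Cfsg.Agent.Lib.Helper7.McKay1

set_option autoImplicit false
set_option linter.style.haveILetI false
set_option linter.unusedSectionVars false
set_option linter.unusedVariables false
set_option linter.unusedSimpArgs false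

namespace Cfsg.Agent.Lib.Helper7.McKay2

open Module Representation Cfsg
open Cfsg.Agent.Lib.Helper7.CharBasic Cfsg.Agent.Lib.Helper7.CharIrr Cfsg.Agent.Lib.Helper7.CharDecomp Cfsg.Agent.Lib.Helper7.CharComplete Cfsg.Agent.Lib.Helper7.CharOrth Cfsg.Agent.Lib.Helper7.CharInd Cfsg.Agent.Lib.Helper7.CharIntegral Cfsg.Agent.Lib.Helper7.CharBurnside Cfsg.Agent.Lib.Helper7.CharLinear Cfsg.Agent.Lib.Helper7.CharEquiv Cfsg.Agent.Lib.Helper7.CharMore Cfsg.Agent.Lib.Helper7.CharCount Cfsg.Agent.Lib.Helper7.CharMisc Cfsg.Agent.Lib.Helper7.CharMisc2 Cfsg.Agent.Lib.Helper7.CharNormal Cfsg.Agent.Lib.Helper7.CharOdd Cfsg.Agent.Lib.Helper7.CharClifford Cfsg.Agent.Lib.Helper7.CharProd Cfsg.Agent.Lib.Helper7.CharPerm Cfsg.Agent.Lib.Helper7.CharClassAlg Cfsg.Agent.Lib.Helper7.CharClassAlg2 Cfsg.Agent.Lib.Helper7.CharCentral Cfsg.Agent.Lib.Helper7.CharNormal2 Cfsg.Agent.Lib.Helper7.CharCliffordCorr Cfsg.Agent.Lib.Helper7.CharKer Cfsg.Agent.Lib.Helper7.CharRes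 Cfsg.Agent.Lib.Helper7.CharZ Cfsg.Agent.Lib.Helper7.CharCenter Cfsg.Agent.Lib.Helper7.CharDeg Cfsg.Agent.Lib.Helper7.ProjExt4 Cfsg.Agent.Lib.Helper7.ProjExt5 Cfsg.Agent.Lib.Helper7.CharGallagher Cfsg.Agent.Lib.Helper7.CharGallagher2 Cfsg.Agent.Lib.Helper7.Glaub1 Cfsg.Agent.Lib.Helper7.Glaub3 Cfsg.Agent.Lib.Helper7.Glaub6 Cfsg.Agent.Lib.Helper7.Glaub8 Cfsg.Agent.Lib.Helper7.Glaub9 Cfsg.Agent.Lib.Helper7.Glaub10 Cfsg.Agent.Lib.Helper7.Glaub11 Cfsg.Agent.Lib.Helper7.McKay1
open scoped ComplexConjugate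

variable {G : Type*} [Group G]

theorem exists_mul_of_sup (K H : Subgroup G) [K.Normal] (hKH : K ⊔ H = ⊤) (g : G) :
    ∃ k ∈ K, ∃ h ∈ H, k * h = g := by
  have h1 : g ∈ ((K ⊔ H : Subgroup G) : Set G) := by rw [hKH]; trivial
  rw [Subgroup.normal_mul] at h1
  exact Set.mem_mul.mp h1

/-- the complement is isomorphic to the quotient. -/
noncomputable def compEquiv (K H : Subgroup G) [K.Normal] (hKH : K ⊔ H = ⊤) (hdisj : K ⊓ H = ⊥) :
    H ≃* G ⧸ K :=
  MulEquiv.ofBijective ((QuotientGroup.mk' K).comp H.subtype) (by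
    constructor
    · rw [injective_iff_map_eq_one]
      intro h hh
      have h1 : (h : G) ∈ K := (QuotientGroup.eq_one_iff (h : G)).mp hh
      have h2 : (h : G) ∈ K ⊓ H := ⟨h1, h.2⟩
      rw [hdisj, Subgroup.mem_bot] at h2
      exact Subtype.ext h2
    · intro q
      obtain ⟨g, rfl⟩ := QuotientGroup.mk_surjective q
      obtain ⟨k, hk, h, hh, rfl⟩ := exists_mul_of_sup K H hKH g
      refine ⟨⟨h, hh⟩, ?_⟩
      change (QuotientGroup.mk h : G ⧸ K) = QuotientGroup.mk (k * h)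
      rw [QuotientGroup.mk_mul, (QuotientGroup.eq_one_iff k).mpr hk, one_mul])

theorem compEquiv_apply (K H : Subgroup G) [K.Normal] (hKH : K ⊔ H = ⊤) (hdisj : K ⊓ H = ⊥)
    (h : H) : compEquiv K H hKH hdisj h = QuotientGroup.mk (h : G) := rfl

theorem index_eq_card_compl (K H : Subgroup G) [K.Normal] (hKH : K ⊔ H = ⊤)
    (hdisj : K ⊓ H = ⊥) : K.index = Nat.card H :=
  (Nat.card_congr (compEquiv K H hKH hdisj).toEquiv).symm

theorem card_hom_trivial (K H : Subgroup G) [K.Normal] (hKH : K ⊔ H = ⊤) (hdisj : K ⊓ H = ⊥) :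
    Nat.card {l : G →* ℂˣ // ∀ n ∈ K, l n = 1} = Nat.card (H →* ℂˣ) := by
  refine Nat.card_congr
    { toFun := fun l => l.1.comp H.subtype
      invFun := fun μ => ⟨(μ.comp (compEquiv K H hKH hdisj).symm.toMonoidHom).comp
        (QuotientGroup.mk' K), ?_⟩
      left_inv := ?_
      right_inv := ?_ }
  · intro n hn
    simp only [MonoidHom.comp_apply, QuotientGroup.mk'_apply]
    rw [(QuotientGroup.eq_one_iff n).mpr hn]
    simp
  · intro l
    apply Subtype.ext
    apply MonoidHom.ext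
    intro g
    obtain ⟨k, hk, h, hh, rfl⟩ := exists_mul_of_sup K H hKH g
    simp only [MonoidHom.comp_apply, QuotientGroup.mk'_apply]
    have h1 : (QuotientGroup.mk (k * h) : G ⧸ K) = compEquiv K H hKH hdisj ⟨h, hh⟩ := by
      rw [compEquiv_apply, QuotientGroup.mk_mul, (QuotientGroup.eq_one_iff k).mpr hk, one_mul]
    rw [h1]
    simp [l.2 k hk]
  · intro μ
    apply MonoidHom.ext
    intro h
    simp only [MonoidHom.comp_apply, QuotientGroup.mk'_apply, Subgroup.coe_subtype]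
    rw [← compEquiv_apply K H hKH hdisj h]
    simp

theorem card_irr_congr {A B : Type*} [Group A] [Group B] [Finite A] [Finite B] (e : A ≃* B) :
    Nat.card (IrrCharacter A) = Nat.card (IrrCharacter B) := by
  refine Nat.card_congr
    { toFun := fun χ => ⟨fun b => χ.1 (e.symm b), isIrrCharacter_comp_equiv e.symm χ.2⟩
      invFun := fun χ => ⟨fun b => χ.1 (e b), isIrrCharacter_comp_equiv e χ.2⟩
      left_inv := fun χ => Subtype.ext (funext fun a => by simp)
      right_inv := fun χ => Subtype.ext (funext fun a => by simp) }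

theorem card_inv_eq_NI [Finite G] (K H : Subgroup G) [hK : K.Normal] (hKH : K ⊔ H = ⊤) :
    Nat.card {θ : IrrCharacter K // ∀ (g : G) (n : K),
      (θ : K → ℂ) ⟨g * n * g⁻¹, hK.conj_mem n n.2 g⟩ = (θ : K → ℂ) n} = NI K H := by
  unfold NI
  refine Nat.card_congr
    { toFun := fun θ => ⟨θ.1.1, θ.1.2, ?_⟩
      invFun := fun θ => ⟨⟨θ.1, θ.2.1⟩, ?_⟩
      left_inv := fun _ => rfl
      right_inv := fun _ => rfl }
  · intro s hs g g' hgg
    have := θ.2 s g
    rw [← this]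
    exact congrArg θ.1.1 (Subtype.ext hgg)
  · intro g n
    obtain ⟨k, hk, h, hh, rfl⟩ := exists_mul_of_sup K H hKH g
    have h1 : θ.1 ⟨h * n * h⁻¹, hK.conj_mem n n.2 h⟩ = θ.1 n := θ.2.2 h hh n _ rfl
    have h2 := IsIrrCharacter.isClassFunction θ.2.1 ⟨h * n * h⁻¹, hK.conj_mem n n.2 h⟩ ⟨k, hk⟩
    simp only
    rw [← h1, ← h2]
    exact congrArg θ.1 (Subtype.ext (by simp [mul_assoc]))

theorem main [Finite G] (K H : Subgroup G) [hK : K.Normal] (hKH : K ⊔ H = ⊤)
    (hcop : (Nat.card K).Coprime (Nat.card H)) (hsolv : Group.IsSolvable H) :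
    Nat.card {χ : IrrCharacter G // (charDegree (χ : G → ℂ)).Coprime (Nat.card H)} =
    Nat.card {η : IrrCharacter (Subgroup.normalizer (H : Set G)) //
      (charDegree (η : Subgroup.normalizer (H : Set G) → ℂ)).Coprime (Nat.card H)} := by
  classical
  haveI := Fintype.ofFinite G
  have hdisj : K ⊓ H = ⊥ := (Subgroup.disjoint_of_coprime_natCard hcop).eq_bot
  have hidx := index_eq_card_compl K H hKH hdisj
  have hL := count_coprime_degree K (hidx ▸ hcop)
  have hnorm : ∀ s ∈ H, ∀ g ∈ K, s * g * s⁻¹ ∈ K := fun s _ g hg => hK.conj_mem g hg s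
  rw [hidx, card_inv_eq_NI K H hKH, card_hom_trivial K H hKH hdisj,
    NI_chain K H hnorm hcop _ H rfl le_rfl
      (fun s hs t ht => H.mul_mem (H.mul_mem hs ht) (H.inv_mem hs)) hsolv,
    NI_trivial _ H (fun c hc s hs =>
      ((Subgroup.mem_centralizer_iff.mp (Subgroup.mem_inf.mp hc).2) s hs).symm), ← card_irr] at hL
  rw [hL]
  have hCN : K ⊓ Subgroup.centralizer (H : Set G) ≤ Subgroup.normalizer (H : Set G) :=
    inf_le_right.trans (Subgroup.centralizer_le_normalizer _)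
  have hHN : H ≤ Subgroup.normalizer (H : Set G) := Subgroup.le_normalizer
  haveI hC'n : ((K ⊓ Subgroup.centralizer (H : Set G)).subgroupOf
      (Subgroup.normalizer (H : Set G))).Normal := by
    constructor
    intro n hn x
    rw [Subgroup.mem_subgroupOf] at hn ⊢
    refine conj_mem_inf_centralizer (x := (x : G)) (fun g hg => hK.conj_mem g hg x) ?_ n hn
    intro t ht
    have := (Subgroup.mem_normalizer_iff.mp (Subgroup.inv_mem _ x.2) t).mp ht
    simpa using this
  have hsup : (K ⊓ Subgroup.centralizer (H : Set G)).subgroupOf (Subgroup.normalizer (H : Set G)) ⊔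
      H.subgroupOf (Subgroup.normalizer (H : Set G)) = ⊤ := by
    rw [eq_top_iff]
    intro x _
    obtain ⟨k, hk, h, hh, hkh⟩ := exists_mul_of_sup K H hKH (x : G)
    have hkN : k ∈ Subgroup.normalizer (H : Set G) := by
      have : k = x * h⁻¹ := by rw [← hkh]; group
      rw [this]
      exact Subgroup.mul_mem _ x.2 (Subgroup.inv_mem _ (hHN hh))
    have hkC : k ∈ Subgroup.centralizer (H : Set G) := by
      rw [Subgroup.mem_centralizer_iff]
      intro y hy
      have h1 : k * y * k⁻¹ ∈ H := (Subgroup.mem_normalizer_iff.mp hkN y).mp hy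
      have h2 : k * y * k⁻¹ * y⁻¹ ∈ K ⊓ H := by
        refine ⟨?_, H.mul_mem h1 (H.inv_mem hy)⟩
        have : k * y * k⁻¹ * y⁻¹ = k * (y * k⁻¹ * y⁻¹) := by group
        rw [this]
        exact K.mul_mem hk (hK.conj_mem _ (K.inv_mem hk) y)
      rw [hdisj, Subgroup.mem_bot] at h2
      calc y * k = (k * y * k⁻¹ * y⁻¹)⁻¹ * (k * y) := by group
        _ = k * y := by rw [h2]; simp
    have hx : x = (⟨k, hkN⟩ : Subgroup.normalizer (H : Set G)) * ⟨h, hHN hh⟩ := Subtype.ext hkh.symm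
    rw [hx]
    apply Subgroup.mul_mem_sup
    · rw [Subgroup.mem_subgroupOf]; exact ⟨hk, hkC⟩
    · rw [Subgroup.mem_subgroupOf]; exact hh
  have hdisj' : (K ⊓ Subgroup.centralizer (H : Set G)).subgroupOf
      (Subgroup.normalizer (H : Set G)) ⊓ H.subgroupOf (Subgroup.normalizer (H : Set G)) = ⊥ := by
    rw [eq_bot_iff]
    intro x hx
    obtain ⟨h1, h2⟩ := Subgroup.mem_inf.mp hx
    rw [Subgroup.mem_subgroupOf] at h1 h2
    have h3 : (x : G) ∈ K ⊓ H := ⟨h1.1, h2⟩
    rw [hdisj, Subgroup.mem_bot] at h3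
    rw [Subgroup.mem_bot]
    exact Subtype.ext h3
  have hcardH : Nat.card (H.subgroupOf (Subgroup.normalizer (H : Set G))) = Nat.card H :=
    Nat.card_congr (Subgroup.subgroupOfEquivOfLe hHN).toEquiv
  have hcardC : Nat.card ((K ⊓ Subgroup.centralizer (H : Set G)).subgroupOf
      (Subgroup.normalizer (H : Set G))) = Nat.card ↥(K ⊓ Subgroup.centralizer (H : Set G)) :=
    Nat.card_congr (Subgroup.subgroupOfEquivOfLe hCN).toEquiv
  have hidx' := index_eq_card_compl _ _ hsup hdisj'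
  rw [hcardH] at hidx'
  have hcop' : (Nat.card ((K ⊓ Subgroup.centralizer (H : Set G)).subgroupOf
      (Subgroup.normalizer (H : Set G)))).Coprime ((K ⊓ Subgroup.centralizer (H : Set G)).subgroupOf
      (Subgroup.normalizer (H : Set G))).index := by
    rw [hidx', hcardC]
    exact Nat.Coprime.coprime_dvd_left (Subgroup.card_dvd_of_le inf_le_left) hcop
  have hR := count_coprime_degree _ hcop'
  rw [hidx', card_hom_trivial _ _ hsup hdisj'] at hR
  rw [hR]
  congr 1
  · rw [card_irr_congr (Subgroup.subgroupOfEquivOfLe hCN).symm]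
    symm
    refine Nat.card_congr (Equiv.subtypeUnivEquiv ?_)
    intro θ x n
    obtain ⟨c, hc, h, hh, rfl⟩ := exists_mul_of_sup _ _ hsup x
    have h2 := IsIrrCharacter.isClassFunction θ.2 n ⟨c, hc⟩
    rw [← h2]
    refine congrArg θ.1 (Subtype.ext (Subtype.ext ?_))
    have hn : ((n : Subgroup.normalizer (H : Set G)) : G) ∈ Subgroup.centralizer (H : Set G) :=
      (Subgroup.mem_subgroupOf.mp n.2).2
    have h3 := (Subgroup.mem_centralizer_iff.mp hn) h (Subgroup.mem_subgroupOf.mp hh)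
    simp only [Subgroup.coe_mul, Subgroup.coe_inv, mul_inv_rev]
    calc (c : G) * h * n * ((h : G)⁻¹ * (c : G)⁻¹) = c * (h * n) * (h : G)⁻¹ * (c : G)⁻¹ := by group
      _ = c * n * (c : G)⁻¹ := by rw [h3]; group
  · exact (Nat.card_congr (MulEquiv.monoidHomCongrLeftEquiv (Subgroup.subgroupOfEquivOfLe hHN))).symm

end Cfsg.Agent.Lib.Helper7.McKay2
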