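import Mathlib
import Cfsg.Prelude.Def_Characters
import Cfsg.Agent.Lib.Helper7.All1
import Cfsg.Agent.Lib.Helper7.CharKer
import Cfsg.Agent.Lib.Helper7.CharRes
import Cfsg.Agent.Lib.Helper7.CharZ

set_option autoImplicit false
set_option linter.style.haveILetI false
set_option linter.unusedSectionVars false
set_option linter.unusedVariables false
set_option linter.unusedSimpArgs false

namespace Cfsg.Agent.Lib.Helper7.PFaith

open Module Representation Cfsg
open Cfsg.Agent.Lib.Helper7.CharBasic Cfsg.Agent.Lib.Helper7.CharIrr Cfsg.Agent.Lib.Helper7.CharDecomp Cfsg.Agent.Lib.Helper7.CharComplete Cfsg.Agent.Lib.Helper7.CharOrth Cfsg.Agent.Lib.Helper7.CharInd Cfsg.Agent.Lib.Helper7.CharIntegral Cfsg.Agent.Lib.Helper7.CharBurnside Cfsg.Agent.Lib.Helper7.CharLinear Cfsg.Agent.Lib.Helper7.CharEquiv Cfsg.Agent.Lib.Helper7.CharMore Cfsg.Agent.Lib.Helper7.CharCount Cfsg.Agent.Lib.Helper7.CharMisc Cfsg.Agent.Lib.Helper7.CharMisc2 Cfsg.Agent.Lib.Helper7.CharNormal Cfsg.Agent.Lib.Helper7.CharOdd Cfsg.Agent.Lib.Helper7.CharClifford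 Cfsg.Agent.Lib.Helper7.CharProd Cfsg.Agent.Lib.Helper7.CharPerm Cfsg.Agent.Lib.Helper7.CharClassAlg Cfsg.Agent.Lib.Helper7.CharClassAlg2 Cfsg.Agent.Lib.Helper7.CharCentral Cfsg.Agent.Lib.Helper7.CharNormal2 Cfsg.Agent.Lib.Helper7.CharCliffordCorr Cfsg.Agent.Lib.Helper7.CharKer Cfsg.Agent.Lib.Helper7.CharRes Cfsg.Agent.Lib.Helper7.CharZ
open scoped ComplexConjugate

variable {G : Type*} [Group G] [Finite G]

theorem exists_central_of_normal {p : ℕ} [hp : Fact p.Prime] (hG : IsPGroup p G) (K : Subgroup G)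
    [hK : K.Normal] (hne : K ≠ ⊥) : ∃ b ∈ K, b ∈ Subgroup.center G ∧ orderOf b = p := by
  haveI : Nontrivial K := (Subgroup.nontrivial_iff_ne_bot K).mpr hne
  have dvd : p ∣ Nat.card K := by
    obtain ⟨n, hn0, hn⟩ := (hG.to_subgroup K).nontrivial_iff_card.mp inferInstance
    exact hn.symm ▸ dvd_pow_self _ (ne_of_gt hn0)
  have h1 : (1 : K) ∈ MulAction.fixedPoints (ConjAct G) K := by
    intro g
    apply Subtype.ext
    rw [ConjAct.Subgroup.val_conj_smul]
    simp
  obtain ⟨b, hb, hb1⟩ := (hG.of_equiv ConjAct.toConjAct).exists_fixed_point_of_prime_dvd_card_of_fixed_point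
    K dvd h1
  have hbc : (b : G) ∈ Subgroup.center G := by
    rw [Subgroup.mem_center_iff]
    intro g
    have h2 := congrArg Subtype.val (hb (ConjAct.toConjAct g))
    rw [ConjAct.Subgroup.val_conj_smul, ConjAct.toConjAct_smul] at h2
    calc g * b = (g * b * g⁻¹) * g := by group
      _ = b * g := by rw [h2]
  -- the subgroup K ⊓ Z is a nontrivial p-group
  have hne2 : K ⊓ Subgroup.center G ≠ ⊥ := by
    intro h
    have : (b : G) ∈ K ⊓ Subgroup.center G := ⟨b.2, hbc⟩
    rw [h, Subgroup.mem_bot] at this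
    exact hb1 (Subtype.ext this.symm)
  haveI : Nontrivial ↥(K ⊓ Subgroup.center G) := (Subgroup.nontrivial_iff_ne_bot _).mpr hne2
  have dvd2 : p ∣ Nat.card ↥(K ⊓ Subgroup.center G) := by
    obtain ⟨n, hn0, hn⟩ := (hG.to_subgroup (K ⊓ Subgroup.center G)).nontrivial_iff_card.mp inferInstance
    exact hn.symm ▸ dvd_pow_self _ (ne_of_gt hn0)
  obtain ⟨c, hc⟩ := exists_prime_orderOf_dvd_card' p dvd2
  refine ⟨c, c.2.1, c.2.2, ?_⟩
  rw [Subgroup.orderOf_coe]
  exact hc

theorem mem_zpowers_of_cyclic {Z : Type*} [Group Z] [Finite Z] [IsCyclic Z] {p : ℕ}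
    (hp : p.Prime) {a b : Z} (ha : orderOf a = p) (hb : orderOf b = p) :
    a ∈ Subgroup.zpowers b := by
  classical
  haveI := Fintype.ofFinite Z
  have h1 := IsCyclic.card_pow_eq_one_le (α := Z) hp.pos
  have hsub : (Subgroup.zpowers b : Set Z).toFinset ⊆ Finset.univ.filter (fun x : Z => x ^ p = 1) := by
    intro x hx
    rw [Set.mem_toFinset] at hx
    obtain ⟨i, rfl⟩ := Subgroup.mem_zpowers_iff.mp hx
    simp only [Finset.mem_filter, Finset.mem_univ, true_and]
    rw [← zpow_natCast, ← zpow_mul, mul_comm, zpow_mul, zpow_natCast, ← hb, pow_orderOf_eq_one,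
      one_zpow]
  have hcard : (Subgroup.zpowers b : Set Z).toFinset.card = p := by
    rw [Set.toFinset_card]
    change Fintype.card (Subgroup.zpowers b) = p
    rw [← Nat.card_eq_fintype_card, Nat.card_zpowers, hb]
  have heq := Finset.eq_of_subset_of_card_le hsub (by rw [hcard]; exact h1)
  have ha' : a ∈ Finset.univ.filter (fun x : Z => x ^ p = 1) := by
    simp only [Finset.mem_filter, Finset.mem_univ, true_and]
    rw [← ha, pow_orderOf_eq_one]
  rw [← heq, Set.mem_toFinset] at ha'
  exact ha'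

theorem main (p : ℕ) [hp : Fact p.Prime] (hG : IsPGroup p G) :
    (∃ (n : ℕ) (ρ : Representation ℂ G (Fin n → ℂ)), ρ.IsIrreducible ∧ Function.Injective ρ) ↔
      IsCyclic (Subgroup.center G) := by
  classical
  haveI := Fintype.ofFinite G
  constructor
  · rintro ⟨n, ρ, hρ, hinj⟩
    have hχ : IsIrrCharacter G ρ.character := ⟨n, ρ, hρ, rfl⟩
    have h1 := irr_one_ne_zero hχ
    let f : Subgroup.center G →* ℂ :=
      { toFun := fun z => ρ.character z / ρ.character 1
        map_one' := by rw [Subgroup.coe_one]; exact div_self h1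
        map_mul' := by
          intro z w
          simp only [Subgroup.coe_mul]
          rw [irr_mul_central hχ z.2]
          field_simp }
    apply isCyclic_of_injective_ringHom f
    rw [injective_iff_map_eq_one]
    intro z hz
    have h2 : ρ.character z = ρ.character 1 := by
      have : ρ.character z / ρ.character 1 = 1 := hz
      rwa [div_eq_one_iff_eq h1] at this
    rw [Representation.char_one, char_eq_finrank_iff] at h2
    apply Subtype.ext
    apply hinj
    rw [h2, Subgroup.coe_one, map_one]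
    rfl
  · intro hcyc
    rcases subsingleton_or_nontrivial G with hs | hnt
    · obtain ⟨n, ρ, hρ, _⟩ := isIrrCharacter_one (G := G)
      exact ⟨n, ρ, hρ, Function.injective_of_subsingleton _⟩
    · haveI := hG.center_nontrivial
      have dvd : p ∣ Nat.card (Subgroup.center G) := by
        obtain ⟨n, hn0, hn⟩ := (hG.to_subgroup (Subgroup.center G)).nontrivial_iff_card.mp inferInstance
        exact hn.symm ▸ dvd_pow_self _ (ne_of_gt hn0)
      obtain ⟨a, ha⟩ := exists_prime_orderOf_dvd_card' p dvd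
      have ha1 : (a : G) ≠ 1 := by
        intro h
        have : a = 1 := Subtype.ext h
        rw [this, orderOf_one] at ha
        exact hp.out.one_lt.ne ha
      have hex : ∃ χ : IrrCharacter G, (χ : G → ℂ) a ≠ (χ : G → ℂ) 1 := by
        by_contra hcon
        push Not at hcon
        exact ha1 (eq_one_of_forall_irr hcon)
      obtain ⟨⟨χ, hχ⟩, hχa⟩ := hex
      have hχc := IsIrrCharacter.isCharacter hχ
      have hker : charKer χ hχc = ⊥ := by
        by_contra hne
        obtain ⟨b, hbK, hbZ, hbo⟩ := exists_central_of_normal hG (charKer χ hχc) hne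
        have hbo' : orderOf (⟨b, hbZ⟩ : Subgroup.center G) = p := by
          rw [← Subgroup.orderOf_coe]; exact hbo
        have h3 := mem_zpowers_of_cyclic hp.out ha hbo'
        obtain ⟨i, hi⟩ := Subgroup.mem_zpowers_iff.mp h3
        have h4 : (a : G) = b ^ i := by
          rw [← hi]; simp
        apply hχa
        have : (a : G) ∈ charKer χ hχc := by
          rw [h4]; exact Subgroup.zpow_mem _ hbK i
        exact this
      obtain ⟨n, ρ, hρ, rfl⟩ := hχ
      refine ⟨n, ρ, hρ, ?_⟩
      intro g h hgh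
      have h5 : ρ (g * h⁻¹) = LinearMap.id := by
        rw [map_mul, hgh, ← map_mul, mul_inv_cancel, map_one]; rfl
      rw [← char_eq_finrank_iff, ← Representation.char_one ρ] at h5
      have h6 : g * h⁻¹ ∈ charKer ρ.character hχc := h5
      rw [hker, Subgroup.mem_bot] at h6
      exact mul_inv_eq_one.mp h6

end Cfsg.Agent.Lib.Helper7.PFaith
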