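import Mathlib
import Cfsg.Prelude.Def_Characters
import Cfsg.Prelude.Def_CharExt
import Cfsg.Agent.Lib.Helper7.All1
import Cfsg.Agent.Lib.Helper7.CharKer
import Cfsg.Agent.Lib.Helper7.CharRes
import Cfsg.Agent.Lib.Helper7.CharGen
import Cfsg.Agent.Lib.Helper7.Glaub3
import Cfsg.Agent.Lib.Helper7.Glaub6
import Cfsg.Agent.Lib.Helper7.Glaub8
import Cfsg.Agent.Lib.Helper7.Glaub9
import Cfsg.Agent.Lib.Helper7.Glaub10
import Cfsg.Agent.Lib.Helper7.McKay2
import Cfsg.Agent.Lib.Helper7.AbInd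

set_option autoImplicit false
set_option linter.style.haveILetI false
set_option linter.unusedSectionVars false
set_option linter.unusedVariables false
set_option linter.unusedSimpArgs false

namespace Cfsg.Agent.Lib.Helper7.SNC1

open Module Representation Cfsg
open Cfsg.Agent.Lib.Helper7.CharBasic Cfsg.Agent.Lib.Helper7.CharIrr Cfsg.Agent.Lib.Helper7.CharDecomp Cfsg.Agent.Lib.Helper7.CharComplete Cfsg.Agent.Lib.Helper7.CharOrth Cfsg.Agent.Lib.Helper7.CharInd Cfsg.Agent.Lib.Helper7.CharIntegral Cfsg.Agent.Lib.Helper7.CharBurnside Cfsg.Agent.Lib.Helper7.CharLinear Cfsg.Agent.Lib.Helper7.CharEquiv Cfsg.Agent.Lib.Helper7.CharMore Cfsg.Agent.Lib.Helper7.CharCount Cfsg.Agent.Lib.Helper7.CharMisc Cfsg.Agent.Lib.Helper7.CharMisc2 Cfsg.Agent.Lib.Helper7.CharNormal Cfsg.Agent.Lib.Helper7.CharOdd Cfsg.Agent.Lib.Helper7.CharClifford Cfsg.Agent.Lib.Helper7.CharProd Cfsg.Agent.Lib.Helper7.CharPerm Cfsg.Agent.Lib.Helper7.CharClassAlg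 Cfsg.Agent.Lib.Helper7.CharClassAlg2 Cfsg.Agent.Lib.Helper7.CharCentral Cfsg.Agent.Lib.Helper7.CharNormal2 Cfsg.Agent.Lib.Helper7.CharCliffordCorr Cfsg.Agent.Lib.Helper7.CharKer Cfsg.Agent.Lib.Helper7.CharRes Cfsg.Agent.Lib.Helper7.CharGen Cfsg.Agent.Lib.Helper7.Glaub3 Cfsg.Agent.Lib.Helper7.Glaub6 Cfsg.Agent.Lib.Helper7.Glaub8 Cfsg.Agent.Lib.Helper7.Glaub9 Cfsg.Agent.Lib.Helper7.Glaub10 Cfsg.Agent.Lib.Helper7.McKay2 Cfsg.Agent.Lib.Helper7.AbInd
open scoped ComplexConjugate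

variable {L : Type*} [Group L] [Fintype L]

theorem card_conjClasses_of_comm {A : Type*} [Group A] [Finite A] (h : ∀ a b : A, a * b = b * a) :
    Nat.card (ConjClasses A) = Nat.card A := by
  symm
  refine Nat.card_congr (Equiv.ofBijective ConjClasses.mk ⟨?_, ConjClasses.mk_surjective⟩)
  intro a b hab
  rw [ConjClasses.mk_eq_mk_iff_isConj, isConj_iff] at hab
  obtain ⟨c, hc⟩ := hab
  rw [← hc, h c a]
  group

section
variable (K W₁ W₂ : Subgroup L) [hK : K.Normal] (hKW₁ : K ⊓ W₁ = ⊥) (hKW₁' : K ⊔ W₁ = ⊤)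
  (hW₁c : IsCyclic W₁) (hHall : Nat.Coprime (Nat.card W₁) W₁.index)
  (hW₂c : IsCyclic W₂)
  (hC : ∀ x ∈ W₁, x ≠ 1 → K ⊓ Subgroup.centralizer ({x} : Set L) = W₂)

include hKW₁ hKW₁' hHall in
theorem coprime_KW : (Nat.card K).Coprime (Nat.card W₁) := by
  have h1 := index_eq_card_compl K W₁ hKW₁' hKW₁
  have h2 := Subgroup.card_mul_index K
  have h3 := Subgroup.card_mul_index W₁
  rw [h1] at h2
  have h4 : W₁.index = Nat.card K := by
    have : Nat.card W₁ * W₁.index = Nat.card W₁ * Nat.card K := by rw [h3, ← h2, mul_comm]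
    exact Nat.eq_of_mul_eq_mul_left Nat.card_pos this
  rw [h4] at hHall
  exact hHall.symm

include hC in
theorem inf_centralizer_eq (S : Subgroup L) (hS : S ≤ W₁) (hne : S ≠ ⊥) :
    K ⊓ Subgroup.centralizer (S : Set L) = W₂ := by
  obtain ⟨x, hx, hx1⟩ : ∃ x ∈ S, x ≠ 1 := by
    obtain ⟨x, hx⟩ := Subgroup.ne_bot_iff_exists_ne_one.mp hne
    exact ⟨(x : L), x.2, fun h => hx (Subtype.ext h)⟩
  apply le_antisymm
  · rw [← hC x (hS hx) hx1]
    apply inf_le_inf_left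
    apply Subgroup.centralizer_le
    intro y hy
    rw [Set.mem_singleton_iff.mp hy]
    exact hx
  · intro w hw
    refine Subgroup.mem_inf.mpr ⟨?_, ?_⟩
    · rw [← hC x (hS hx) hx1] at hw
      exact hw.1
    · rw [Subgroup.mem_centralizer_iff]
      intro y hy
      by_cases hy1 : y = 1
      · rw [hy1]; simp
      · rw [← hC y (hS hy) hy1] at hw
        exact (Subgroup.mem_centralizer_singleton_iff.mp hw.2).symm

include hKW₁ hKW₁' hHall hW₁c hW₂c hC in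
theorem NI_eq (S : Subgroup L) (hS : S ≤ W₁) (hne : S ≠ ⊥) : NI K S = Nat.card W₂ := by
  have hcop : (Nat.card K).Coprime (Nat.card S) :=
    Nat.Coprime.coprime_dvd_right (Subgroup.card_dvd_of_le hS) (coprime_KW K W₁ hKW₁ hKW₁' hHall)
  have hnorm : ∀ s ∈ S, ∀ g ∈ K, s * g * s⁻¹ ∈ K := fun s _ g hg => hK.conj_mem g hg s
  have hcommW₁ : ∀ a b : W₁, a * b = b * a := fun a b =>
    (IsCyclic.isMulCommutative (α := W₁)).is_comm.comm a b
  have hsolv : Group.IsSolvable S := by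
    apply Group.isSolvable_of_comm
    intro a b
    have := hcommW₁ ⟨a, hS a.2⟩ ⟨b, hS b.2⟩
    have h2 : (a : L) * b = b * a := congrArg Subtype.val this
    exact Subtype.ext h2
  rw [NI_chain K S hnorm hcop _ S rfl le_rfl
      (fun s hs t ht => S.mul_mem (S.mul_mem hs ht) (S.inv_mem hs)) hsolv,
    NI_trivial _ S (fun c hc s hs =>
      ((Subgroup.mem_centralizer_iff.mp (Subgroup.mem_inf.mp hc).2) s hs).symm),
    inf_centralizer_eq K W₁ W₂ hC S hS hne]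
  exact card_conjClasses_of_comm (fun a b => (IsCyclic.isMulCommutative (α := W₂)).is_comm.comm a b)

include hKW₁ hKW₁' hHall hW₁c hW₂c hC in
/-- a character fixed by one non-identity element of `W₁` is fixed by all of `W₁`. -/
theorem inv_of_inv_one {θ : K → ℂ} (hθ : IsIrrCharacter K θ) {w : L} (hw : w ∈ W₁) (hw1 : w ≠ 1)
    (hinv : InvBy K θ w) : ∀ s ∈ W₁, InvBy K θ s := by
  have hW₁ne : W₁ ≠ ⊥ := by
    intro h
    rw [h, Subgroup.mem_bot] at hw
    exact hw1 hw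
  have hzne : Subgroup.zpowers w ≠ ⊥ := by
    intro h
    apply hw1
    have : w ∈ Subgroup.zpowers w := Subgroup.mem_zpowers w
    rwa [h, Subgroup.mem_bot] at this
  have hzle : Subgroup.zpowers w ≤ W₁ := Subgroup.zpowers_le.mpr hw
  have h1 := NI_eq K W₁ W₂ hKW₁ hKW₁' hW₁c hHall hW₂c hC W₁ le_rfl hW₁ne
  have h2 := NI_eq K W₁ W₂ hKW₁ hKW₁' hW₁c hHall hW₂c hC (Subgroup.zpowers w) hzle hzne
  unfold NI at h1 h2
  have hsub : {χ : K → ℂ | IsIrrCharacter K χ ∧ ∀ s ∈ W₁, InvBy K χ s} ⊆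
      {χ : K → ℂ | IsIrrCharacter K χ ∧ ∀ s ∈ Subgroup.zpowers w, InvBy K χ s} :=
    fun χ hχ => ⟨hχ.1, fun s hs => hχ.2 s (hzle hs)⟩
  have hfin : {χ : K → ℂ | IsIrrCharacter K χ ∧ ∀ s ∈ Subgroup.zpowers w, InvBy K χ s}.Finite := by
    have : {χ : K → ℂ | IsIrrCharacter K χ}.Finite :=
      Set.finite_coe_iff.mp (by
        haveI := Fintype.ofFinite K
        exact (inferInstance : Finite (IrrCharacter K)))
    exact this.subset (fun χ hχ => hχ.1)
  have heq := Set.eq_of_subset_of_ncard_le hsub (by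
    rw [← Nat.card_coe_set_eq, ← Nat.card_coe_set_eq]
    exact le_of_eq (h2.trans h1.symm)) hfin
  have hmem : θ ∈ {χ : K → ℂ | IsIrrCharacter K χ ∧ ∀ s ∈ Subgroup.zpowers w, InvBy K χ s} := by
    refine ⟨hθ, ?_⟩
    have hN : ∀ y : L, y ∈ Subgroup.normalizer (K : Set L) := fun y =>
      mem_normalizer_of_conj K y (fun b hb => hK.conj_mem b hb y)
    have hle : Subgroup.zpowers w ≤ invSub K θ := by
      rw [Subgroup.zpowers_le]
      exact (mem_invSub_iff K θ (hN w)).mpr hinv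
    intro s hs
    exact (mem_invSub_iff K θ (hN s)).mp (hle hs)
  rw [← heq] at hmem
  exact hmem.2

end

end Cfsg.Agent.Lib.Helper7.SNC1
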