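import Mathlib
import Cfsg.Prelude.Def_Characters
import Cfsg.Agent.Lib.Helper7.All1
import Cfsg.Agent.Lib.Helper7.CharKer
import Cfsg.Agent.Lib.Helper7.CharRes
import Cfsg.Agent.Lib.Helper7.CharGen
import Cfsg.Agent.Lib.Helper7.CharGallagher
import Cfsg.Agent.Lib.Helper7.Brauer2
import Cfsg.Agent.Lib.Helper7.Brauer4
import Cfsg.Agent.Lib.Helper7.Brauer5

set_option autoImplicit false
set_option linter.style.haveILetI false
set_option linter.unusedSectionVars false
set_option linter.unusedVariables false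
set_option linter.unusedSimpArgs false

namespace Cfsg.Agent.Lib.Helper7.Solomon1

open Module Representation Cfsg
open Cfsg.Agent.Lib.Helper7.CharBasic Cfsg.Agent.Lib.Helper7.CharIrr Cfsg.Agent.Lib.Helper7.CharDecomp Cfsg.Agent.Lib.Helper7.CharComplete Cfsg.Agent.Lib.Helper7.CharOrth Cfsg.Agent.Lib.Helper7.CharInd Cfsg.Agent.Lib.Helper7.CharIntegral Cfsg.Agent.Lib.Helper7.CharBurnside Cfsg.Agent.Lib.Helper7.CharLinear Cfsg.Agent.Lib.Helper7.CharEquiv Cfsg.Agent.Lib.Helper7.CharMore Cfsg.Agent.Lib.Helper7.CharCount Cfsg.Agent.Lib.Helper7.CharMisc Cfsg.Agent.Lib.Helper7.CharMisc2 Cfsg.Agent.Lib.Helper7.CharNormal Cfsg.Agent.Lib.Helper7.CharOdd Cfsg.Agent.Lib.Helper7.CharClifford Cfsg.Agent.Lib.Helper7.CharProd Cfsg.Agent.Lib.Helper7.CharPerm Cfsg.Agent.Lib.Helper7.CharClassAlg Cfsg.Agent.Lib.Helper7.CharClassAlg2 Cfsg.Agent.Lib.Helper7.CharCentral Cfsg.Agent.Lib.Helper7.CharNormal2 Cfsg.Agent.Lib.Helper7.CharCliffordCorr Cfsg.Agent.Lib.Helper7.CharKer Cfsg.Agent.Lib.Helper7.CharRes Cfsg.Agent.Lib.Helper7.CharGen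 Cfsg.Agent.Lib.Helper7.CharGallagher Cfsg.Agent.Lib.Helper7.Brauer2 Cfsg.Agent.Lib.Helper7.Brauer4 Cfsg.Agent.Lib.Helper7.Brauer5
open scoped ComplexConjugate

universe u

variable {H : Type u} [Group H]

theorem card_smul_eq [Finite H] {X : Type*} [MulAction H X] (x z : X)
    (hz : z ∈ MulAction.orbit H x) :
    Nat.card {y : H // y • x = z} = Nat.card (MulAction.stabilizer H x) := by
  obtain ⟨y₀, rfl⟩ := hz
  symm
  apply Nat.card_congr
  refine ⟨fun s => ⟨y₀ * s, ?_⟩, fun y => ⟨y₀⁻¹ * y, ?_⟩, ?_, ?_⟩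
  · show (y₀ * (s : H)) • x = y₀ • x
    rw [mul_smul, s.2]
  · rw [MulAction.mem_stabilizer_iff, mul_smul, y.2, inv_smul_smul]
  · intro s; apply Subtype.ext; simp
  · intro y; apply Subtype.ext; simp

open Classical in
theorem indFun_stabilizer [Fintype H] {X : Type*} [Fintype X] [MulAction H X] (x : X) (h : H) :
    indFun (MulAction.stabilizer H x) (fun _ => (1 : ℂ)) h =
      ∑ z : X, if z ∈ MulAction.orbit H x ∧ h • z = z then (1 : ℂ) else 0 := by
  unfold indFun
  simp only [extendByZero_one]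
  have h1 : ∀ y : H, (if y⁻¹ * h * y ∈ MulAction.stabilizer H x then (1 : ℂ) else 0) =
      ∑ z : X, if y • x = z ∧ h • z = z then (1 : ℂ) else 0 := by
    intro y
    have h2 : ∀ z : X, (if y • x = z ∧ h • z = z then (1 : ℂ) else 0) =
        if y • x = z then (if h • (y • x) = y • x then (1 : ℂ) else 0) else 0 := by
      intro z
      by_cases hz : y • x = z
      · subst hz; simp
      · simp [hz]
    simp only [h2, Finset.sum_ite_eq, Finset.mem_univ, if_true]
    have h3 : y⁻¹ * h * y ∈ MulAction.stabilizer H x ↔ h • (y • x) = y • x := by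
      rw [MulAction.mem_stabilizer_iff, mul_smul, mul_smul, inv_smul_eq_iff]
    simp only [h3]
  simp only [h1]
  rw [Finset.sum_comm, Finset.mul_sum]
  apply Finset.sum_congr rfl
  intro z _
  have hS : (Nat.card (MulAction.stabilizer H x) : ℂ) ≠ 0 := by exact_mod_cast Nat.card_pos.ne'
  by_cases hfix : h • z = z
  · simp only [hfix, and_true]
    rw [← Finset.sum_filter, Finset.sum_const, nsmul_eq_mul, mul_one, ← Fintype.card_subtype,
      ← Nat.card_eq_fintype_card]
    by_cases hz : z ∈ MulAction.orbit H x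
    · rw [card_smul_eq x z hz, if_pos hz]
      field_simp
    · rw [if_neg hz]
      have : IsEmpty {y : H // y • x = z} := ⟨fun y => hz ⟨y.1, y.2⟩⟩
      rw [Nat.card_of_isEmpty (α := {y : H // y • x = z})]
      simp
  · simp [hfix]

/-- A permutation character is a sum of transitive permutation characters. -/
theorem permChar_decomp [Fintype H] (X : Type*) [Fintype X] [MulAction H X] :
    ∃ a : Subgroup H → ℕ, (fun h : H => (Nat.card (MulAction.fixedBy X h) : ℂ)) =
      ∑ S : Subgroup H, (a S : ℂ) • indFun S (fun _ => (1 : ℂ)) := by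
  classical
  haveI : Fintype (MulAction.orbitRel.Quotient H X) := Fintype.ofFinite _
  refine ⟨fun S => (Finset.univ.filter (fun ω : MulAction.orbitRel.Quotient H X =>
    MulAction.stabilizer H ω.out = S)).card, ?_⟩
  have h1 : ∑ S : Subgroup H, (((Finset.univ.filter (fun ω : MulAction.orbitRel.Quotient H X =>
      MulAction.stabilizer H ω.out = S)).card : ℕ) : ℂ) • indFun S (fun _ => (1 : ℂ)) =
      ∑ ω : MulAction.orbitRel.Quotient H X,
        indFun (MulAction.stabilizer H ω.out) (fun _ => (1 : ℂ)) := by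
    rw [← Finset.sum_fiberwise Finset.univ (fun ω : MulAction.orbitRel.Quotient H X =>
      MulAction.stabilizer H ω.out)]
    apply Finset.sum_congr rfl
    intro S _
    rw [Finset.sum_congr rfl (g := fun _ => indFun S (fun _ => (1 : ℂ)))]
    · rw [Finset.sum_const]
      funext h
      simp
    · intro ω hω
      rw [(Finset.mem_filter.mp hω).2]
  rw [h1]
  funext h
  rw [Finset.sum_apply]
  simp only [indFun_stabilizer]
  rw [Finset.sum_comm]
  have h2 : ∀ z : X, ∑ ω : MulAction.orbitRel.Quotient H X,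
      (if z ∈ MulAction.orbit H ω.out ∧ h • z = z then (1 : ℂ) else 0) =
      if h • z = z then 1 else 0 := by
    intro z
    have h3 : ∀ ω : MulAction.orbitRel.Quotient H X, z ∈ MulAction.orbit H ω.out ↔
        (Quotient.mk _ z : MulAction.orbitRel.Quotient H X) = ω := by
      intro ω
      rw [← MulAction.orbitRel_apply]
      constructor
      · intro h4
        have := Quotient.sound (s := MulAction.orbitRel H X) h4
        rw [this, Quotient.out_eq]
      · intro h4
        apply Quotient.exact (s := MulAction.orbitRel H X)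
        rw [Quotient.out_eq]
        exact h4
    by_cases hfix : h • z = z
    · simp only [hfix, and_true, h3, Finset.sum_ite_eq, Finset.mem_univ, if_true]
    · simp [hfix]
  simp only [h2]
  rw [← Finset.sum_filter, Finset.sum_const, nsmul_eq_mul, mul_one, Nat.card_eq_fintype_card,
    ← Fintype.card_subtype]
  rfl

end Cfsg.Agent.Lib.Helper7.Solomon1
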