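import Mathlib
import Cfsg.Prelude.Def_Characters
import Cfsg.Agent.Lib.Helper7.All1
import Cfsg.Agent.Lib.Helper7.CharKer
import Cfsg.Agent.Lib.Helper7.CharRes
import Cfsg.Agent.Lib.Helper7.CharGen
import Cfsg.Agent.Lib.Helper7.CharGallagher
import Cfsg.Agent.Lib.Helper7.Brauer2
import Cfsg.Agent.Lib.Helper7.Brauer4
import Cfsg.Agent.Lib.Helper7.Brauer5
import Cfsg.Agent.Lib.Helper7.Solomon1

set_option autoImplicit false
set_option linter.style.haveILetI false
set_option linter.unusedSectionVars false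
set_option linter.unusedVariables false
set_option linter.unusedSimpArgs false

namespace Cfsg.Agent.Lib.Helper7.Solomon2

open Module Representation Cfsg
open Cfsg.Agent.Lib.Helper7.CharBasic Cfsg.Agent.Lib.Helper7.CharIrr Cfsg.Agent.Lib.Helper7.CharDecomp Cfsg.Agent.Lib.Helper7.CharComplete Cfsg.Agent.Lib.Helper7.CharOrth Cfsg.Agent.Lib.Helper7.CharInd Cfsg.Agent.Lib.Helper7.CharIntegral Cfsg.Agent.Lib.Helper7.CharBurnside Cfsg.Agent.Lib.Helper7.CharLinear Cfsg.Agent.Lib.Helper7.CharEquiv Cfsg.Agent.Lib.Helper7.CharMore Cfsg.Agent.Lib.Helper7.CharCount Cfsg.Agent.Lib.Helper7.CharMisc Cfsg.Agent.Lib.Helper7.CharMisc2 Cfsg.Agent.Lib.Helper7.CharNormal Cfsg.Agent.Lib.Helper7.CharOdd Cfsg.Agent.Lib.Helper7.CharClifford Cfsg.Agent.Lib.Helper7.CharProd Cfsg.Agent.Lib.Helper7.CharPerm Cfsg.Agent.Lib.Helper7.CharClassAlg Cfsg.Agent.Lib.Helper7.CharClassAlg2 Cfsg.Agent.Lib.Helper7.CharCentral Cfsg.Agent.Lib.Helper7.CharNormal2 Cfsg.Agent.Lib.Helper7.CharCliffordCorr Cfsg.Agent.Lib.Helper7.CharKer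 Cfsg.Agent.Lib.Helper7.CharRes Cfsg.Agent.Lib.Helper7.CharGen Cfsg.Agent.Lib.Helper7.CharGallagher Cfsg.Agent.Lib.Helper7.Brauer2 Cfsg.Agent.Lib.Helper7.Brauer4 Cfsg.Agent.Lib.Helper7.Brauer5 Cfsg.Agent.Lib.Helper7.Solomon1
open scoped ComplexConjugate

universe u

variable {G : Type u} [Group G]

theorem indFun_sum_smul [Fintype G] (H : Subgroup G) {ι : Type*} (s : Finset ι) (c : ι → ℂ)
    (f : ι → H → ℂ) : indFun H (∑ i ∈ s, c i • f i) = ∑ i ∈ s, c i • indFun H (f i) := by
  classical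
  induction s using Finset.induction_on with
  | empty => simp [indFun_zero]
  | insert a s ha ih => rw [Finset.sum_insert ha, Finset.sum_insert ha, indFun_add,
      indFun_smul, ih]

theorem mul_perm [Fintype G] (H K : Subgroup G) :
    ∃ a : Subgroup G → ℕ, (∀ U, a U ≠ 0 → U ≤ H) ∧
      indFun H (fun _ => (1 : ℂ)) * indFun K (fun _ => (1 : ℂ)) =
        ∑ U : Subgroup G, (a U : ℂ) • indFun U (fun _ => (1 : ℂ)) := by
  classical
  haveI : Fintype H := Fintype.ofFinite _
  haveI : Fintype (G ⧸ K) := Fintype.ofFinite _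
  have hK : indFun K (fun _ => (1 : ℂ)) =
      fun g : G => (Nat.card (MulAction.fixedBy (G ⧸ K) g) : ℂ) := by
    have h1 := permChar_eq_indFun (G := G) (G ⧸ K) ((1 : G) : G ⧸ K)
    rw [MulAction.stabilizer_quotient K] at h1
    exact h1.symm
  have hcl : IsClassFunction G (indFun K (fun _ => (1 : ℂ))) := indFun_isClassFunction K _
  obtain ⟨a', ha'⟩ := permChar_decomp (H := H) (G ⧸ K)
  have hres : (fun h : H => indFun K (fun _ => (1 : ℂ)) (h : G)) =
      ∑ S : Subgroup H, (a' S : ℂ) • indFun S (fun _ => (1 : ℂ)) := by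
    rw [← ha', hK]
    rfl
  refine ⟨fun U => if U ≤ H then a' (U.subgroupOf H) else 0, ?_, ?_⟩
  · intro U hU
    by_contra hle
    exact hU (if_neg hle)
  · rw [← indFun_mul_restrict H _ hcl, hres]
    have h2 : ((fun _ : H => (1 : ℂ)) * ∑ S : Subgroup H, (a' S : ℂ) • indFun S (fun _ => (1 : ℂ))) =
        ∑ S : Subgroup H, (a' S : ℂ) • indFun S (fun _ => (1 : ℂ)) := by
      funext h; simp
    rw [h2, indFun_sum_smul]
    apply Fintype.sum_of_injective (fun S : Subgroup H => S.map H.subtype)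
      (Subgroup.map_injective H.subtype_injective)
    · intro U hU
      have hle : ¬ U ≤ H := by
        intro hle
        apply hU
        refine ⟨U.subgroupOf H, ?_⟩
        show (U.subgroupOf H).map H.subtype = U
        rw [Subgroup.subgroupOf_map_subtype, inf_eq_left.mpr hle]
      simp only [if_neg hle, Nat.cast_zero, zero_smul]
    · intro S
      simp only
      rw [if_pos (Subgroup.map_subtype_le S), indFun_map]
      have h3 : (S.map H.subtype).subgroupOf H = S :=
        Subgroup.comap_map_eq_self_of_injective H.subtype_injective S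
      rw [h3]
      rfl

/-- the `ℤ`-span of the permutation characters `(1_H)^G`, `H` satisfying `𝓗` -/
def PermSpan (G : Type*) [Group G] [Fintype G] (𝓗 : Subgroup G → Prop) : AddSubgroup (G → ℂ) :=
  AddSubgroup.closure {f | ∃ H : Subgroup G, 𝓗 H ∧ f = indFun H (fun _ => (1 : ℂ))}

theorem PermSpan.mul_mem [Fintype G] {𝓗 : Subgroup G → Prop}
    (hsub : ∀ H U : Subgroup G, 𝓗 H → U ≤ H → 𝓗 U) {f g : G → ℂ}
    (hf : f ∈ PermSpan G 𝓗) (hg : g ∈ PermSpan G 𝓗) : f * g ∈ PermSpan G 𝓗 := by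
  induction hf using AddSubgroup.closure_induction with
  | mem f hf =>
    obtain ⟨H, hH, rfl⟩ := hf
    induction hg using AddSubgroup.closure_induction with
    | mem g hg =>
      obtain ⟨K, hK, rfl⟩ := hg
      obtain ⟨a, ha, hsum⟩ := mul_perm H K
      rw [hsum]
      apply AddSubgroup.sum_mem
      intro U _
      by_cases hU : a U = 0
      · rw [hU]; simp only [Nat.cast_zero, zero_smul]; exact AddSubgroup.zero_mem _
      · have hmem : indFun U (fun _ => (1 : ℂ)) ∈ PermSpan G 𝓗 :=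
          AddSubgroup.subset_closure ⟨U, hsub H U hH (ha U hU), rfl⟩
        have : (a U : ℂ) • indFun U (fun _ => (1 : ℂ)) = a U • indFun U (fun _ => (1 : ℂ)) := by
          funext x; simp
        rw [this]
        exact AddSubgroup.nsmul_mem _ hmem _
    | zero => rw [mul_zero]; exact AddSubgroup.zero_mem _
    | add f g _ _ h1 h2 => rw [mul_add]; exact AddSubgroup.add_mem _ h1 h2
    | neg f _ h1 => rw [mul_neg]; exact AddSubgroup.neg_mem _ h1
  | zero => rw [zero_mul]; exact AddSubgroup.zero_mem _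
  | add f g _ _ h1 h2 => rw [add_mul]; exact AddSubgroup.add_mem _ h1 h2
  | neg f _ h1 => rw [neg_mul]; exact AddSubgroup.neg_mem _ h1

theorem PermSpan.exists_coeff [Fintype G] {𝓗 : Subgroup G → Prop} {f : G → ℂ}
    (hf : f ∈ PermSpan G 𝓗) : ∃ a : Subgroup G → ℤ, (∀ H, a H ≠ 0 → 𝓗 H) ∧
      f = ∑ H : Subgroup G, (a H : ℂ) • indFun H (fun _ => (1 : ℂ)) := by
  classical
  induction hf using AddSubgroup.closure_induction with
  | mem f hf =>
    obtain ⟨H, hH, rfl⟩ := hf
    refine ⟨fun U => if U = H then 1 else 0, ?_, ?_⟩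
    · intro U hU
      by_cases h : U = H
      · rw [h]; exact hH
      · exact absurd (if_neg h) hU
    · rw [Finset.sum_eq_single H]
      · simp
      · intro U _ hU; simp [hU]
      · intro h; exact absurd (Finset.mem_univ _) h
  | zero => exact ⟨0, by simp, by simp⟩
  | add f g _ _ h1 h2 =>
    obtain ⟨a, ha, rfl⟩ := h1
    obtain ⟨b, hb, rfl⟩ := h2
    refine ⟨a + b, ?_, ?_⟩
    · intro H hH
      by_cases h : a H = 0
      · apply hb
        intro h'
        apply hH
        simp [h, h']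
      · exact ha H h
    · rw [← Finset.sum_add_distrib]
      apply Finset.sum_congr rfl
      intro H _
      simp [add_smul]
  | neg f _ h1 =>
    obtain ⟨a, ha, rfl⟩ := h1
    refine ⟨-a, ?_, ?_⟩
    · intro H hH
      apply ha
      intro h'
      apply hH
      simp [h']
    · rw [← Finset.sum_neg_distrib]
      apply Finset.sum_congr rfl
      intro H _
      simp

theorem IsQE.of_le [Finite G] {p : ℕ} (hp : p.Prime) {H U : Subgroup G} (hH : IsQE p H)
    (hU : U ≤ H) : IsQE p U := by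
  obtain ⟨C, hCH, hHN, hcyc, hcop, k, hk⟩ := hH
  refine ⟨C ⊓ U, inf_le_right, ?_, ?_, ?_, ?_⟩
  · intro u hu
    have h1 := hHN (hU hu)
    rw [Subgroup.mem_normalizer_iff] at h1 ⊢
    intro c
    rw [Subgroup.mem_inf, Subgroup.mem_inf, h1 c]
    constructor
    · rintro ⟨h2, h3⟩
      exact ⟨h2, U.mul_mem (U.mul_mem hu h3) (U.inv_mem hu)⟩
    · rintro ⟨h2, h3⟩
      refine ⟨h2, ?_⟩
      have : c = u⁻¹ * (u * c * u⁻¹) * u := by group
      rw [this]
      exact U.mul_mem (U.mul_mem (U.inv_mem hu) h3) hu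
  · exact isCyclic_of_injective (Subgroup.inclusion (inf_le_left : C ⊓ U ≤ C))
      (Subgroup.inclusion_injective _)
  · exact Nat.Coprime.coprime_dvd_left (Subgroup.card_dvd_of_le inf_le_left) hcop
  · rw [Subgroup.inf_relIndex_right]
    haveI : (C.subgroupOf H).Normal := (Subgroup.normal_subgroupOf_iff_le_normalizer hCH).mpr hHN
    have h1 : (C.subgroupOf H).relIndex (U.subgroupOf H) ∣ (C.subgroupOf H).index :=
      Subgroup.relIndex_dvd_index_of_normal _ _
    rw [Subgroup.relIndex_subgroupOf hU] at h1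
    have h2 : C.relIndex U ∣ p ^ k := hk ▸ h1
    obtain ⟨j, -, hj⟩ := (Nat.dvd_prime_pow hp).mp h2
    exact ⟨j, hj⟩

/-- Solomon's induction theorem, local form. -/
theorem solomon_local [Fintype G] (p : ℕ) (hp : p.Prime) :
    ∃ m : ℤ, ¬ (p : ℤ) ∣ m ∧ (fun _ : G => (m : ℂ)) ∈ PermSpan G (fun H => IsQE p H) :=
  banaschewski (PermSpan G (fun H => IsQE p H))
    (fun f hf g hg => PermSpan.mul_mem (fun H U hH hU => IsQE.of_le hp hH hU) hf hg) p hp (by
      intro x
      obtain ⟨H, hH, n, hn, hpn⟩ := exists_qe x p hp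
      refine ⟨_, AddSubgroup.subset_closure ⟨H, hH, rfl⟩, n, by rw [hn]; simp, ?_⟩
      intro hd
      exact hpn (by exact_mod_cast hd))

end Cfsg.Agent.Lib.Helper7.Solomon2
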