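import Mathlib
import Cfsg.Prelude.Def_Characters
import Cfsg.Agent.Lib.Helper7.All1
import Cfsg.Agent.Lib.Helper7.CharKer

set_option autoImplicit false
set_option linter.style.haveILetI false
set_option linter.unusedSectionVars false
set_option linter.unusedVariables false
set_option linter.unusedSimpArgs false

namespace Cfsg.Agent.Lib.Helper7.Taketa

open Module Representation Cfsg
open Cfsg.Agent.Lib.Helper7.CharBasic Cfsg.Agent.Lib.Helper7.CharIrr Cfsg.Agent.Lib.Helper7.CharDecomp Cfsg.Agent.Lib.Helper7.CharComplete Cfsg.Agent.Lib.Helper7.CharOrth Cfsg.Agent.Lib.Helper7.CharInd Cfsg.Agent.Lib.Helper7.CharIntegral Cfsg.Agent.Lib.Helper7.CharBurnside Cfsg.Agent.Lib.Helper7.CharLinear Cfsg.Agent.Lib.Helper7.CharEquiv Cfsg.Agent.Lib.Helper7.CharMore Cfsg.Agent.Lib.Helper7.CharCount Cfsg.Agent.Lib.Helper7.CharMisc Cfsg.Agent.Lib.Helper7.CharMisc2 Cfsg.Agent.Lib.Helper7.CharNormal Cfsg.Agent.Lib.Helper7.CharOdd Cfsg.Agent.Lib.Helper7.CharClifford Cfsg.Agent.Lib.Helper7.CharProd Cfsg.Agent.Lib.Helper7.CharPerm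 Cfsg.Agent.Lib.Helper7.CharClassAlg Cfsg.Agent.Lib.Helper7.CharClassAlg2 Cfsg.Agent.Lib.Helper7.CharCentral Cfsg.Agent.Lib.Helper7.CharNormal2 Cfsg.Agent.Lib.Helper7.CharCliffordCorr Cfsg.Agent.Lib.Helper7.CharKer
open scoped ComplexConjugate

variable {G : Type*} [Group G] [Fintype G]

theorem indFun_hom_eq (H : Subgroup G) (lam : H →* ℂˣ) (x : G)
    (hx : ∀ g : G, ∃ h : g⁻¹ * x * g ∈ H, lam ⟨_, h⟩ = 1) :
    indFun H (fun h => ((lam h : ℂˣ) : ℂ)) x = indFun H (fun h => ((lam h : ℂˣ) : ℂ)) 1 := by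
  unfold indFun
  congr 1
  apply Finset.sum_congr rfl
  intro g _
  obtain ⟨h, hl⟩ := hx g
  rw [extendByZero_of_mem H _ h, hl]
  have h1 : g⁻¹ * 1 * g = 1 := by group
  rw [h1, extendByZero_of_mem H _ H.one_mem]
  have : (⟨1, H.one_mem⟩ : H) = 1 := rfl
  rw [this, map_one]

theorem mem_of_indFun_one_eq (H : Subgroup G) (x : G)
    (h : indFun H (fun _ => (1 : ℂ)) x = indFun H (fun _ => (1 : ℂ)) 1) : x ∈ H := by
  classical
  unfold indFun at h
  have hne : ((Nat.card H : ℂ))⁻¹ ≠ 0 := inv_ne_zero (by exact_mod_cast Nat.card_pos.ne')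
  have h1 := mul_left_cancel₀ hne h
  have h2 : ∀ y : G, extendByZero H (fun _ => (1 : ℂ)) y = if y ∈ H then 1 else 0 := by
    intro y
    split_ifs with hy
    · rw [extendByZero_of_mem H _ hy]
    · rw [extendByZero_of_not_mem H _ hy]
  simp only [h2, Finset.sum_boole] at h1
  have h3 : (Finset.univ.filter (fun g : G => g⁻¹ * x * g ∈ H)).card =
      (Finset.univ.filter (fun g : G => g⁻¹ * 1 * g ∈ H)).card := by exact_mod_cast h1
  have h4 : Finset.univ.filter (fun g : G => g⁻¹ * 1 * g ∈ H) = Finset.univ := by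
    ext g
    simp [H.one_mem]
  rw [h4] at h3
  have h5 := Finset.eq_of_subset_of_card_le (Finset.filter_subset _ _) (le_of_eq h3.symm)
  have h6 : (1 : G) ∈ Finset.univ.filter (fun g : G => g⁻¹ * x * g ∈ H) := by
    rw [h5]; exact Finset.mem_univ _
  simpa using h6

theorem taketa_aux (hM : ∀ χ : G → ℂ, IsIrrCharacter G χ → ∃ (H : Subgroup G) (lam : H →* ℂˣ),
    χ = indFun H (fun h => (lam h : ℂ))) : ∀ d : ℕ, ∀ χ : G → ℂ, IsIrrCharacter G χ → χ 1 = d →
    ∀ x ∈ derivedSeries G d, χ x = χ 1 := by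
  classical
  haveI := Fintype.ofFinite (IrrCharacter G)
  intro d
  induction d using Nat.strong_induction_on with
  | _ d ih =>
    intro χ hχ hd x hx
    obtain ⟨H, lam, rfl⟩ := hM χ hχ
    haveI := Fintype.ofFinite H
    have hidx : H.index = d := by
      rw [indFun_one] at hd
      simp only [map_one, Units.val_one, mul_one] at hd
      exact_mod_cast hd
    have hd0 : d ≠ 0 := by rw [← hidx]; exact Subgroup.index_ne_zero_of_finite
    have hA : ∀ y ∈ derivedSeries G (d - 1), y ∈ H := by
      intro y hy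
      by_cases hd1 : d = 1
      · rw [hd1, Subgroup.index_eq_one] at hidx
        rw [hidx]; exact Subgroup.mem_top y
      · have hd2 : 2 ≤ d := by omega
        apply mem_of_indFun_one_eq
        have hπc : IsCharacter G (indFun H (fun _ => (1 : ℂ))) :=
          isCharacter_indFun H _ (IsIrrCharacter.isCharacter isIrrCharacter_one)
        have hm0 : ∀ ψ : IrrCharacter G, ∃ m : ℕ,
            classInner (indFun H (fun _ => (1 : ℂ))) ψ.1 = m := fun ψ =>
          classInner_isCharacter_nat hπc (IsIrrCharacter.isCharacter ψ.2)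
        choose m hm using hm0
        choose e he using fun ψ : IrrCharacter G =>
          irr_one_eq_natCast (IsIrrCharacter.isCharacter ψ.2)
        have hdec := classFunction_eq_sum (IsCharacter.isClassFunction hπc)
        have hdeg : d = ∑ ψ : IrrCharacter G, m ψ * e ψ := by
          have h1 := congrFun hdec 1
          rw [indFun_one] at h1
          simp only [Finset.sum_apply, Pi.smul_apply, smul_eq_mul, hm, he, mul_one, hidx] at h1
          exact_mod_cast h1
        have hm1 : m ⟨fun _ => 1, isIrrCharacter_one⟩ = 1 := by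
          have h1 := hm ⟨fun _ => 1, isIrrCharacter_one⟩
          simp only at h1
          rw [frobenius_reciprocity H _ _ (IsIrrCharacter.isClassFunction isIrrCharacter_one),
            classInner_irr isIrrCharacter_one isIrrCharacter_one, if_pos rfl] at h1
          exact_mod_cast h1.symm
        have he1 : e ⟨fun _ => 1, isIrrCharacter_one⟩ = 1 := by
          have h1 := he ⟨fun _ => 1, isIrrCharacter_one⟩
          simp only at h1
          exact_mod_cast h1.symm
        have hterm : ∀ ψ : IrrCharacter G, (m ψ : ℂ) * ψ.1 y = (m ψ : ℂ) * ψ.1 1 := by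
          intro ψ
          by_cases hmz : m ψ = 0
          · rw [hmz]; simp
          · have hle : e ψ ≤ d - 1 := by
              by_cases hψ1 : ψ = ⟨fun _ => 1, isIrrCharacter_one⟩
              · rw [hψ1, he1]; omega
              · have h1 : m ⟨fun _ => 1, isIrrCharacter_one⟩ * e ⟨fun _ => 1, isIrrCharacter_one⟩ +
                    m ψ * e ψ ≤ d := by
                  rw [hdeg, ← Finset.add_sum_erase Finset.univ _
                    (Finset.mem_univ (⟨fun _ => 1, isIrrCharacter_one⟩ : IrrCharacter G))]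
                  apply Nat.add_le_add_left
                  exact Finset.single_le_sum (f := fun ψ => m ψ * e ψ) (fun _ _ => Nat.zero_le _)
                    (Finset.mem_erase.mpr ⟨hψ1, Finset.mem_univ ψ⟩)
                rw [hm1, he1] at h1
                have h2 : e ψ ≤ m ψ * e ψ := Nat.le_mul_of_pos_left _ (Nat.pos_of_ne_zero hmz)
                omega
            have h3 := ih (e ψ) (by omega) ψ.1 ψ.2 (he ψ) y (derivedSeries_antitone G hle hy)
            rw [h3]
        have h1 := congrFun hdec y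
        have h2 := congrFun hdec 1
        simp only [Finset.sum_apply, Pi.smul_apply, smul_eq_mul, hm] at h1 h2
        rw [h1, h2]
        exact Finset.sum_congr rfl (fun ψ _ => hterm ψ)
    apply indFun_hom_eq
    have hsucc : derivedSeries G d = ⁅derivedSeries G (d - 1), derivedSeries G (d - 1)⁆ := by
      have : d = (d - 1) + 1 := by omega
      conv_lhs => rw [this]
      rw [derivedSeries_succ]
    have hle : derivedSeries G d ≤ (lam.ker).map H.subtype := by
      rw [hsucc, Subgroup.commutator_le]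
      intro a ha b hb
      refine ⟨(⟨a, hA a ha⟩ : H) * ⟨b, hA b hb⟩ * (⟨a, hA a ha⟩ : H)⁻¹ * (⟨b, hA b hb⟩ : H)⁻¹, ?_, rfl⟩
      change lam _ = 1
      rw [map_mul, map_mul, map_mul, map_inv, map_inv,
        mul_comm (lam ⟨a, hA a ha⟩)]
      simp
    intro g
    have hn : g⁻¹ * x * g ∈ derivedSeries G d := by
      have := (derivedSeries_normal G d).conj_mem x hx g⁻¹
      simpa using this
    obtain ⟨h, hh, hh2⟩ := hle hn
    have hmem : g⁻¹ * x * g ∈ H := by rw [← hh2]; exact h.2
    refine ⟨hmem, ?_⟩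
    have : (⟨g⁻¹ * x * g, hmem⟩ : H) = h := Subtype.ext hh2.symm
    rw [this]
    exact hh

theorem taketa (hM : ∀ χ : G → ℂ, IsIrrCharacter G χ → ∃ (H : Subgroup G) (lam : H →* ℂˣ),
    χ = indFun H (fun h => (lam h : ℂ))) : Group.IsSolvable G := by
  rw [Group.isSolvable_def]
  refine ⟨Nat.card G, ?_⟩
  rw [eq_bot_iff]
  intro x hx
  rw [Subgroup.mem_bot]
  apply eq_one_of_forall_irr
  intro χ
  obtain ⟨d, hd⟩ := irr_one_eq_natCast (IsIrrCharacter.isCharacter χ.2)
  have hle : d ≤ Nat.card G := Nat.le_of_dvd Nat.card_pos (irr_degree_dvd_card χ.2 hd)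
  exact taketa_aux hM d χ.1 χ.2 hd x (derivedSeries_antitone G hle hx)

end Cfsg.Agent.Lib.Helper7.Taketa
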